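import Mathlib

/-! A subgroup of order `2520` acting faithfully and additively on a group `V` of order `16` and
exponent two is doubly transitive on the nonzero vectors (so: `A₇` inside `GL₄(2)`). -/

set_option autoImplicit false

namespace Cfsg.Agent.Lib.Misc19

open MulAction

section general

variable {K S : Type*} [Group K] [MulAction K S]

/-- Fixed points of a `p`-element, modulo `p`. -/
theorem card_modEq_fix [Finite S] (x : K) (p : ℕ) [Fact p.Prime] (hx : x ^ p = 1) :
    Nat.card S ≡ Nat.card {a : S // x • a = a} [MOD p] := by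
  classical
  haveI := Fintype.ofFinite S
  let f : Function.End S := fun a => x • a
  have hf : f ^ p ^ 1 = 1 := by
    have h : ∀ n : ℕ, ∀ a : S, (f ^ n) a = (x ^ n) • a := by
      intro n
      induction n with
      | zero => intro a; rw [pow_zero, pow_zero, one_smul]; rfl
      | succ n ih =>
        intro a
        rw [pow_succ, pow_succ]
        change (f ^ n) (x • a) = (x ^ n * x) • a
        rw [ih, mul_smul]
    funext a
    rw [pow_one, h, hx, one_smul]
    rfl
  have h := Equiv.Perm.card_fixedPoints_modEq (f := f) (p := p) (n := 1) hf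
  have e1 : Nat.card S = Fintype.card S := Nat.card_eq_fintype_card
  have e2 : Nat.card {a : S // x • a = a} = Fintype.card (Function.fixedPoints f) := by
    rw [Nat.card_eq_fintype_card]
    refine Fintype.card_congr (Equiv.subtypeEquivRight fun a => ?_)
    rfl
  rw [e1, e2]
  exact h

/-- A fixed-point-free involution forces even cardinality. -/
theorem two_dvd_card_of_involution {T : Type*} [Finite T] (f : T → T) (hf : ∀ a, f (f a) = a)
    (hne : ∀ a, f a ≠ a) : 2 ∣ Nat.card T := by
  classical
  haveI := Fintype.ofFinite T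
  let g : Function.End T := f
  have hg : g ^ 2 ^ 1 = 1 := by
    funext a
    rw [pow_one, pow_two]
    exact hf a
  haveI : Fact (Nat.Prime 2) := ⟨Nat.prime_two⟩
  have h := Equiv.Perm.card_fixedPoints_modEq (f := g) (p := 2) (n := 1) hg
  have e2 : Fintype.card (Function.fixedPoints g) = 0 := by
    rw [Fintype.card_eq_zero_iff]
    exact ⟨fun a => hne a.1 a.2⟩
  rw [e2] at h
  rw [Nat.card_eq_fintype_card]
  exact (Nat.modEq_zero_iff_dvd).mp h

end general

variable {H V : Type*} [Group H] [AddCommGroup V] [DistribMulAction H V]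

/-- The additive subgroup of fixed vectors. -/
def fixAdd (x : H) : AddSubgroup V where
  carrier := {v | x • v = v}
  add_mem' := by
    intro a b ha hb
    simp only [Set.mem_ofPred_eq] at *
    rw [smul_add, ha, hb]
  zero_mem' := by simp
  neg_mem' := by
    intro a ha
    simp only [Set.mem_ofPred_eq] at *
    rw [smul_neg, ha]

theorem card_fix_dvd [Finite V] (x : H) : Nat.card {v : V // x • v = v} ∣ Nat.card V := by
  have := AddSubgroup.card_addSubgroup_dvd_card (fixAdd (V := V) x)
  exact this

theorem card_fix_ne [Finite V] [FaithfulSMul H V] (x : H) (hx : x ≠ 1) :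
    Nat.card {v : V // x • v = v} ≠ Nat.card V := by
  intro h
  apply hx
  apply FaithfulSMul.eq_of_smul_eq_smul (α := V)
  intro v
  rw [one_smul]
  have hinj : Function.Injective (Subtype.val : {v : V // x • v = v} → V) := Subtype.val_injective
  have hbij := (Nat.bijective_iff_injective_and_card (Subtype.val : {v : V // x • v = v} → V)).mpr ⟨hinj, h⟩
  obtain ⟨a, ha⟩ := hbij.2 v
  rw [← ha]
  exact a.2

section order

variable [Finite V] [FaithfulSMul H V]

theorem divisors_16 {d : ℕ} (h : d ∣ 16) : d = 1 ∨ d = 2 ∨ d = 4 ∨ d = 8 ∨ d = 16 := by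
  have : d ≤ 16 := Nat.le_of_dvd (by norm_num) h
  interval_cases d <;> simp_all (config := {decide := true})

/-- Elements of order five are fixed-point-free. -/
theorem fix5 (hV : Nat.card V = 16) (y : H) (hy : y ≠ 1) (hy5 : y ^ 5 = 1) (v : V) (hv : y • v = v) : v = 0 := by
  haveI : Fact (Nat.Prime 5) := ⟨by norm_num⟩
  have h1 := card_fix_dvd (V := V) y
  have h2 := card_fix_ne (V := V) y hy
  have h3 := card_modEq_fix (S := V) y 5 hy5
  rw [hV] at h1 h2 h3
  have h4 : Nat.card {v : V // y • v = v} = 1 := by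
    rcases divisors_16 h1 with h | h | h | h | h
    · exact h
    · rw [h] at h3; exact absurd h3 (by decide)
    · rw [h] at h3; exact absurd h3 (by decide)
    · rw [h] at h3; exact absurd h3 (by decide)
    · exact absurd h h2
  have h5 : Subsingleton {v : V // y • v = v} := by
    haveI : Finite {v : V // y • v = v} := inferInstance
    exact (Nat.card_eq_one_iff_unique.mp h4).1
  have := h5.elim ⟨v, hv⟩ ⟨0, smul_zero y⟩
  exact congrArg Subtype.val this

/-- Elements of order seven have exactly one nonzero fixed vector. -/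
theorem fix7 (hV : Nat.card V = 16) (x : H) (hx : x ≠ 1) (hx7 : x ^ 7 = 1) :
    Nat.card {v : V // x • v = v} = 2 := by
  haveI : Fact (Nat.Prime 7) := ⟨by norm_num⟩
  have h1 := card_fix_dvd (V := V) x
  have h2 := card_fix_ne (V := V) x hx
  have h3 := card_modEq_fix (S := V) x 7 hx7
  rw [hV] at h1 h2 h3
  rcases divisors_16 h1 with h | h | h | h | h
  · rw [h] at h3; exact absurd h3 (by decide)
  · exact h
  · rw [h] at h3; exact absurd h3 (by decide)
  · rw [h] at h3; exact absurd h3 (by decide)
  · exact absurd h h2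

theorem fix7_eq (hV : Nat.card V = 16) (x : H) (hx : x ≠ 1) (hx7 : x ^ 7 = 1) (a : V) (ha0 : a ≠ 0) (ha : x • a = a)
    (v : V) (hv : x • v = v) : v = 0 ∨ v = a := by
  have h := fix7 hV x hx hx7
  by_contra hcon
  push Not at hcon
  classical
  let f : Fin 3 → {v : V // x • v = v} := ![⟨0, smul_zero x⟩, ⟨a, ha⟩, ⟨v, hv⟩]
  have hf : Function.Injective f := by
    intro i j hij
    have hij' := congrArg Subtype.val hij
    fin_cases i <;> fin_cases j <;> first
      | rfl
      | (exfalso; simp [f] at hij'; first | exact ha0 hij'.symm | exact ha0 hij' | exact hcon.1 hij' | exact hcon.1 hij'.symm | exact hcon.2 hij' | exact hcon.2 hij'.symm)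
  have := Nat.card_le_card_of_injective f hf
  rw [h] at this
  simp at this

theorem exists_fix7 (hV : Nat.card V = 16) (x : H) (hx : x ≠ 1) (hx7 : x ^ 7 = 1) : ∃ a : V, a ≠ 0 ∧ x • a = a := by
  have h := fix7 hV x hx hx7
  by_contra hcon
  push Not at hcon
  have hs : Subsingleton {v : V // x • v = v} := by
    refine ⟨fun a b => ?_⟩
    have ha : a.1 = 0 := by
      by_contra h0
      exact hcon a.1 h0 a.2
    have hb : b.1 = 0 := by
      by_contra h0
      exact hcon b.1 h0 b.2
    exact Subtype.ext (ha.trans hb.symm)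
  have := Nat.card_of_subsingleton (⟨0, smul_zero x⟩ : {v : V // x • v = v})
  omega

variable [Finite H]

/-- Transitivity on nonzero vectors. -/
theorem orbit_eq (hV : Nat.card V = 16) (hH : Nat.card H = 2520) (v : V) (hv : v ≠ 0) :
    orbit H v = {u : V | u ≠ 0} := by
  classical
  haveI f5 : Fact (Nat.Prime 5) := ⟨by norm_num⟩
  haveI f7 : Fact (Nat.Prime 7) := ⟨by norm_num⟩
  obtain ⟨y, hy⟩ := exists_prime_orderOf_dvd_card' (G := H) 5 (by rw [hH]; norm_num)
  obtain ⟨x, hx⟩ := exists_prime_orderOf_dvd_card' (G := H) 7 (by rw [hH]; norm_num)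
  have hy1 : y ≠ 1 := by
    rintro rfl
    simp at hy
  have hx1 : x ≠ 1 := by
    rintro rfl
    simp at hx
  have hy5 : y ^ 5 = 1 := by rw [← hy]; exact pow_orderOf_eq_one y
  have hx7 : x ^ 7 = 1 := by rw [← hx]; exact pow_orderOf_eq_one x
  obtain ⟨a, ha0, ha⟩ := exists_fix7 hV x hx1 hx7
  have hsub : orbit H v ⊆ {u : V | u ≠ 0} := by
    rintro _ ⟨g, rfl⟩
    intro h0
    apply hv
    have : g • v = g • (0 : V) := by
      rw [smul_zero]
      exact h0
    exact smul_left_cancel g this
  -- the three congruences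
  have h5 := card_modEq_fix (S := orbit H v) y 5 hy5
  have h7 := card_modEq_fix (S := orbit H v) x 7 hx7
  have h50 : Nat.card {b : orbit H v // y • b = b} = 0 := by
    rw [Nat.card_eq_zero]
    left
    refine ⟨fun b => ?_⟩
    have h1 : y • (b.1 : V) = b.1 := congrArg Subtype.val b.2
    exact hsub b.1.2 (fix5 hV y hy1 hy5 _ h1)
  have h71 : Nat.card {b : orbit H v // x • b = b} ≤ 1 := by
    rw [Finite.card_le_one_iff_subsingleton]
    refine ⟨fun b c => ?_⟩
    have h1 : x • (b.1 : V) = b.1 := congrArg Subtype.val b.2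
    have h2 : x • (c.1 : V) = c.1 := congrArg Subtype.val c.2
    have h3 : (b.1 : V) = a := (fix7_eq hV x hx1 hx7 a ha0 ha _ h1).resolve_left (hsub b.1.2)
    have h4 : (c.1 : V) = a := (fix7_eq hV x hx1 hx7 a ha0 ha _ h2).resolve_left (hsub c.1.2)
    exact Subtype.ext (Subtype.ext (h3.trans h4.symm))
  rw [h50] at h5
  have hT : ({u : V | u ≠ 0} : Set V).ncard = 15 := by
    have h1 := Set.ncard_add_ncard_compl ({0} : Set V)
    rw [Set.ncard_singleton, hV] at h1
    have h2 : ({0} : Set V)ᶜ = {u : V | u ≠ 0} := by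
      ext u
      simp
    rw [h2] at h1
    omega
  have hO : (orbit H v).ncard ≤ 15 := by
    rw [← hT]
    exact Set.ncard_le_ncard hsub (Set.toFinite _)
  have hO' : Nat.card (orbit H v) = (orbit H v).ncard := Nat.card_coe_set_eq _
  have hpos : 0 < (orbit H v).ncard := by
    rw [Set.ncard_pos (Set.toFinite _)]
    exact ⟨v, mem_orbit_self v⟩
  rw [hO'] at h5 h7
  have h5' : (orbit H v).ncard % 5 = 0 := h5
  have h7' : (orbit H v).ncard % 7 = Nat.card {b : orbit H v // x • b = b} % 7 := h7
  have h7'' : (orbit H v).ncard % 7 ≤ 1 := by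
    rw [h7']
    exact (Nat.mod_le _ _).trans h71
  have hE : (orbit H v).ncard = 15 := by
    have h3 : (orbit H v).ncard = 5 ∨ (orbit H v).ncard = 10 ∨ (orbit H v).ncard = 15 := by omega
    rcases h3 with h3 | h3 | h3
    · rw [h3] at h7''
      norm_num at h7''
    · rw [h3] at h7''
      norm_num at h7''
    · exact h3
  exact Set.eq_of_subset_of_ncard_le hsub (by rw [hT, hE]) (Set.toFinite _)

/-- Fixing `v`, either the stabilizer is transitive on the remaining vectors or no element of it
moves a vector `w` to `w + v`. -/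
theorem stab_dichotomy (hV : Nat.card V = 16) (h2 : ∀ v : V, v + v = 0) (hH : Nat.card H = 2520) (v : V) (hv : v ≠ 0) :
    (∀ w w' : V, w ≠ 0 → w ≠ v → w' ≠ 0 → w' ≠ v → ∃ k : H, k • v = v ∧ k • w = w') ∨
      ∀ h : H, h • v = v → ∀ w : V, w ≠ 0 → w ≠ v → h • w ≠ w + v := by
  classical
  haveI f7 : Fact (Nat.Prime 7) := ⟨by norm_num⟩
  set K : Subgroup H := stabilizer H v with hK
  have hidx : K.index = 15 := by
    rw [hK, index_stabilizer, orbit_eq hV hH v hv]
    have h1 := Set.ncard_add_ncard_compl ({0} : Set V)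
    rw [Set.ncard_singleton, hV] at h1
    have h2 : ({0} : Set V)ᶜ = {u : V | u ≠ 0} := by
      ext u
      simp
    rw [h2] at h1
    omega
  have hcard : Nat.card K = 168 := by
    have := K.card_mul_index
    rw [hidx, hH] at this
    omega
  obtain ⟨x, hx⟩ := exists_prime_orderOf_dvd_card' (G := K) 7 (by rw [hcard]; norm_num)
  have hx1 : x ≠ 1 := by
    rintro rfl
    simp at hx
  have hx7 : x ^ 7 = 1 := by rw [← hx]; exact pow_orderOf_eq_one x
  have hxH1 : (x : H) ≠ 1 := fun h => hx1 (Subtype.ext h)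
  have hxH7 : (x : H) ^ 7 = 1 := by
    have := congrArg (Subtype.val) hx7
    simpa using this
  have hxv : (x : H) • v = v := x.2
  have key := fix7_eq hV (x : H) hxH1 hxH7 v hv hxv
  -- sizes of the `K`-orbits
  have hsub : ∀ w : V, w ≠ 0 → w ≠ v → orbit K w ⊆ {u : V | u ≠ 0 ∧ u ≠ v} := by
    intro w hw0 hwv
    rintro _ ⟨g, rfl⟩
    have hg : (g : H) • v = v := g.2
    constructor
    · intro h0
      apply hw0
      have h3 : (g : H) • w = (g : H) • (0 : V) := by
        rw [smul_zero]
        exact h0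
      exact smul_left_cancel _ h3
    · intro h0
      apply hwv
      have h3 : (g : H) • w = (g : H) • v := by
        rw [hg]
        exact h0
      exact smul_left_cancel _ h3
  have hT : ({u : V | u ≠ 0 ∧ u ≠ v} : Set V).ncard = 14 := by
    have h1 := Set.ncard_add_ncard_compl ({0, v} : Set V)
    rw [Set.ncard_pair hv.symm, hV] at h1
    have h2 : ({0, v} : Set V)ᶜ = {u : V | u ≠ 0 ∧ u ≠ v} := by
      ext u
      simp
    rw [h2] at h1
    omega
  have horb : ∀ w : V, w ≠ 0 → w ≠ v → (orbit K w).ncard = 7 ∨ orbit K w = {u : V | u ≠ 0 ∧ u ≠ v} := by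
    intro w hw0 hwv
    have h7 := card_modEq_fix (S := orbit K w) x 7 hx7
    have h70 : Nat.card {b : orbit K w // x • b = b} = 0 := by
      rw [Nat.card_eq_zero]
      left
      refine ⟨fun b => ?_⟩
      have h1 : (x : H) • (b.1 : V) = b.1 := congrArg Subtype.val b.2
      have h3 := hsub w hw0 hwv b.1.2
      rcases key _ h1 with h4 | h4
      · exact h3.1 h4
      · exact h3.2 h4
    rw [h70] at h7
    have hO' : Nat.card (orbit K w) = (orbit K w).ncard := Nat.card_coe_set_eq _
    rw [hO'] at h7
    have h7' : (orbit K w).ncard % 7 = 0 := h7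
    have hO : (orbit K w).ncard ≤ 14 := by
      rw [← hT]
      exact Set.ncard_le_ncard (hsub w hw0 hwv) (Set.toFinite _)
    have hpos : 0 < (orbit K w).ncard := by
      rw [Set.ncard_pos (Set.toFinite _)]
      exact ⟨w, mem_orbit_self w⟩
    have hE : (orbit K w).ncard = 7 ∨ (orbit K w).ncard = 14 := by omega
    rcases hE with hE | hE
    · exact Or.inl hE
    · exact Or.inr (Set.eq_of_subset_of_ncard_le (hsub w hw0 hwv) (by rw [hT, hE]) (Set.toFinite _))
  by_cases hall : ∃ w : V, w ≠ 0 ∧ w ≠ v ∧ orbit K w = {u : V | u ≠ 0 ∧ u ≠ v}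
  · left
    obtain ⟨w₀, h01, h02, h03⟩ := hall
    intro w w' hw0 hwv hw'0 hw'v
    have h1 : w ∈ orbit K w₀ := by rw [h03]; exact ⟨hw0, hwv⟩
    have h2 : w' ∈ orbit K w₀ := by rw [h03]; exact ⟨hw'0, hw'v⟩
    obtain ⟨k₁, hk₁⟩ := h1
    obtain ⟨k₂, hk₂⟩ := h2
    refine ⟨((k₂ * k₁⁻¹ : K) : H), (k₂ * k₁⁻¹ : K).2, ?_⟩
    have e1 : (k₁ : H) • w₀ = w := hk₁
    have e2 : (k₂ : H) • w₀ = w' := hk₂
    rw [← e1, ← e2]
    simp [mul_smul]
  · right
    push Not at hall
    intro h hh w hw0 hwv hcon
    have hodd : (orbit K w).ncard = 7 := by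
      rcases horb w hw0 hwv with h3 | h3
      · exact h3
      · exact absurd h3 (hall w hw0 hwv)
    let k₀ : K := ⟨h, hh⟩
    -- the translation by `v` is an involution on the orbit
    have hclosed : ∀ u ∈ orbit K w, u + v ∈ orbit K w := by
      rintro _ ⟨g, rfl⟩
      refine ⟨g * k₀, ?_⟩
      have hg : (g : H) • v = v := g.2
      change ((g : H) * h) • w = (g : H) • w + v
      rw [mul_smul, hcon, smul_add, hg]
    have hdvd := two_dvd_card_of_involution (T := orbit K w)
      (fun u => ⟨u.1 + v, hclosed u.1 u.2⟩)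
      (fun u => by
        apply Subtype.ext
        change u.1 + v + v = u.1
        rw [add_assoc, h2, add_zero])
      (fun u hu => by
        have := congrArg Subtype.val hu
        change u.1 + v = u.1 at this
        exact hv (by simpa using this))
    rw [Nat.card_coe_set_eq, hodd] at hdvd
    omega

/-- Double transitivity. -/
theorem two_transitive (hV : Nat.card V = 16) (h2 : ∀ v : V, v + v = 0) (hH : Nat.card H = 2520)
    (v w v' w' : V) (hv : v ≠ 0) (hw : w ≠ 0) (hvw : v ≠ w) (hv' : v' ≠ 0) (hw' : w' ≠ 0) (hvw' : v' ≠ w') :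
    ∃ g : H, g • v = v' ∧ g • w = w' := by
  classical
  -- stabilizers are transitive
  have htrans : ∀ u : V, u ≠ 0 → ∀ w w' : V, w ≠ 0 → w ≠ u → w' ≠ 0 → w' ≠ u → ∃ k : H, k • u = u ∧ k • w = w' := by
    intro u hu
    rcases stab_dichotomy hV h2 hH u hu with h | hP
    · exact h
    exfalso
    -- transport to all vectors
    have hall : ∀ u' : V, u' ≠ 0 → ∀ h : H, h • u' = u' → ∀ w : V, w ≠ 0 → w ≠ u' → h • w ≠ w + u' := by
      intro u' hu' h hh w hw0 hwu hcon
      have hmem : u' ∈ orbit H u := by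
        rw [orbit_eq hV hH u hu]
        exact hu'
      obtain ⟨g, hg⟩ := hmem
      have hg' : g • u = u' := hg
      refine hP (g⁻¹ * h * g) ?_ (g⁻¹ • w) ?_ ?_ ?_
      · rw [mul_smul, mul_smul, hg', hh, ← hg', inv_smul_smul]
      · intro h0
        apply hw0
        rw [← smul_inv_smul g w, h0, smul_zero]
      · intro h0
        apply hwu
        rw [← smul_inv_smul g w, h0, hg']
      · rw [mul_smul, mul_smul, smul_inv_smul, hcon, smul_add, ← hg', inv_smul_smul]
    -- an involution gives a contradiction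
    haveI f2 : Fact (Nat.Prime 2) := ⟨Nat.prime_two⟩
    obtain ⟨t, ht⟩ := exists_prime_orderOf_dvd_card' (G := H) 2 (by rw [hH]; norm_num)
    have ht1 : t ≠ 1 := by
      rintro rfl
      simp at ht
    have ht2 : t ^ 2 = 1 := by rw [← ht]; exact pow_orderOf_eq_one t
    have htt : ∀ a : V, t • t • a = a := by
      intro a
      rw [← mul_smul, ← pow_two, ht2, one_smul]
    obtain ⟨w₀, hw₀⟩ : ∃ w₀ : V, t • w₀ ≠ w₀ := by
      by_contra hcon
      push Not at hcon
      apply ht1
      apply FaithfulSMul.eq_of_smul_eq_smul (α := V)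
      intro a
      rw [one_smul]
      exact hcon a
    set u' : V := t • w₀ + w₀ with hu'
    have hu'0 : u' ≠ 0 := by
      intro h0
      apply hw₀
      have h3 : t • w₀ + w₀ = w₀ + w₀ := by
        rw [h2 w₀]
        exact h0
      exact add_right_cancel h3
    have htu : t • u' = u' := by
      rw [hu', smul_add, htt, add_comm]
    have hw₀0 : w₀ ≠ 0 := by
      rintro rfl
      exact hw₀ (smul_zero t)
    have hw₀u : w₀ ≠ u' := by
      intro h0
      apply hw₀
      rw [h0]
      exact htu
    refine hall u' hu'0 t htu w₀ hw₀0 hw₀u ?_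
    rw [hu', add_comm (t • w₀) w₀, ← add_assoc, h2, zero_add]
  -- final assembly
  have hmem : v' ∈ orbit H v := by
    rw [orbit_eq hV hH v hv]
    exact hv'
  obtain ⟨g, hg⟩ := hmem
  have hg' : g • v = v' := hg
  have h1 : g • w ≠ 0 := by
    intro h0
    apply hw
    rw [← inv_smul_smul g w, h0, smul_zero]
  have h3 : g • w ≠ v' := by
    intro h0
    apply hvw
    rw [← hg'] at h0
    exact (smul_left_cancel g h0).symm
  obtain ⟨k, hk1, hk2⟩ := htrans v' hv' (g • w) w' h1 h3 hw' hvw'.symm
  exact ⟨k * g, by rw [mul_smul, hg', hk1], by rw [mul_smul, hk2]⟩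

end order

/-! ### Realisation in `GL₄` over the field with two elements -/

section field

variable {F : Type*} [Field F] [Fintype F]

theorem two_el (hF : Fintype.card F = 2) (x : F) : x = 0 ∨ x = 1 := by
  by_cases h : x = 0
  · exact Or.inl h
  · right
    have := FiniteField.pow_card_sub_one_eq_one x h
    rw [hF] at this
    simpa using this

theorem two_add (hF : Fintype.card F = 2) (x : F) : x + x = 0 := by
  have h11 : (1 : F) + 1 = 0 := by
    rcases two_el hF ((1 : F) + 1) with h | h
    · exact h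
    · exfalso
      have : (1 : F) = 0 := by
        have h2 : (1 : F) + 1 = 1 + 0 := by rw [h, add_zero]
        exact add_left_cancel h2
      exact one_ne_zero this
  rcases two_el hF x with h | h
  · rw [h, add_zero]
  · rw [h, h11]

/-- The action of a subgroup of `GL₄` on column vectors. -/
@[reducible] def glAct (H : Subgroup (Matrix.GeneralLinearGroup (Fin 4) F)) : DistribMulAction H (Fin 4 → F) where
  smul g v := ((g : Matrix.GeneralLinearGroup (Fin 4) F) : Matrix (Fin 4) (Fin 4) F).mulVec v
  one_smul v := by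
    change ((1 : Matrix (Fin 4) (Fin 4) F)).mulVec v = v
    rw [Matrix.one_mulVec]
  mul_smul g h v := by
    change (((g : Matrix.GeneralLinearGroup (Fin 4) F) : Matrix (Fin 4) (Fin 4) F) * ((h : Matrix.GeneralLinearGroup (Fin 4) F) : Matrix (Fin 4) (Fin 4) F)).mulVec v = _
    rw [← Matrix.mulVec_mulVec]
    rfl
  smul_zero g := Matrix.mulVec_zero _
  smul_add g a b := Matrix.mulVec_add _ _ _

theorem gl_two_transitive (hF : Fintype.card F = 2) (H : Subgroup (Matrix.GeneralLinearGroup (Fin 4) F))
    (hH : Nat.card H = 2520) (v w v' w' : Fin 4 → F) (h1 : v ≠ 0) (h2 : w ≠ 0) (h3 : v ≠ w) (h4 : v' ≠ 0) (h5 : w' ≠ 0)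
    (h6 : v' ≠ w') :
    ∃ g ∈ H, (g : Matrix (Fin 4) (Fin 4) F).mulVec v = v' ∧ (g : Matrix (Fin 4) (Fin 4) F).mulVec w = w' := by
  letI := glAct H
  haveI hfaith : FaithfulSMul H (Fin 4 → F) := by
    refine ⟨fun {g h} hgh => ?_⟩
    apply Subtype.ext
    apply Units.ext
    apply Matrix.mulVec_injective
    funext a
    exact hgh a
  haveI : Finite H := by
    apply Nat.finite_of_card_ne_zero
    rw [hH]
    norm_num
  have hV : Nat.card (Fin 4 → F) = 16 := by
    rw [Nat.card_eq_fintype_card, Fintype.card_fun, hF]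
    rfl
  have h2' : ∀ u : Fin 4 → F, u + u = 0 := by
    intro u
    funext i
    exact two_add hF (u i)
  obtain ⟨g, hg1, hg2⟩ := two_transitive (H := H) hV h2' hH v w v' w' h1 h2 h3 h4 h5 h6
  exact ⟨g.1, g.2, hg1, hg2⟩

/-- `A₇` embeds in `GL₄` over the field with two elements. -/
theorem exists_alt7 (hF : Fintype.card F = 2) (e : Matrix.ProjectiveSpecialLinearGroup (Fin 4) F ≃* alternatingGroup (Fin 8)) :
    ∃ H : Subgroup (Matrix.GeneralLinearGroup (Fin 4) F), Nonempty (H ≃* alternatingGroup (Fin 7)) := by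
  classical
  -- `A₇ → A₈`
  let ι : Equiv.Perm (Fin 7) →* Equiv.Perm (Fin 8) := Equiv.Perm.viaEmbeddingHom (Fin.castSuccEmb)
  have hι : ∀ σ : alternatingGroup (Fin 7), ι σ.1 ∈ alternatingGroup (Fin 8) := by
    intro σ
    rw [Equiv.Perm.mem_alternatingGroup]
    have h1 : Equiv.Perm.sign σ.1 = 1 := Equiv.Perm.mem_alternatingGroup.mp σ.2
    have h2 : ι σ.1 = Equiv.Perm.viaEmbedding σ.1 Fin.castSuccEmb := rfl
    rw [h2, Equiv.Perm.viaEmbedding, Equiv.Perm.sign_extendDomain, h1]
  let f₁ : alternatingGroup (Fin 7) →* alternatingGroup (Fin 8) :=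
    (ι.comp (alternatingGroup (Fin 7)).subtype).codRestrict _ hι
  have hf₁ : Function.Injective f₁ := by
    intro a b hab
    have h := congrArg Subtype.val hab
    exact Subtype.ext (Equiv.Perm.viaEmbeddingHom_injective _ h)
  -- `PSL₄ → GL₄`
  have hcen : Subgroup.center (Matrix.SpecialLinearGroup (Fin 4) F) = ⊥ := by
    rw [eq_bot_iff]
    intro A hA
    rw [Matrix.SpecialLinearGroup.mem_center_iff] at hA
    obtain ⟨r, hr, hrA⟩ := hA
    rw [Subgroup.mem_bot]
    have hr1 : r = 1 := by
      rcases two_el hF r with h | h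
      · rw [h] at hr
        simp at hr
      · exact h
    apply Subtype.ext
    rw [← hrA, hr1]
    simp
  let g₁ : Matrix.ProjectiveSpecialLinearGroup (Fin 4) F →* Matrix.GeneralLinearGroup (Fin 4) F :=
    QuotientGroup.lift _ Matrix.SpecialLinearGroup.toGL (by
      intro x hx
      rw [hcen, Subgroup.mem_bot] at hx
      rw [hx]
      exact Subgroup.one_mem _)
  have hg₁ : Function.Injective g₁ := by
    intro a b
    induction a using QuotientGroup.induction_on with
    | H a =>
      induction b using QuotientGroup.induction_on with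
      | H b =>
        intro hab
        have h : Matrix.SpecialLinearGroup.toGL a = Matrix.SpecialLinearGroup.toGL b := hab
        have h2 : a = b := by
          apply Subtype.ext
          exact congrArg Units.val h
        rw [h2]
  let f : alternatingGroup (Fin 7) →* Matrix.GeneralLinearGroup (Fin 4) F :=
    g₁.comp (e.symm.toMonoidHom.comp f₁)
  have hf : Function.Injective f := hg₁.comp (e.symm.injective.comp hf₁)
  exact ⟨f.range, ⟨(MonoidHom.ofInjective hf).symm⟩⟩

end field

end Cfsg.Agent.Lib.Misc19
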