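import Mathlib
import Cfsg.Agent.Lib.Small.Sweep
import Cfsg.Agent.Lib.Small.BrauerFour
import Cfsg.Agent.Lib.Small.BrauerOrbit

/-! Groups of order `19 k`, `k ∣ 9240`: the proper divisors give no simple groups. -/

set_option autoImplicit false
set_option linter.style.haveILetI false

namespace Cfsg.Agent.Lib.Misc19.J1

open Subgroup
open Cfsg Cfsg.Agent.Lib.Small.BD Cfsg.Agent.Lib.Char
open scoped Pointwise

variable {G : Type*} [Group G] [Finite G]

/-- An element commuting with an element of order `p` has order dividing `|C(P)|`, `P` Sylow of order `p`. -/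
theorem orderOf_dvd_of_commute {p : ℕ} [hp : Fact p.Prime] (P : Sylow p G) (hP : Nat.card (P : Subgroup G) = p)
    {y x : G} (hy : orderOf y = p) (hxy : Commute x y) :
    orderOf x ∣ Nat.card (centralizer ((P : Subgroup G) : Set G)) := by
  have hcardQ : Nat.card (zpowers y) = p := by rw [Nat.card_zpowers, hy]
  let R : Sylow p G := Sylow.ofCard (zpowers y) (by
    rw [hcardQ]
    have := Sylow.card_eq_multiplicity P
    rw [hP] at this
    exact this)
  obtain ⟨g, hg⟩ := MulAction.exists_smul_eq G P R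
  have hmem : g⁻¹ * x * g ∈ centralizer ((P : Subgroup G) : Set G) := by
    rw [mem_centralizer_iff]
    intro w hw
    have hw' : g * w * g⁻¹ ∈ zpowers y := by
      have h2 : MulAut.conj g • w ∈ ((g • P : Sylow p G) : Subgroup G) := by
        rw [Sylow.coe_subgroup_smul]
        exact smul_mem_pointwise_smul _ _ _ hw
      rw [hg] at h2
      simpa [R, MulAut.smul_def, MulAut.conj_apply] using h2
    have hcomm : g * w * g⁻¹ * x = x * (g * w * g⁻¹) := by
      obtain ⟨k, hk⟩ := mem_zpowers_iff.mp hw'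
      rw [← hk]
      exact ((Commute.zpow_left hxy.symm k)).eq
    have h1 : g⁻¹ * (g * w * g⁻¹ * x) * g = g⁻¹ * (x * (g * w * g⁻¹)) * g := by rw [hcomm]
    simpa [mul_assoc] using h1
  have hord : orderOf (g⁻¹ * x * g) = orderOf x := by
    have : g⁻¹ * x * g = MulAut.conj g⁻¹ x := by simp [MulAut.conj_apply]
    rw [this, MulEquiv.orderOf_eq]
  have h1 := orderOf_dvd_natCard (⟨_, hmem⟩ : centralizer ((P : Subgroup G) : Set G))
  rw [orderOf_mk, hord] at h1
  exact h1

/-- If a prime `q` divides `|C(P)|`, `P` Sylow of order `p`, then `p * q` is at most `n_p - 1`. -/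
theorem pq_le [IsSimpleGroup G] {p q : ℕ} [hp : Fact p.Prime] [hq : Fact q.Prime] (hpq : p ≠ q) (P : Sylow p G)
    (hP : Nat.card (P : Subgroup G) = p) (hn : 1 < Nat.card (Sylow p G))
    (hqc : q ∣ Nat.card (centralizer ((P : Subgroup G) : Set G))) :
    p * q + 1 ≤ Nat.card (Sylow p G) := by
  classical
  by_contra hlt
  push Not at hlt
  obtain ⟨z', hz'⟩ := exists_prime_orderOf_dvd_card' q hqc
  have hne : Nontrivial (P : Subgroup G) := by
    apply Finite.one_lt_card_iff_nontrivial.mp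
    rw [hP]
    exact hp.out.one_lt
  obtain ⟨y', hy'⟩ := exists_ne (1 : (P : Subgroup G))
  set y : G := (y' : G) with hydef
  set z : G := (z' : G) with hzdef
  have hy1 : y ≠ 1 := fun e => hy' (Subtype.ext e)
  have hyP : y ∈ (P : Subgroup G) := y'.2
  have hyo : orderOf y = p := by
    have h2 : orderOf y ∣ p := by
      have h3 := orderOf_dvd_natCard y'
      rwa [← Subgroup.orderOf_coe, hP] at h3
    rcases (Nat.dvd_prime hp.out).mp h2 with h3 | h3
    · exact (hy1 (orderOf_eq_one_iff.mp h3)).elim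
    · exact h3
  have hzo : orderOf z = q := by rw [hzdef, Subgroup.orderOf_coe, hz']
  have hzC : z ∈ centralizer ((P : Subgroup G) : Set G) := z'.2
  have hcomm : Commute y z := mem_centralizer_iff.mp hzC y hyP
  have hcop : Nat.Coprime (orderOf y) (orderOf z) := by
    rw [hyo, hzo]
    exact (Nat.coprime_primes hp.out hq.out).mpr hpq
  set a : G := y * z with hadef
  have hao : orderOf a = p * q := by
    rw [hadef, hcomm.orderOf_mul_eq_mul_orderOf_of_coprime hcop, hyo, hzo]
  have hzfix : ∀ R : Sylow p G, z • R = R := by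
    intro R
    by_cases hRP : R = P
    · subst hRP
      exact sylow_smul_of_centralizer R hzC
    · -- pigeonhole on the orbit of `R`
      let f : zpowers a → {S : Sylow p G // S ≠ P} := fun w => ⟨(w : G) • R, by
        intro h
        apply hRP
        have hwP : (w : G) • P = P := by
          obtain ⟨e, he⟩ := mem_zpowers_iff.mp w.2
          have haP : a • P = P := by
            rw [hadef, mul_smul, sylow_smul_of_centralizer P hzC, sylow_smul_self hyP]
          have : a ^ e • P = P := by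
            rw [← MulAction.mem_stabilizer_iff]
            apply zpow_mem
            exact MulAction.mem_stabilizer_iff.mpr haP
          rw [← he]
          exact this
        have h2 : (w : G) • R = (w : G) • P := by rw [h, hwP]
        exact smul_left_cancel _ h2⟩
      have hcardS : Nat.card {S : Sylow p G // S ≠ P} + 1 = Nat.card (Sylow p G) := by
        haveI := Fintype.ofFinite (Sylow p G)
        rw [Nat.card_eq_fintype_card, Nat.card_eq_fintype_card, Fintype.card_subtype_compl]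
        · simp only [Fintype.card_unique]
          have : 0 < Fintype.card (Sylow p G) := Fintype.card_pos
          omega
      have hlt' : Nat.card {S : Sylow p G // S ≠ P} < Nat.card (zpowers a) := by
        rw [Nat.card_zpowers, hao]
        omega
      have hni : ¬ Function.Injective f := fun hinj => by
        have := Nat.card_le_card_of_injective f hinj
        omega
      obtain ⟨w₁, w₂, hww, hw⟩ : ∃ w₁ w₂, f w₁ = f w₂ ∧ w₁ ≠ w₂ := by
        simpa [Function.Injective] using hni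
      have hww' : (w₁ : G) • R = (w₂ : G) • R := congrArg Subtype.val hww
      obtain ⟨e₁, he₁⟩ := mem_zpowers_iff.mp w₁.2
      obtain ⟨e₂, he₂⟩ := mem_zpowers_iff.mp w₂.2
      set e : ℤ := e₁ - e₂ with he
      have hfixR : a ^ e • R = R := by
        have : (a ^ e₂)⁻¹ * a ^ e₁ = a ^ e := by
          rw [he, sub_eq_neg_add, zpow_add, zpow_neg]
        rw [← this, mul_smul, he₁, hww', ← he₂, inv_smul_smul]
      have hae1 : a ^ e ≠ 1 := by
        intro h1
        apply hw
        apply Subtype.ext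
        rw [← he₁, ← he₂]
        have : a ^ e₁ = a ^ e₂ := by
          have h2 : a ^ (e₁ - e₂) = 1 := h1
          rw [zpow_sub, mul_inv_eq_one] at h2
          exact h2
        exact this
      -- the `q`-th power lies in `P`
      have hpow : ∀ k : ℤ, a ^ k = y ^ k * z ^ k := by
        intro k
        exact hcomm.mul_zpow k
      have hpe : y ^ (e * q) = 1 := by
        by_contra hne1
        have hu : y ^ (e * q) ∈ (P : Subgroup G) := zpow_mem hyP _
        have hfix2 : y ^ (e * q) • R = R := by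
          have h3 : a ^ (e * q) = y ^ (e * q) := by
            rw [hpow, mul_comm e, zpow_mul z]
            have : z ^ (q : ℤ) = 1 := by
              rw [zpow_natCast, ← hzo]
              exact pow_orderOf_eq_one z
            rw [this, one_zpow, mul_one]
          rw [← h3, mul_comm e, zpow_mul']
          have : (a ^ e) ^ (q : ℤ) • R = R := by
            rw [← MulAction.mem_stabilizer_iff]
            apply zpow_mem
            exact MulAction.mem_stabilizer_iff.mpr hfixR
          have h4 : a ^ ((q : ℤ) * e) = (a ^ e) ^ (q : ℤ) := by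
            rw [mul_comm, zpow_mul]
          rw [← zpow_mul', h4]
          exact this
        exact hRP (sylow_eq_of_fix P R hP hu hne1 hfix2).symm
      have hpdvd : (p : ℤ) ∣ e := by
        have h5 : (orderOf y : ℤ) ∣ e * q := orderOf_dvd_iff_zpow_eq_one.mpr hpe
        rw [hyo] at h5
        have hcopZ : IsCoprime (p : ℤ) (q : ℤ) :=
          Nat.isCoprime_iff_coprime.mpr ((Nat.coprime_primes hp.out hq.out).mpr hpq)
        exact hcopZ.dvd_of_dvd_mul_right h5
      have hye : y ^ e = 1 := by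
        rw [← orderOf_dvd_iff_zpow_eq_one, hyo]
        exact hpdvd
      have hae : a ^ e = z ^ e := by rw [hpow, hye, one_mul]
      have hze1 : z ^ e ≠ 1 := by rwa [← hae]
      have hfz : z ^ e • R = R := by rwa [← hae]
      have hzmem : z ∈ zpowers (z ^ e) := by
        have hcard : Nat.card (zpowers z) = q := by rw [Nat.card_zpowers, hzo]
        have h6 := mem_zpowers_of_prime_card (G := zpowers z) (p := q) hcard (g := ⟨z ^ e, zpow_mem (mem_zpowers z) e⟩)
          (g' := ⟨z, mem_zpowers z⟩) (fun h => hze1 (congrArg Subtype.val h))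
        obtain ⟨k, hk⟩ := mem_zpowers_iff.mp h6
        have h7 : (z ^ e) ^ k = z := by
          have := congrArg Subtype.val hk
          simpa using this
        exact mem_zpowers_iff.mpr ⟨k, h7⟩
      have : z ∈ MulAction.stabilizer G R := by
        have h8 : zpowers (z ^ e) ≤ MulAction.stabilizer G R := by
          rw [zpowers_le]
          exact MulAction.mem_stabilizer_iff.mpr hfz
        exact h8 hzmem
      exact MulAction.mem_stabilizer_iff.mp this
  have hz1 : z = 1 := sylow_faithful hn hzfix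
  rw [hz1, orderOf_one] at hzo
  exact hq.out.one_lt.ne hzo

theorem no_760 [IsSimpleGroup G] (h : Nat.card G = 760) : False := by
  haveI := Fintype.ofFinite G
  haveI hp : Fact (Nat.Prime 19) := ⟨by norm_num⟩
  have hcard : Nat.card G = 19 * 40 := by rw [h]
  obtain ⟨P, m, c, n, hP, hnc, hCN, hCc, hn, hmd, hm1, hcd, hnd, hcmn, hnp, hn1, hfac, hsm⟩ :=
    exists_setup2 hcard (by norm_num) (by norm_num) (by norm_num)
  have hsm' : n ≠ 20 ∨ 2 * (19 * c * m) ∣ 342 := by
    by_cases hh : n = 20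
    · exact Or.inr (hsm hh)
    · exact Or.inl hh
  have key : ∀ m ∈ Nat.divisors 18, ∀ n ∈ Nat.divisors 40, ∀ c ∈ Nat.divisors 40, 1 < m → 1 < n → n % 19 = 1 →
      c * m * n = 40 → (n ≠ 20 ∨ 2 * (19 * c * m) ∣ 342) → False := by
    decide +kernel
  exact key m hmd n hnd c hcd hm1 hn1 hnp hcmn hsm'

theorem no_2280 [IsSimpleGroup G] (h : Nat.card G = 2280) : False := by
  haveI := Fintype.ofFinite G
  haveI hp : Fact (Nat.Prime 19) := ⟨by norm_num⟩
  have hcard : Nat.card G = 19 * 120 := by rw [h]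
  obtain ⟨P, m, c, n, hP, hnc, hCN, hCc, hn, hmd, hm1, hcd, hnd, hcmn, hnp, hn1, hfac, hsm⟩ :=
    exists_setup2 hcard (by norm_num) (by norm_num) (by norm_num)
  have hsm' : n ≠ 20 ∨ 2 * (19 * c * m) ∣ 342 := by
    by_cases hh : n = 20
    · exact Or.inr (hsm hh)
    · exact Or.inl hh
  have key : ∀ m ∈ Nat.divisors 18, ∀ n ∈ Nat.divisors 120, ∀ c ∈ Nat.divisors 120, 1 < m → 1 < n → n % 19 = 1 →
      c * m * n = 120 → (n ≠ 20 ∨ 2 * (19 * c * m) ∣ 342) → False := by
    decide +kernel
  exact key m hmd n hnd c hcd hm1 hn1 hnp hcmn hsm'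

theorem no_5320 [IsSimpleGroup G] (h : Nat.card G = 5320) : False := by
  haveI := Fintype.ofFinite G
  haveI hp : Fact (Nat.Prime 19) := ⟨by norm_num⟩
  have hcard : Nat.card G = 19 * 280 := by rw [h]
  obtain ⟨P, m, c, n, hP, hnc, hCN, hCc, hn, hmd, hm1, hcd, hnd, hcmn, hnp, hn1, hfac, hsm⟩ :=
    exists_setup2 hcard (by norm_num) (by norm_num) (by norm_num)
  have hsm' : n ≠ 20 ∨ 2 * (19 * c * m) ∣ 342 := by
    by_cases hh : n = 20
    · exact Or.inr (hsm hh)
    · exact Or.inl hh
  have key : ∀ m ∈ Nat.divisors 18, ∀ n ∈ Nat.divisors 280, ∀ c ∈ Nat.divisors 280, 1 < m → 1 < n → n % 19 = 1 →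
      c * m * n = 280 → (n ≠ 20 ∨ 2 * (19 * c * m) ∣ 342) → False := by
    decide +kernel
  exact key m hmd n hnd c hcd hm1 hn1 hnp hcmn hsm'

theorem no_5852 [IsSimpleGroup G] (h : Nat.card G = 5852) : False := by
  haveI := Fintype.ofFinite G
  haveI hp : Fact (Nat.Prime 19) := ⟨by norm_num⟩
  have hcard : Nat.card G = 19 * 308 := by rw [h]
  obtain ⟨P, m, c, n, hP, hnc, hCN, hCc, hn, hmd, hm1, hcd, hnd, hcmn, hnp, hn1, hfac, hsm⟩ :=
    exists_setup2 hcard (by norm_num) (by norm_num) (by norm_num)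
  have hsm' : n ≠ 20 ∨ 2 * (19 * c * m) ∣ 342 := by
    by_cases hh : n = 20
    · exact Or.inr (hsm hh)
    · exact Or.inl hh
  have key : ∀ m ∈ Nat.divisors 18, ∀ n ∈ Nat.divisors 308, ∀ c ∈ Nat.divisors 308, 1 < m → 1 < n → n % 19 = 1 →
      c * m * n = 308 → (n ≠ 20 ∨ 2 * (19 * c * m) ∣ 342) → m = 2 := by
    decide +kernel
  obtain rfl := key m hmd n hnd c hcd hm1 hn1 hnp hcmn hsm'
  exact false_of_check_two hnc P hP hcard (r := 9) (by norm_num) (by norm_num) hCN (by decide +kernel)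

theorem no_11704 [IsSimpleGroup G] (h : Nat.card G = 11704) : False := by
  haveI := Fintype.ofFinite G
  haveI hp : Fact (Nat.Prime 19) := ⟨by norm_num⟩
  have hcard : Nat.card G = 19 * 616 := by rw [h]
  obtain ⟨P, m, c, n, hP, hnc, hCN, hCc, hn, hmd, hm1, hcd, hnd, hcmn, hnp, hn1, hfac, hsm⟩ :=
    exists_setup2 hcard (by norm_num) (by norm_num) (by norm_num)
  have hsm' : n ≠ 20 ∨ 2 * (19 * c * m) ∣ 342 := by
    by_cases hh : n = 20
    · exact Or.inr (hsm hh)
    · exact Or.inl hh
  have key : ∀ m ∈ Nat.divisors 18, ∀ n ∈ Nat.divisors 616, ∀ c ∈ Nat.divisors 616, 1 < m → 1 < n → n % 19 = 1 →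
      c * m * n = 616 → (n ≠ 20 ∨ 2 * (19 * c * m) ∣ 342) → m = 2 := by
    decide +kernel
  obtain rfl := key m hmd n hnd c hcd hm1 hn1 hnp hcmn hsm'
  exact false_of_check_two hnc P hP hcard (r := 9) (by norm_num) (by norm_num) hCN (by decide +kernel)

theorem no_29260 [IsSimpleGroup G] (h : Nat.card G = 29260) : False := by
  haveI := Fintype.ofFinite G
  haveI hp : Fact (Nat.Prime 19) := ⟨by norm_num⟩
  have hcard : Nat.card G = 19 * 1540 := by rw [h]
  obtain ⟨P, m, c, n, hP, hnc, hCN, hCc, hn, hmd, hm1, hcd, hnd, hcmn, hnp, hn1, hfac, hsm⟩ :=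
    exists_setup2 hcard (by norm_num) (by norm_num) (by norm_num)
  have hsm' : n ≠ 20 ∨ 2 * (19 * c * m) ∣ 342 := by
    by_cases hh : n = 20
    · exact Or.inr (hsm hh)
    · exact Or.inl hh
  have key : ∀ m ∈ Nat.divisors 18, ∀ n ∈ Nat.divisors 1540, ∀ c ∈ Nat.divisors 1540, 1 < m → 1 < n → n % 19 = 1 →
      c * m * n = 1540 → (n ≠ 20 ∨ 2 * (19 * c * m) ∣ 342) → m = 2 := by
    decide +kernel
  obtain rfl := key m hmd n hnd c hcd hm1 hn1 hnp hcmn hsm'
  exact false_of_check_two hnc P hP hcard (r := 9) (by norm_num) (by norm_num) hCN (by decide +kernel)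

theorem no_17556 [IsSimpleGroup G] (h : Nat.card G = 17556) : False := by
  haveI := Fintype.ofFinite G
  haveI hp : Fact (Nat.Prime 11) := ⟨by norm_num⟩
  have hcard : Nat.card G = 11 * 1596 := by rw [h]
  obtain ⟨P, m, c, n, hP, hnc, hCN, hCc, hn, hmd, hm1, hcd, hnd, hcmn, hnp, hn1, hfac, hsm⟩ :=
    exists_setup2 hcard (by norm_num) (by norm_num) (by norm_num)
  have hsm' : n ≠ 12 ∨ 2 * (11 * c * m) ∣ 110 := by
    by_cases hh : n = 12
    · exact Or.inr (hsm hh)
    · exact Or.inl hh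
  have key : ∀ m ∈ Nat.divisors 10, ∀ n ∈ Nat.divisors 1596, ∀ c ∈ Nat.divisors 1596, 1 < m → 1 < n → n % 11 = 1 →
      c * m * n = 1596 → (n ≠ 12 ∨ 2 * (11 * c * m) ∣ 110) → m = 2 := by
    decide +kernel
  obtain rfl := key m hmd n hnd c hcd hm1 hn1 hnp hcmn hsm'
  exact false_of_check_two hnc P hP hcard (r := 5) (by norm_num) (by norm_num) hCN (by decide +kernel)

theorem no_15960 [IsSimpleGroup G] (h : Nat.card G = 15960) : False := by
  haveI := Fintype.ofFinite G
  haveI hp : Fact (Nat.Prime 19) := ⟨by norm_num⟩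
  have hcard : Nat.card G = 19 * 840 := by rw [h]
  obtain ⟨P, m, c, n, hP, hnc, hCN, hCc, hn, hmd, hm1, hcd, hnd, hcmn, hnp, hn1, hfac, hsm⟩ :=
    exists_setup2 hcard (by norm_num) (by norm_num) (by norm_num)
  have hsm' : n ≠ 20 ∨ 2 * (19 * c * m) ∣ 342 := by
    by_cases hh : n = 20
    · exact Or.inr (hsm hh)
    · exact Or.inl hh
  have key : ∀ m ∈ Nat.divisors 18, ∀ n ∈ Nat.divisors 840, ∀ c ∈ Nat.divisors 840, 1 < m → 1 < n → n % 19 = 1 →
      c * m * n = 840 → (n ≠ 20 ∨ 2 * (19 * c * m) ∣ 342) → m = 2 ∧ c = 2 := by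
    decide +kernel
  obtain ⟨rfl, rfl⟩ := key m hmd n hnd c hcd hm1 hn1 hnp hcmn hsm'
  have hC := not_isPGroup_of_card (H := centralizer ((P : Subgroup G) : Set G)) hCc (by norm_num) (by norm_num)
  exact false_two hnc P hP hcard (by norm_num) (by norm_num) (r := 9) (by norm_num) (by norm_num) hCN hC (by decide +kernel)

theorem no_7980 [IsSimpleGroup G] (h : Nat.card G = 7980) : False := by
  haveI := Fintype.ofFinite G
  haveI hp : Fact (Nat.Prime 5) := ⟨by norm_num⟩
  have hcard : Nat.card G = 5 * 1596 := by rw [h]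
  obtain ⟨P, m, c, n, hP, hnc, hCN, hCc, hn, hmd, hm1, hcd, hnd, hcmn, hnp, hn1, hfac, hsm⟩ :=
    exists_setup2 hcard (by norm_num) (by norm_num) (by norm_num)
  have hsm' : n ≠ 6 ∨ 2 * (5 * c * m) ∣ 20 := by
    by_cases hh : n = 6
    · exact Or.inr (hsm hh)
    · exact Or.inl hh
  have key : ∀ m ∈ Nat.divisors 4, ∀ n ∈ Nat.divisors 1596, ∀ c ∈ Nat.divisors 1596, 1 < m → 1 < n → n % 5 = 1 →
      c * m * n = 1596 → (n ≠ 6 ∨ 2 * (5 * c * m) ∣ 20) → (m = 2 ∧ 1 < c) ∨ (m = 4 ∧ c = 19 ∧ n = 21) := by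
    decide +kernel
  rcases key m hmd n hnd c hcd hm1 hn1 hnp hcmn hsm' with ⟨rfl, hc⟩ | ⟨rfl, rfl, rfl⟩
  · have hC := not_isPGroup_of_card (H := centralizer ((P : Subgroup G) : Set G)) hCc hc
      (fun hd => by
        have h2 : 5 ∣ 1596 := hd.trans (Nat.dvd_of_mem_divisors hcd)
        norm_num at h2)
    exact false_two hnc P hP hcard (by norm_num) (by norm_num) (r := 2) (by norm_num) (by norm_num) hCN hC (by decide +kernel)
  · haveI hq : Fact (Nat.Prime 19) := ⟨by norm_num⟩
    have := pq_le (q := 19) (p := 5) (by norm_num) P hP (by rw [hn]; norm_num) (by rw [hCc]; norm_num)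
    rw [hn] at this
    norm_num at this

theorem no_35112 [IsSimpleGroup G] (h : Nat.card G = 35112) : False := by
  haveI := Fintype.ofFinite G
  haveI hp : Fact (Nat.Prime 7) := ⟨by norm_num⟩
  have hcard : Nat.card G = 7 * 5016 := by rw [h]
  obtain ⟨P, m, c, n, hP, hnc, hCN, hCc, hn, hmd, hm1, hcd, hnd, hcmn, hnp, hn1, hfac, hsm⟩ :=
    exists_setup2 hcard (by norm_num) (by norm_num) (by norm_num)
  have hsm' : n ≠ 8 ∨ 2 * (7 * c * m) ∣ 42 := by
    by_cases hh : n = 8
    · exact Or.inr (hsm hh)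
    · exact Or.inl hh
  have key : ∀ m ∈ Nat.divisors 6, ∀ n ∈ Nat.divisors 5016, ∀ c ∈ Nat.divisors 5016, 1 < m → 1 < n → n % 7 = 1 →
      c * m * n = 5016 → (n ≠ 8 ∨ 2 * (7 * c * m) ∣ 42) → (m = 2 ∧ 1 < c) ∨ (m = 3 ∧ 1 < c) ∨ (m = 6 ∧ c = 38 ∧ n = 22) := by
    decide +kernel
  have hc7 : ¬ 7 ∣ c := fun hd => by
    have h2 : 7 ∣ 5016 := hd.trans (Nat.dvd_of_mem_divisors hcd)
    norm_num at h2
  rcases key m hmd n hnd c hcd hm1 hn1 hnp hcmn hsm' with ⟨rfl, hc⟩ | ⟨rfl, hc⟩ | ⟨rfl, rfl, rfl⟩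
  · have hC := not_isPGroup_of_card (H := centralizer ((P : Subgroup G) : Set G)) hCc hc hc7
    exact false_two hnc P hP hcard (by norm_num) (by norm_num) (r := 3) (by norm_num) (by norm_num) hCN hC (by decide +kernel)
  · have hC := not_isPGroup_of_card (H := centralizer ((P : Subgroup G) : Set G)) hCc hc hc7
    exact false_three hnc P hP hcard (by norm_num) (r := 2) (by norm_num) (by norm_num) hCN hC (by decide +kernel)
  · haveI hq : Fact (Nat.Prime 19) := ⟨by norm_num⟩
    have := pq_le (q := 19) (p := 7) (by norm_num) P hP (by rw [hn]; norm_num) (by rw [hCc]; norm_num)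
    rw [hn] at this
    norm_num at this

/-- The Sylow `7` and `11` data for order `58520`: an involution cannot commute with an element of order `7`. -/
theorem no_even_seven [IsSimpleGroup G] (h : Nat.card G = 58520) {t x : G} (ht : orderOf t = 2) (hx : orderOf x = 7)
    (hc : Commute t x) : False := by
  haveI := Fintype.ofFinite G
  haveI hp : Fact (Nat.Prime 7) := ⟨by norm_num⟩
  have hcard : Nat.card G = 7 * 8360 := by rw [h]
  obtain ⟨P, m, c, n, hP, hnc, hCN, hCc, hn, hmd, hm1, hcd, hnd, hcmn, hnp, hn1, hfac, hsm⟩ :=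
    exists_setup2 hcard (by norm_num) (by norm_num) (by norm_num)
  have hsm' : n ≠ 8 ∨ 2 * (7 * c * m) ∣ 42 := by
    by_cases hh : n = 8
    · exact Or.inr (hsm hh)
    · exact Or.inl hh
  have h2c : 2 ∣ c := by
    have h1 := orderOf_dvd_of_commute P hP hx hc
    rw [ht, hCc] at h1
    exact (Nat.Coprime.dvd_mul_left (by norm_num)).mp h1
  have key : ∀ m ∈ Nat.divisors 6, ∀ n ∈ Nat.divisors 8360, ∀ c ∈ Nat.divisors 8360, 1 < m → 1 < n → n % 7 = 1 →
      c * m * n = 8360 → (n ≠ 8 ∨ 2 * (7 * c * m) ∣ 42) → 2 ∣ c → (c = 190 ∧ n = 22) ∨ c = 22 := by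
    decide +kernel
  rcases key m hmd n hnd c hcd hm1 hn1 hnp hcmn hsm' h2c with ⟨rfl, rfl⟩ | rfl
  · haveI hq : Fact (Nat.Prime 19) := ⟨by norm_num⟩
    have := pq_le (q := 19) (p := 7) (by norm_num) P hP (by rw [hn]; norm_num) (by rw [hCc]; norm_num)
    rw [hn] at this
    norm_num at this
  · -- an element of order `11` commutes with an element of order `7`
    haveI hp11 : Fact (Nat.Prime 11) := ⟨by norm_num⟩
    obtain ⟨w, hw⟩ := exists_prime_orderOf_dvd_card' (G := centralizer ((P : Subgroup G) : Set G)) 11 (by rw [hCc]; norm_num)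
    have hw' : orderOf (w : G) = 11 := by rw [Subgroup.orderOf_coe, hw]
    have hne : Nontrivial (P : Subgroup G) := by
      apply Finite.one_lt_card_iff_nontrivial.mp
      rw [hP]
      norm_num
    obtain ⟨y', hy'⟩ := exists_ne (1 : (P : Subgroup G))
    have hy1 : (y' : G) ≠ 1 := fun e => hy' (Subtype.ext e)
    have hyo : orderOf (y' : G) = 7 := by
      have h2 : orderOf (y' : G) ∣ 7 := by
        have h3 := orderOf_dvd_natCard y'
        rwa [← Subgroup.orderOf_coe, hP] at h3
      rcases (Nat.dvd_prime (by norm_num)).mp h2 with h3 | h3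
      · exact (hy1 (orderOf_eq_one_iff.mp h3)).elim
      · exact h3
    have hcomm : Commute (y' : G) (w : G) := mem_centralizer_iff.mp w.2 y' y'.2
    have hcard11 : Nat.card G = 11 * 5320 := by rw [h]
    obtain ⟨P₁, m₁, c₁, n₁, hP₁, -, -, hCc₁, hn₁, hmd₁, hm1₁, hcd₁, hnd₁, hcmn₁, hnp₁, hn1₁, -, -⟩ :=
      exists_setup2 hcard11 (by norm_num) (by norm_num) (by norm_num)
    have h7c : 7 ∣ c₁ := by
      have h1 := orderOf_dvd_of_commute P₁ hP₁ hw' hcomm
      rw [hyo, hCc₁] at h1
      exact (Nat.Coprime.dvd_mul_left (by norm_num)).mp h1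
    have key2 : ∀ m ∈ Nat.divisors 10, ∀ n ∈ Nat.divisors 5320, ∀ c ∈ Nat.divisors 5320, 1 < m → 1 < n → n % 11 = 1 →
        c * m * n = 5320 → 7 ∣ c → False := by
      decide +kernel
    exact key2 m₁ hmd₁ n₁ hnd₁ c₁ hcd₁ hm1₁ hn1₁ hnp₁ hcmn₁ h7c

theorem no_58520 [IsSimpleGroup G] (h : Nat.card G = 58520) : False := by
  haveI := Fintype.ofFinite G
  haveI hp : Fact (Nat.Prime 19) := ⟨by norm_num⟩
  have hcard : Nat.card G = 19 * 3080 := by rw [h]
  obtain ⟨P, m, c, n, hP, hnc, hCN, hCc, hn, hmd, hm1, hcd, hnd, hcmn, hnp, hn1, hfac, hsm⟩ :=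
    exists_setup2 hcard (by norm_num) (by norm_num) (by norm_num)
  have hsm' : n ≠ 20 ∨ 2 * (19 * c * m) ∣ 342 := by
    by_cases hh : n = 20
    · exact Or.inr (hsm hh)
    · exact Or.inl hh
  have key : ∀ m ∈ Nat.divisors 18, ∀ n ∈ Nat.divisors 3080, ∀ c ∈ Nat.divisors 3080, 1 < m → 1 < n → n % 19 = 1 →
      c * m * n = 3080 → (n ≠ 20 ∨ 2 * (19 * c * m) ∣ 342) → (m = 2 ∧ c = 20 ∧ n = 77) ∨ (m = 2 ∧ c = 1) := by
    decide +kernel
  rcases key m hmd n hnd c hcd hm1 hn1 hnp hcmn hsm' with ⟨rfl, rfl, rfl⟩ | ⟨rfl, rfl⟩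
  · haveI hq : Fact (Nat.Prime 5) := ⟨by norm_num⟩
    have := pq_le (q := 5) (p := 19) (by norm_num) P hP (by rw [hn]; norm_num) (by rw [hCc]; norm_num)
    rw [hn] at this
    norm_num at this
  · obtain ⟨M, χ, η, a, c', hM, hχ, hη, hχ1, hη1, ha, hd, hy, hsec, hc', hinv⟩ :=
      two_data hnc P hP (by norm_num) (r := 9) (by norm_num) (by norm_num) hCN
    have hc'1 : c' = 1 := by
      rw [hCc] at hc'
      omega
    subst hc'1
    have hχd := degree_coprime ha hd hcard (by norm_num)
    have hηd := charDegree_dvd_card η.2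
    rw [h] at hηd
    have hx1 : 1 < charDegree (χ : G → ℂ) := by
      by_contra hc
      exact hχ1 (eq_one'_of_degree hnc (by omega))
    have hy1 : 1 < charDegree (η : G → ℂ) := by
      by_contra hc
      exact hη1 (eq_one'_of_degree hnc (by omega))
    have hkey : ∀ x ∈ Nat.divisors 3080, ∀ y ∈ Nat.divisors 58520, ∀ a ∈ ({1, -1} : Finset ℤ), 1 < x → 1 < y →
        ((x : ℤ) - a) % 19 = 0 → (y : ℤ) = x + a → x = 56 ∧ y = 55 := by
      decide +kernel
    have ha' : a ∈ ({1, -1} : Finset ℤ) := by simpa using ha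
    obtain ⟨hx56, hy55⟩ := hkey _ hχd _ (Nat.mem_divisors.mpr ⟨hηd, by norm_num⟩) a ha' hx1 hy1
      (Int.emod_eq_zero_of_dvd hd) hy
    obtain ⟨t, ht⟩ := exists_involution (G := G) (by rw [h]; norm_num)
    obtain ⟨L, u, hu, hLC, hL⟩ := hinv t ht
    have hL' := hL rfl
    haveI hp2 : Fact (Nat.Prime 2) := ⟨by norm_num⟩
    have hu0 : u = 0 := by
      have hfac2 : (Nat.card G).factorization 2 = 3 := by
        rw [h]
        have h58 : (58520 : ℕ) = 2 ^ 3 * 7315 := by norm_num
        rw [h58, Nat.factorization_mul (by norm_num) (by norm_num), Nat.Prime.factorization_pow (by norm_num)]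
        have : (7315 : ℕ).factorization 2 = 0 := Nat.factorization_eq_zero_of_not_dvd (by norm_num)
        simp [this]
      have hdef : 2 ^ (Nat.card G).factorization 2 ∣ charDegree (χ : G → ℂ) := by
        rw [hfac2, hx56]
        norm_num
      have h2 := apply_eq_zero_of_defect_zero χ.2 (p := 2) (by norm_num) hdef (by rw [ht])
      rw [h2] at hu
      exact_mod_cast hu.symm
    set C := Nat.card (centralizer ({t} : Set G)) with hC
    have hCd : C ∣ 58520 := by
      rw [← h]
      exact card_subgroup_dvd_card _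
    rw [hu0, hx56, hy55, h] at hLC
    have hLC' : L * C ^ 2 * 56 * 55 = 58520 * 1 * 56 ^ 2 := by
      have h3 : ((L * C ^ 2 * 56 * 55 : ℕ) : ℤ) = ((58520 * 1 * 56 ^ 2 : ℕ) : ℤ) := by
        push_cast at hLC ⊢
        rw [hLC]
      exact_mod_cast h3
    have hkey2 : ∀ L ∈ Finset.range 20, ∀ C ∈ Nat.divisors 58520, L * C ^ 2 * 56 * 55 = 58520 * 1 * 56 ^ 2 → C = 56 := by
      decide +kernel
    have hC56 := hkey2 L (Finset.mem_range.mpr (by omega)) C (Nat.mem_divisors.mpr ⟨hCd, by norm_num⟩) hLC'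
    haveI hp7 : Fact (Nat.Prime 7) := ⟨by norm_num⟩
    obtain ⟨x, hx⟩ := exists_prime_orderOf_dvd_card' (G := centralizer ({t} : Set G)) 7 (by rw [← hC, hC56]; norm_num)
    have hx' : orderOf (x : G) = 7 := by rw [Subgroup.orderOf_coe, hx]
    have hcomm : Commute t (x : G) := mem_centralizer_iff.mp x.2 t rfl
    exact no_even_seven h ht hx' hcomm

theorem no_87780 [IsSimpleGroup G] (h : Nat.card G = 87780) : False := by
  haveI := Fintype.ofFinite G
  haveI hp : Fact (Nat.Prime 19) := ⟨by norm_num⟩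
  have hcard : Nat.card G = 19 * 4620 := by rw [h]
  obtain ⟨P, m, c, n, hP, hnc, hCN, hCc, hn, hmd, hm1, hcd, hnd, hcmn, hnp, hn1, hfac, hsm⟩ :=
    exists_setup2 hcard (by norm_num) (by norm_num) (by norm_num)
  have hsm' : n ≠ 20 ∨ 2 * (19 * c * m) ∣ 342 := by
    by_cases hh : n = 20
    · exact Or.inr (hsm hh)
    · exact Or.inl hh
  have key : ∀ m ∈ Nat.divisors 18, ∀ n ∈ Nat.divisors 4620, ∀ c ∈ Nat.divisors 4620, 1 < m → 1 < n → n % 19 = 1 →
      c * m * n = 4620 → (n ≠ 20 ∨ 2 * (19 * c * m) ∣ 342) → (m = 2 ∧ c = 11) ∨ (5 ∣ c ∧ n = 77) ∨ (m = 3 ∧ c = 1) := by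
    decide +kernel
  rcases key m hmd n hnd c hcd hm1 hn1 hnp hcmn hsm' with ⟨rfl, rfl⟩ | ⟨h5, rfl⟩ | ⟨rfl, rfl⟩
  · have hC := not_isPGroup_of_card (H := centralizer ((P : Subgroup G) : Set G)) hCc (by norm_num) (by norm_num)
    exact false_two hnc P hP hcard (by norm_num) (by norm_num) (r := 9) (by norm_num) (by norm_num) hCN hC (by decide +kernel)
  · haveI hq : Fact (Nat.Prime 5) := ⟨by norm_num⟩
    have := pq_le (q := 5) (p := 19) (by norm_num) P hP (by rw [hn]; norm_num) (by rw [hCc]; exact Dvd.dvd.mul_left h5 19)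
    rw [hn] at this
    norm_num at this
  · obtain ⟨M, χ₁, χ₂, η, a₁, a₂, ε, hM, h₁, h₂, hη, h₁1, h₂1, hη1, ha₁, ha₂, hε, hd₁, hd₂, hrel⟩ :=
      three_data hnc P hP (r := 6) (by norm_num) (by norm_num) hCN
    have hm₁ := degree_coprime ha₁ hd₁ hcard (by norm_num)
    have hm₂ := degree_coprime ha₂ hd₂ hcard (by norm_num)
    have hyd := charDegree_dvd_card η.2
    rw [h] at hyd
    have hx1 : 1 < charDegree (χ₁ : G → ℂ) := by
      by_contra hc
      exact h₁1 (eq_one'_of_degree hnc (by omega))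
    have hx2 : 1 < charDegree (χ₂ : G → ℂ) := by
      by_contra hc
      exact h₂1 (eq_one'_of_degree hnc (by omega))
    have hcheck : ∀ x₁ ∈ Nat.divisors 4620, ∀ x₂ ∈ Nat.divisors 4620, ∀ a₁ ∈ ({1, -1} : Finset ℤ), ∀ a₂ ∈ ({1, -1} : Finset ℤ),
        1 < x₁ → 1 < x₂ → ((x₁ : ℤ) - a₁) % 19 = 0 → ((x₂ : ℤ) - a₂) % 19 = 0 →
          (1 + a₁ * x₁ + a₂ * x₂).natAbs ∣ 87780 → x₁ ≠ x₂ ∧ x₁ ≠ (1 + a₁ * x₁ + a₂ * x₂).natAbs ∧
            x₂ ≠ (1 + a₁ * x₁ + a₂ * x₂).natAbs ∧ 87780 < x₁ ^ 2 + x₂ ^ 2 + (1 + a₁ * x₁ + a₂ * x₂).natAbs ^ 2 := by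
      decide +kernel
    have ha₁' : a₁ ∈ ({1, -1} : Finset ℤ) := by simpa using ha₁
    have ha₂' : a₂ ∈ ({1, -1} : Finset ℤ) := by simpa using ha₂
    have hval : (1 + a₁ * (charDegree (χ₁ : G → ℂ) : ℤ) + a₂ * (charDegree (χ₂ : G → ℂ) : ℤ)).natAbs = charDegree (η : G → ℂ) := by
      have h3 : 1 + a₁ * (charDegree (χ₁ : G → ℂ) : ℤ) + a₂ * (charDegree (χ₂ : G → ℂ) : ℤ) = - (ε * (charDegree (η : G → ℂ) : ℤ)) := by
        linarith
      rw [h3, Int.natAbs_neg, Int.natAbs_mul]
      rcases hε with rfl | rfl <;> simp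
    obtain ⟨hne₁₂, hne₁η, hne₂η, hbig⟩ := hcheck _ hm₁ _ hm₂ _ ha₁' _ ha₂' hx1 hx2 (Int.emod_eq_zero_of_dvd hd₁)
      (Int.emod_eq_zero_of_dvd hd₂) (by rw [hval]; exact hyd)
    rw [hval] at hne₁η hne₂η hbig
    classical
    have hχne₁₂ : χ₁ ≠ χ₂ := fun e => hne₁₂ (by rw [e])
    have hχne₁η : χ₁ ≠ η := fun e => hne₁η (by rw [e])
    have hχne₂η : χ₂ ≠ η := fun e => hne₂η (by rw [e])
    have hsum := sum_degree_sq_le ({χ₁, χ₂, η} : Finset (IrrCharacter G))
    rw [Finset.sum_insert (by simp [hχne₁₂, hχne₁η]), Finset.sum_insert (by simp [hχne₂η]), Finset.sum_singleton, h] at hsum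
    have hbig' : (87780 : ℤ) < (charDegree (χ₁ : G → ℂ) : ℤ) ^ 2 + (charDegree (χ₂ : G → ℂ) : ℤ) ^ 2 + (charDegree (η : G → ℂ) : ℤ) ^ 2 := by
      exact_mod_cast hbig
    push_cast at hsum
    linarith

/-- No simple group of order `19 k` for `k ∣ 9240`, `1 < k < 9240`. -/
theorem no_simple [IsSimpleGroup G] {k : ℕ} (hk : k ∈ Nat.divisors 9240) (hk1 : k ≠ 1) (hk2 : k ≠ 9240)
    (h : Nat.card G = 19 * k) : False := by
  have hk0 : 0 < k := Nat.pos_of_mem_divisors hk
  have hnc : ¬ IsMulCommutative G := by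
    apply Cfsg.Agent.Lib.SmallSimple.not_comm_of_not_prime
    rw [h]
    exact Nat.not_prime_mul (by norm_num) hk1
  have key : ∀ k ∈ Nat.divisors 9240, k ≠ 1 → k ≠ 9240 →
      (19 * k = 760 ∨ 19 * k = 2280 ∨ 19 * k = 5320 ∨ 19 * k = 5852 ∨ 19 * k = 11704 ∨ 19 * k = 29260 ∨ 19 * k = 17556 ∨
        19 * k = 15960 ∨ 19 * k = 7980 ∨ 19 * k = 35112 ∨ 19 * k = 58520 ∨ 19 * k = 87780) ∨
      Cfsg.Agent.Lib.Small.sweepAt (19 * k) = true := by
    decide +kernel
  rcases key k hk hk1 hk2 with hh | hs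
  · rw [← h] at hh
    rcases hh with hh | hh | hh | hh | hh | hh | hh | hh | hh | hh | hh | hh
    · exact no_760 hh
    · exact no_2280 hh
    · exact no_5320 hh
    · exact no_5852 hh
    · exact no_11704 hh
    · exact no_29260 hh
    · exact no_17556 hh
    · exact no_15960 hh
    · exact no_7980 hh
    · exact no_35112 hh
    · exact no_58520 hh
    · exact no_87780 hh
  · rw [← h] at hs
    exact Cfsg.Agent.Lib.Small.false_of_sweepAt hnc hs

/-- A permutation of 19-power order on fewer than 19 points is trivial. -/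
theorem perm_eq_one {α : Type*} [Finite α] (π : Equiv.Perm α) (hπ : π ^ 19 = 1) (hα : Nat.card α < 19) : π = 1 := by
  have h19 : Nat.Prime 19 := by norm_num
  have h1 : orderOf π ∣ 19 := orderOf_dvd_of_pow_eq_one hπ
  rcases (Nat.dvd_prime h19).mp h1 with h2 | h2
  · exact orderOf_eq_one_iff.mp h2
  · exfalso
    have h3 := orderOf_dvd_natCard π
    rw [h2, Nat.card_perm] at h3
    have := (Nat.Prime.dvd_factorial h19).mp h3
    omega

/-- A divisor of 9240 which is a prime power is small. -/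
theorem prime_pow_lt {r k : ℕ} (hr : r.Prime) (h : r ^ k ∣ 9240) : r ^ k < 19 := by
  by_contra hlt
  push Not at hlt
  have key : ∀ d ∈ Nat.divisors 9240, 19 ≤ d → ∃ q ∈ ({2, 3, 5, 7, 11} : Finset ℕ), ∃ q' ∈ ({2, 3, 5, 7, 11} : Finset ℕ),
      q ≠ q' ∧ q ∣ d ∧ q' ∣ d := by
    decide +kernel
  obtain ⟨q, hq, q', hq', hne, h1, h2⟩ := key _ (Nat.mem_divisors.mpr ⟨h, by norm_num⟩) hlt
  have hqp : ∀ q ∈ ({2, 3, 5, 7, 11} : Finset ℕ), q.Prime := by
    intro q hq
    simp only [Finset.mem_insert, Finset.mem_singleton] at hq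
    rcases hq with rfl | rfl | rfl | rfl | rfl <;> norm_num
  have h3 := (Nat.prime_dvd_prime_iff_eq (hqp q hq) hr).mp ((hqp q hq).dvd_of_dvd_pow h1)
  have h4 := (Nat.prime_dvd_prime_iff_eq (hqp q' hq') hr).mp ((hqp q' hq').dvd_of_dvd_pow h2)
  exact hne (h3.trans h4.symm)

/-- An element of order `19` normalizing a subgroup of order dividing `9240` centralizes it. -/
theorem commute_of_normalizes {x : G} (hx : x ^ 19 = 1) (H : Subgroup G) (hxN : x ∈ normalizer (H : Set G))
    (hH : Nat.card H ∣ 9240) (u : G) (hu : u ∈ H) : Commute x u := by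
  classical
  haveI h19 : Fact (Nat.Prime 19) := ⟨by norm_num⟩
  set σ : MulAut H := H.normalizerMonoidHom ⟨x, hxN⟩ with hσ
  have hσval : ∀ v : H, ((σ v : H) : G) = x * v * x⁻¹ := fun v => rfl
  have hσ19 : σ ^ 19 = 1 := by
    rw [hσ, ← map_pow]
    have : (⟨x, hxN⟩ : normalizer (H : Set G)) ^ 19 = 1 := by
      apply Subtype.ext
      simpa using hx
    rw [this, map_one]
  set C : Subgroup H := (centralizer ({x} : Set G)).subgroupOf H with hC
  have hCmem : ∀ v : H, σ v = v → v ∈ C := by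
    intro v hv
    rw [hC, mem_subgroupOf, mem_centralizer_iff]
    intro y hy
    rw [Set.mem_singleton_iff] at hy
    subst hy
    have h1 := congrArg Subtype.val hv
    rw [hσval] at h1
    have h2 : y * (v : G) = (v : G) * y := by
      calc y * (v : G) = (y * (v : G) * y⁻¹) * y := by group
        _ = (v : G) * y := by rw [h1]
    exact h2
  -- each prime
  have hsyl : ∀ r : ℕ, r.Prime → r ^ (Nat.card H).factorization r ∣ Nat.card C := by
    intro r hr
    haveI hr' : Fact r.Prime := ⟨hr⟩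
    -- a fixed Sylow subgroup
    have hA : IsPGroup 19 (zpowers σ) := by
      have h1 : orderOf σ ∣ 19 ^ 1 := by
        rw [pow_one]
        exact orderOf_dvd_of_pow_eq_one hσ19
      obtain ⟨j, -, hj⟩ := (Nat.dvd_prime_pow h19.out).mp h1
      exact IsPGroup.of_card (n := j) (by rw [Nat.card_zpowers, hj])
    have hmod := hA.card_modEq_card_fixedPoints (Sylow r H)
    have hnd : Nat.card (Sylow r H) ∣ 9240 := by
      obtain ⟨R⟩ : Nonempty (Sylow r H) := inferInstance
      exact (Sylow.card_dvd_index R).trans ((index_dvd_card _).trans hH)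
    have hne : (MulAction.fixedPoints (zpowers σ) (Sylow r H)).Nonempty := by
      by_contra hemp
      rw [Set.not_nonempty_iff_eq_empty] at hemp
      rw [hemp, Nat.card_eq_zero.mpr (Or.inl (Set.isEmpty_coe_sort.mpr rfl))] at hmod
      have h2 : 19 ∣ Nat.card (Sylow r H) := (Nat.modEq_zero_iff_dvd).mp hmod
      have h3 : 19 ∣ 9240 := h2.trans hnd
      norm_num at h3
    obtain ⟨R, hR⟩ := hne
    have hRfix : σ • R = R := by
      have := hR ⟨σ, mem_zpowers σ⟩
      exact this
    have hRmem : ∀ v : H, σ v ∈ (R : Subgroup H) ↔ v ∈ (R : Subgroup H) := by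
      intro v
      have h1 : ((σ • R : Sylow r H) : Subgroup H) = σ • (R : Subgroup H) := Sylow.pointwise_smul_def
      rw [hRfix] at h1
      constructor
      · intro hv
        rw [h1] at hv
        exact (Subgroup.smul_mem_pointwise_smul_iff (a := σ) (S := (R : Subgroup H)) (x := v)).mp hv
      · intro hv
        rw [h1]
        exact (Subgroup.smul_mem_pointwise_smul_iff (a := σ) (S := (R : Subgroup H)) (x := v)).mpr hv
    have hRcard : Nat.card (R : Subgroup H) = r ^ (Nat.card H).factorization r := Sylow.card_eq_multiplicity R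
    have hRlt : Nat.card (R : Subgroup H) < 19 := by
      rw [hRcard]
      apply prime_pow_lt hr
      rw [← hRcard]
      exact (card_subgroup_dvd_card _).trans hH
    let π : Equiv.Perm (R : Subgroup H) := Equiv.Perm.subtypePerm (MulAut.toPerm (↥H) σ) hRmem
    have hπ19 : π ^ 19 = 1 := by
      apply Equiv.ext
      intro w
      rw [show π ^ 19 = _ from Equiv.Perm.subtypePerm_pow (MulAut.toPerm (↥H) σ) 19 hRmem]
      apply Subtype.ext
      have h5 : ((MulAut.toPerm (↥H) σ) ^ 19) = 1 := by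
        rw [← map_pow, hσ19, map_one]
      simp [h5]
    have hπ1 := perm_eq_one π hπ19 hRlt
    have hRC : (R : Subgroup H) ≤ C := by
      intro v hv
      apply hCmem
      have h6 := congrArg (fun f : Equiv.Perm (R : Subgroup H) => f ⟨v, hv⟩) hπ1
      have h7 := congrArg Subtype.val h6
      exact h7
    rw [← hRcard]
    exact card_dvd_of_le hRC
  have hCtop : C = ⊤ := by
    apply Subgroup.eq_top_of_card_eq
    apply Nat.dvd_antisymm (card_subgroup_dvd_card C)
    rw [← Nat.factorization_prime_le_iff_dvd Nat.card_pos.ne' Nat.card_pos.ne']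
    intro r hr
    exact (Nat.Prime.pow_dvd_iff_le_factorization hr Nat.card_pos.ne').mp (hsyl r hr)
  have h8 : (⟨u, hu⟩ : H) ∈ C := by
    rw [hCtop]
    exact mem_top _
  rw [hC, mem_subgroupOf, mem_centralizer_iff] at h8
  exact h8 x rfl

theorem factorization_aux {m : ℕ} (hm : ¬ 19 ∣ m) (hm0 : m ≠ 0) : (19 * m).factorization 19 = 1 := by
  have h19 : Nat.Prime 19 := by norm_num
  rw [Nat.factorization_mul (by norm_num) hm0, Finsupp.add_apply, h19.factorization_self,
    Nat.factorization_eq_zero_of_not_dvd hm]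

/-- The subgroup of order 19 is unique, when normal. -/
theorem eq_of_normal_of_card {M : Type*} [Group M] [Finite M] {m : ℕ} (hM : Nat.card M = 19 * m) (hm : ¬ 19 ∣ m)
    (Q Q' : Subgroup M) (hQ : Q.Normal) (hc : Nat.card Q = 19) (hc' : Nat.card Q' = 19) : Q' = Q := by
  haveI h19 : Fact (Nat.Prime 19) := ⟨by norm_num⟩
  have hm0 : m ≠ 0 := by
    rintro rfl
    exact hm (dvd_zero _)
  have hf : Nat.card Q = 19 ^ (Nat.card M).factorization 19 := by
    rw [hM, factorization_aux hm hm0, hc, pow_one]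
  have hf' : Nat.card Q' = 19 ^ (Nat.card M).factorization 19 := by
    rw [hM, factorization_aux hm hm0, hc', pow_one]
  let S : Sylow 19 M := Sylow.ofCard Q hf
  let S' : Sylow 19 M := Sylow.ofCard Q' hf'
  have hS : (S : Subgroup M).Normal := by
    change (((Sylow.ofCard Q hf : Sylow 19 M)) : Subgroup M).Normal
    rw [Sylow.coe_ofCard]
    exact hQ
  have _ := Sylow.unique_of_normal S hS
  have h := Subsingleton.elim S' S
  have h2 : ((S' : Sylow 19 M) : Subgroup M) = (S : Subgroup M) := by rw [h]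
  simpa [S, S', Sylow.coe_ofCard] using h2

universe u

/-- A group of order `19 k`, `k ∣ 9240`, not simple unless `k ≠ 9240`, has a normal subgroup of order 19. -/
theorem exists_normal (k : ℕ) : k ∣ 9240 → ∀ (G : Type u) [Group G] [Finite G], Nat.card G = 19 * k →
    (k ≠ 9240 ∨ ¬ IsSimpleGroup G) → ∃ Q : Subgroup G, Q.Normal ∧ Nat.card Q = 19 := by
  induction k using Nat.strong_induction_on with
  | _ k ih =>
  intro hk G _ _ hG hcond
  haveI h19 : Fact (Nat.Prime 19) := ⟨by norm_num⟩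
  have hk0 : k ≠ 0 := by
    rintro rfl
    norm_num at hk
  by_cases hk1 : k = 1
  · subst hk1
    exact ⟨⊤, inferInstance, by rw [Subgroup.card_top, hG]⟩
  have hns : ¬ IsSimpleGroup G := by
    rcases hcond with h | h
    · intro hs
      exact no_simple (Nat.mem_divisors.mpr ⟨hk, by norm_num⟩) hk1 h hG
    · exact h
  have h19k : ¬ 19 ∣ k := fun h => by
    have := h.trans hk
    norm_num at this
  haveI : Nontrivial G := Finite.one_lt_card_iff_nontrivial.mp (by rw [hG]; omega)
  obtain ⟨N, hNn, hNbot, hNtop⟩ : ∃ N : Subgroup G, N.Normal ∧ N ≠ ⊥ ∧ N ≠ ⊤ := by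
    by_contra hcon
    push Not at hcon
    exact hns ⟨fun N hN => by
      by_cases hb : N = ⊥
      · exact Or.inl hb
      · exact Or.inr (hcon N hN hb)⟩
  have hab := Subgroup.card_mul_index N
  rw [hG] at hab
  have ha1 : 1 < Nat.card N := by
    have : Nontrivial N := (Subgroup.nontrivial_iff_ne_bot N).mpr hNbot
    exact Finite.one_lt_card
  have hb1 : 1 < N.index := by
    have h1 : N.index ≠ 0 := Subgroup.index_ne_zero_of_finite
    have h2 : N.index ≠ 1 := fun h => hNtop (Subgroup.index_eq_one.mp h)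
    omega
  by_cases h19a : 19 ∣ Nat.card N
  · obtain ⟨a', ha'⟩ := h19a
    have hab' : a' * N.index = k := by
      rw [ha', mul_assoc] at hab
      exact Nat.eq_of_mul_eq_mul_left (by norm_num) hab
    have hlt : a' < k := by
      rw [← hab']
      have ha0 : 0 < a' := by
        rcases Nat.eq_zero_or_pos a' with h | h
        · subst h
          omega
        · exact h
      nlinarith
    have hd : a' ∣ k := ⟨_, hab'.symm⟩
    obtain ⟨Q₀, hQ₀, hc₀⟩ := ih a' hlt (hd.trans hk) N ha' (Or.inl (by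
      have := Nat.le_of_dvd (by norm_num) hk
      omega))
    have h19a' : ¬ 19 ∣ a' := fun h => h19k (h.trans hd)
    have ha'0 : a' ≠ 0 := fun h => by
      subst h
      omega
    have hf : Nat.card Q₀ = 19 ^ (Nat.card N).factorization 19 := by
      rw [ha', factorization_aux h19a' ha'0, hc₀, pow_one]
    let S : Sylow 19 N := Sylow.ofCard Q₀ hf
    have hS : (S : Subgroup N).Normal := by
      change (((Sylow.ofCard Q₀ hf : Sylow 19 N)) : Subgroup N).Normal
      rw [Sylow.coe_ofCard]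
      exact hQ₀
    haveI hch : (S : Subgroup N).Characteristic := Sylow.characteristic_of_normal S hS
    refine ⟨(S : Subgroup N).map N.subtype, inferInstance, ?_⟩
    rw [← Nat.card_congr ((S : Subgroup N).equivMapOfInjective _ N.subtype_injective).toEquiv]
    change Nat.card ((Sylow.ofCard Q₀ hf : Sylow 19 N) : Subgroup N) = 19
    rw [Sylow.coe_ofCard]
    exact hc₀
  · -- the order of `N` is prime to 19
    have h19b : 19 ∣ N.index := by
      have h1 : 19 ∣ Nat.card N * N.index := ⟨k, hab⟩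
      exact ((Nat.Prime.dvd_mul (by norm_num)).mp h1).resolve_left h19a
    obtain ⟨b', hb'⟩ := h19b
    have hab' : Nat.card N * b' = k := by
      rw [hb', ← mul_assoc, mul_comm (Nat.card N), mul_assoc] at hab
      exact Nat.eq_of_mul_eq_mul_left (by norm_num) hab
    have hlt : b' < k := by
      rw [← hab']
      have hb0 : 0 < b' := by
        rcases Nat.eq_zero_or_pos b' with h | h
        · subst h
          omega
        · exact h
      nlinarith
    have hd : b' ∣ k := ⟨Nat.card N, by rw [← hab', mul_comm]⟩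
    have hcardq : Nat.card (G ⧸ N) = 19 * b' := by
      rw [← hb']
      rfl
    obtain ⟨Q₀, hQ₀, hc₀⟩ := ih b' hlt (hd.trans hk) (G ⧸ N) hcardq (Or.inl (by
      have := Nat.le_of_dvd (by norm_num) hk
      omega))
    have h19b' : ¬ 19 ∣ b' := fun h => h19k (h.trans hd)
    set π := QuotientGroup.mk' N with hπ
    have hNd : Nat.card N ∣ k := ⟨_, hab'.symm⟩
    have himg : ∀ v : G, orderOf v = 19 → zpowers (π v) = Q₀ := by
      intro v hv
      apply eq_of_normal_of_card hcardq h19b' Q₀ _ hQ₀ hc₀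
      rw [Nat.card_zpowers]
      have h1 : orderOf (π v) ∣ 19 := by
        rw [← hv]
        exact orderOf_map_dvd π v
      rcases (Nat.dvd_prime (by norm_num)).mp h1 with h2 | h2
      · exfalso
        have h3 : π v = 1 := orderOf_eq_one_iff.mp h2
        have h4 : v ∈ N := (QuotientGroup.eq_one_iff v).mp h3
        have h5 := orderOf_dvd_natCard (⟨v, h4⟩ : N)
        rw [Subgroup.orderOf_mk, hv] at h5
        exact h19a h5
      · exact h2
    obtain ⟨y, hy⟩ := exists_prime_orderOf_dvd_card' (G := G) 19 (by rw [hG]; exact dvd_mul_right _ _)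
    have hy19 : y ^ 19 = 1 := by
      rw [← hy]
      exact pow_orderOf_eq_one y
    have hconj : ∀ g : G, g * y * g⁻¹ ∈ zpowers y := by
      intro g
      set y' := g * y * g⁻¹ with hy'
      have hy'o : orderOf y' = 19 := by
        have : y' = MulAut.conj g y := by simp [MulAut.conj_apply, hy']
        rw [this, MulEquiv.orderOf_eq, hy]
      have h1 : π y' ∈ zpowers (π y) := by
        rw [himg y hy, ← himg y' hy'o]
        exact mem_zpowers _
      obtain ⟨i, hi⟩ := mem_zpowers_iff.mp h1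
      set n := y' * (y ^ i)⁻¹ with hn
      have hnN : n ∈ N := by
        apply (QuotientGroup.eq_one_iff n).mp
        change π n = 1
        rw [hn, map_mul, map_inv, map_zpow, hi, mul_inv_cancel]
      have hcomm : Commute y n := commute_of_normalizes hy19 N (by
        rw [Subgroup.normalizer_eq_top]
        exact mem_top y) (hNd.trans hk) n hnN
      have hcomm' : Commute n (y ^ i) := (hcomm.symm.zpow_right i)
      have hy'eq : y' = n * y ^ i := by
        rw [hn]
        group
      have hn19 : n ^ 19 = 1 := by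
        have h2 : y' ^ 19 = 1 := by
          rw [← hy'o]
          exact pow_orderOf_eq_one y'
        rw [hy'eq, hcomm'.mul_pow] at h2
        have h3 : (y ^ i) ^ 19 = 1 := by
          rw [← zpow_natCast, ← zpow_mul, mul_comm, zpow_mul, zpow_natCast, hy19, one_zpow]
        rwa [h3, mul_one] at h2
      have hn1 : n = 1 := by
        have h3 : orderOf n ∣ 19 := orderOf_dvd_of_pow_eq_one hn19
        rcases (Nat.dvd_prime (by norm_num)).mp h3 with h2 | h2
        · exact orderOf_eq_one_iff.mp h2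
        · exfalso
          have h5 := orderOf_dvd_natCard (⟨n, hnN⟩ : N)
          rw [Subgroup.orderOf_mk, h2] at h5
          exact h19a h5
      rw [hy'eq, hn1, one_mul]
      exact zpow_mem (mem_zpowers y) i
    refine ⟨zpowers y, ⟨?_⟩, by rw [Nat.card_zpowers, hy]⟩
    intro z hz g
    obtain ⟨j, rfl⟩ := mem_zpowers_iff.mp hz
    rw [← conj_zpow]
    exact zpow_mem (hconj g) j

end Cfsg.Agent.Lib.Misc19.J1
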