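import Cfsg.Agent.Lib.Transfer.NormalAb
import Cfsg.Agent.Lib.Transfer.Frattini
import Cfsg.Agent.Lib.Transfer.Frobenius
import Cfsg.Agent.S0111

/-!
# A 2-group with an elementary abelian subgroup of order 8 has a normal four-group
and the passage of 2-rank three to involution centralizers.
-/

set_option autoImplicit false

namespace Cfsg.Agent.Lib.Misc19

open Subgroup

section

variable {S : Type*} [Group S] [Finite S]

/-- Two commuting involutions with product central modulo the first generate an elementary abelian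
normal subgroup of order four. -/
lemma four_of_pair {w v : S} (hw : w ^ 2 = 1) (hw1 : w ≠ 1) (hv : v ^ 2 = 1) (hvw : v ∉ zpowers w)
    (hcomm : v * w = w * v) :
    Nat.card (closure ({w, v} : Set S)) = 4 ∧ (∀ a ∈ closure ({w, v} : Set S), a ^ 2 = 1) ∧
      ∀ a ∈ closure ({w, v} : Set S), a = 1 ∨ a = w ∨ a = v ∨ a = v * w := by
  classical
  have hv1 : v ≠ 1 := fun h => hvw (h ▸ one_mem _)
  have hvw1 : v ≠ w := fun h => hvw (h ▸ mem_zpowers w)
  have hw' : w * w = 1 := by rw [← sq]; exact hw
  have hv' : v * v = 1 := by rw [← sq]; exact hv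
  have hne : v * w ≠ 1 := fun h => hvw1 (by
    have : v * w * w = w := by rw [h, one_mul]
    rwa [mul_assoc, hw', mul_one] at this)
  have hne2 : v * w ≠ w := fun h => hv1 (by
    have : v * w * w⁻¹ = w * w⁻¹ := by rw [h]
    simpa using this)
  have hne3 : v * w ≠ v := fun h => hw1 (by
    have : v⁻¹ * (v * w) = v⁻¹ * v := by rw [h]
    simpa using this)
  have f3 : w * v = v * w := hcomm.symm
  have f4 : w * (v * w) = v := by rw [← mul_assoc, f3, mul_assoc, hw', mul_one]
  have f5 : v * (v * w) = w := by rw [← mul_assoc, hv', one_mul]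
  have f6 : v * w * w = v := by rw [mul_assoc, hw', mul_one]
  have f7 : v * w * v = w := by rw [← f3, mul_assoc, hv', mul_one]
  have f8 : v * w * (v * w) = 1 := by rw [← mul_assoc, f7, hw']
  have hset : ((closure ({w, v} : Set S) : Subgroup S) : Set S) = {1, w, v, v * w} := by
    apply Set.Subset.antisymm
    · let K : Subgroup S :=
        { carrier := {1, w, v, v * w}
          one_mem' := by simp
          mul_mem' := by
            intro a b ha hb
            rcases ha with ha | ha | ha | ha <;> rcases hb with hb | hb | hb | hb <;> rw [ha, hb] <;>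
              simp only [one_mul, mul_one, hw', hv', f3, f4, f5, f6, f7, f8, Set.mem_insert_iff,
                Set.mem_singleton_iff, true_or, or_true]
          inv_mem' := by
            intro a ha
            have i1 : w⁻¹ = w := inv_eq_of_mul_eq_one_left hw'
            have i2 : v⁻¹ = v := inv_eq_of_mul_eq_one_left hv'
            have i3 : (v * w)⁻¹ = v * w := inv_eq_of_mul_eq_one_left f8
            rcases ha with ha | ha | ha | ha <;> rw [ha] <;>
              simp only [inv_one, i1, i2, i3, Set.mem_insert_iff,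
                Set.mem_singleton_iff, true_or, or_true] }
      have hK : closure ({w, v} : Set S) ≤ K := by
        rw [closure_le]
        intro a ha
        rcases ha with ha | ha
        · right; left; exact ha
        · right; right; left; exact ha
      exact hK
    · intro a ha
      rcases ha with ha | ha | ha | ha <;> rw [ha]
      · exact one_mem _
      · exact subset_closure (by simp)
      · exact subset_closure (by simp)
      · exact mul_mem (subset_closure (by simp)) (subset_closure (by simp))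
  refine ⟨?_, ?_, ?_⟩
  · have h1 : Nat.card (closure ({w, v} : Set S)) = Set.ncard ({1, w, v, v * w} : Set S) := by
      rw [← hset]; rfl
    rw [h1]
    rw [Set.ncard_eq_toFinset_card']
    simp only [Set.toFinset_insert, Set.toFinset_singleton]
    rw [Finset.card_insert_of_notMem, Finset.card_insert_of_notMem, Finset.card_insert_of_notMem,
      Finset.card_singleton]
    · simp [hne3.symm]
    · simp [hvw1.symm, hne2.symm]
    · simp [hw1.symm, hv1.symm, hne.symm]
  · intro a ha
    have : a ∈ ((closure ({w, v} : Set S) : Subgroup S) : Set S) := ha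
    rw [hset] at this
    rcases this with h | h | h | h <;> rw [h]
    · simp
    · exact hw
    · exact hv
    · rw [sq]; exact f8
  · intro a ha
    have : a ∈ ((closure ({w, v} : Set S) : Subgroup S) : Set S) := ha
    rw [hset] at this
    exact this

end


section

variable {S : Type*} [Group S] [Finite S]

lemma mem_zpowers_sq {w a : S} (hw : w ^ 2 = 1) (ha : a ∈ zpowers w) : a = 1 ∨ a = w := by
  obtain ⟨k, rfl⟩ := ha
  rcases Int.even_or_odd' k with ⟨m, rfl | rfl⟩
  · left
    change w ^ (2 * m) = 1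
    rw [zpow_mul, zpow_ofNat, hw, one_zpow]
  · right
    change w ^ (2 * m + 1) = w
    rw [zpow_add, zpow_mul, zpow_ofNat, hw, one_zpow, one_mul, zpow_one]

/-- The normal four-group from a pair. -/
lemma normal_pair {w v : S} (hw : w ^ 2 = 1) (hw1 : w ≠ 1) (hc : ∀ g : S, g * w = w * g)
    (hv : v ^ 2 = 1) (hvw : v ∉ zpowers w) (hg : ∀ g : S, g * v * g⁻¹ * v⁻¹ ∈ zpowers w) :
    ∃ A : Subgroup S, A.Normal ∧ Nat.card A = 4 ∧ ∀ a ∈ A, a ^ 2 = 1 := by
  obtain ⟨h1, h2, -⟩ := four_of_pair hw hw1 hv hvw (hc v)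
  refine ⟨closure ({w, v} : Set S), ⟨fun n hn g => ?_⟩, h1, h2⟩
  have hgw : g * w * g⁻¹ = w := by rw [hc g]; group
  induction hn using closure_induction with
  | mem x hx =>
    rcases hx with hx | hx
    · have hx' : x = w := hx
      rw [hx', hgw]; exact subset_closure (by simp)
    · have hx' : x = v := hx
      rw [hx']
      have h3 := hg g
      have h4 : g * v * g⁻¹ = (g * v * g⁻¹ * v⁻¹) * v := by group
      rw [h4]
      refine mul_mem ?_ (subset_closure (by simp))
      rcases mem_zpowers_sq hw h3 with h5 | h5 <;> rw [h5]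
      · exact one_mem _
      · exact subset_closure (by simp)
  | one => simp
  | mul a b _ _ iha ihb =>
    have : g * (a * b) * g⁻¹ = (g * a * g⁻¹) * (g * b * g⁻¹) := by group
    rw [this]; exact mul_mem iha ihb
  | inv a _ iha =>
    have : g * a⁻¹ * g⁻¹ = (g * a * g⁻¹)⁻¹ := by group
    rw [this]; exact inv_mem iha

variable [Fact (Nat.Prime 2)]

/-- A normal elementary abelian subgroup of order greater than two contains a normal four-group. -/
lemma normal_four_of_normal_elem (hS : IsPGroup 2 S) (D : Subgroup S) [hD : D.Normal]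
    (hsq : ∀ d ∈ D, d ^ 2 = 1) (hcard : 2 < Nat.card D) :
    ∃ A : Subgroup S, A.Normal ∧ Nat.card A = 4 ∧ ∀ a ∈ A, a ^ 2 = 1 := by
  have hDbot : D ≠ ⊥ := by
    rintro rfl
    simp at hcard
  obtain ⟨z, hzD, hz1, hzc, hz2⟩ := Cfsg.Agent.Lib.Transfer.exists_central_of_normal hS hDbot
  have hAn : (zpowers z).Normal := by
    refine ⟨fun n hn g => ?_⟩
    obtain ⟨k, rfl⟩ := hn
    have h1 : Commute g z := hzc g
    have : g * z ^ k * g⁻¹ = z ^ k := by
      have h2 := (h1.zpow_right k).eq
      change g * z ^ k = z ^ k * g at h2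
      rw [h2]; group
    exact this ▸ ⟨k, rfl⟩
  have hord : orderOf z = 2 := orderOf_eq_prime hz2 hz1
  have hne : zpowers z ≠ D := by
    intro h
    rw [← h, Nat.card_zpowers, hord] at hcard
    exact lt_irrefl _ hcard
  have hle : zpowers z ≤ D := by
    rw [zpowers_le]; exact hzD
  obtain ⟨x, hxD, hxA, -, hxg⟩ := Cfsg.Agent.Lib.Transfer.exists_central_mod hS hle hne
  exact normal_pair hz2 hz1 hzc (hsq x hxD) hxA hxg

end

section Main

universe u

lemma comm_of_sq {X : Type*} [Group X] {x y : X} (hx : x ^ 2 = 1) (hy : y ^ 2 = 1)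
    (hxy : (x * y) ^ 2 = 1) : x * y = y * x := by
  have h1 : x * y * (x * y) = 1 := by rw [← sq]; exact hxy
  have hx' : x * x = 1 := by rw [← sq]; exact hx
  have hy' : y * y = 1 := by rw [← sq]; exact hy
  calc x * y = x * y * (x * y) * (y * x) := by
        rw [show x * y * (x * y) * (y * x) = x * y * x * (y * y) * x by group, hy', mul_one,
          mul_assoc (x * y) x x, hx', mul_one]
    _ = y * x := by rw [h1, one_mul]

/-- A 2-group with an elementary abelian subgroup of order eight has a normal four-group. -/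
theorem exists_normal_four : ∀ (n : ℕ) (S : Type u) [Group S] [Finite S], Nat.card S = n →
    IsPGroup 2 S → ∀ F : Subgroup S, Nat.card F = 8 → (∀ e ∈ F, e ^ 2 = 1) →
    ∃ A : Subgroup S, A.Normal ∧ Nat.card A = 4 ∧ ∀ a ∈ A, a ^ 2 = 1 := by
  intro n
  induction n using Nat.strong_induction_on with
  | _ n ih =>
  intro S _ _ hn hS F hF hFe
  classical
  haveI : Fact (Nat.Prime 2) := ⟨Nat.prime_two⟩
  rcases eq_top_or_exists_le_coatom F with hFt | ⟨M, hMc, hFM⟩
  · haveI : F.Normal := by rw [hFt]; infer_instance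
    exact normal_four_of_normal_elem hS F hFe (by rw [hF]; norm_num)
  obtain ⟨hMn, hMi⟩ := Cfsg.Agent.Lib.Transfer.normal_and_index_of_isCoatom hS hMc
  have hMne : M ≠ ⊤ := hMc.1
  obtain ⟨s, hs⟩ : ∃ s, s ∉ M := by
    by_contra hall
    push Not at hall
    exact hMne (Subgroup.eq_top_iff' _ |>.mpr hall)
  have hMcard : Nat.card M < n := by
    rw [← hn]
    exact Finite.card_subtype_lt (p := fun y => y ∈ M) hs
  have hFM8 : Nat.card (F.subgroupOf M) = 8 := by
    rw [← hF]
    exact Nat.card_congr (Subgroup.subgroupOfEquivOfLe hFM).toEquiv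
  obtain ⟨A', hA'n, hA'c, hA's⟩ := ih _ hMcard M rfl (hS.to_subgroup M) (F.subgroupOf M) hFM8
    (fun e he => Subtype.ext (by simpa using hFe _ he))
  let B : Subgroup S := A'.map M.subtype
  have hBM : B ≤ M := Subgroup.map_subtype_le _
  have hBn : ∀ m ∈ M, ∀ a ∈ B, m * a * m⁻¹ ∈ B := by
    rintro m hm _ ⟨a, ha, rfl⟩
    exact ⟨⟨m, hm⟩ * a * ⟨m, hm⟩⁻¹, hA'n.conj_mem a ha ⟨m, hm⟩, by simp⟩
  have hBc : Nat.card B = 4 := by
    rw [← hA'c]
    exact Subgroup.card_map_of_injective M.subtype_injective
  have hBs : ∀ a ∈ B, a ^ 2 = 1 := by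
    rintro _ ⟨a, ha, rfl⟩
    have := hA's a ha
    simpa using congrArg Subtype.val this
  let B' : Subgroup S := B.map (MulAut.conj s).toMonoidHom
  have hB'mem : ∀ a, a ∈ B' ↔ s⁻¹ * a * s ∈ B := by
    intro a
    constructor
    · rintro ⟨x, hx, rfl⟩
      simpa [MulAut.conj_apply, mul_assoc] using hx
    · intro h
      exact ⟨_, h, by simp [MulAut.conj_apply, mul_assoc]⟩
  have hB'c : Nat.card B' = 4 := by
    rw [← hBc]
    exact Subgroup.card_map_of_injective (MulAut.conj s).injective
  have hB's : ∀ a ∈ B', a ^ 2 = 1 := by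
    rintro _ ⟨x, hx, rfl⟩
    have := hBs x hx
    change (s * x * s⁻¹) ^ 2 = 1
    rw [conj_pow, this]
    simp
  have hB'M : B' ≤ M := by
    intro a ha
    have h1 := hBM ((hB'mem a).mp ha)
    have h2 := hMn.conj_mem _ h1 s
    have h3 : s * (s⁻¹ * a * s) * s⁻¹ = a := by group
    rwa [h3] at h2
  have hMB' : ∀ g ∈ M, ∀ a ∈ B', g * a * g⁻¹ ∈ B' := by
    intro g hg a ha
    rw [hB'mem] at ha ⊢
    have h1 : s⁻¹ * g * s ∈ M := by
      have := hMn.conj_mem g hg s⁻¹
      simpa using this
    have h2 := hBn _ h1 _ ha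
    have h3 : s⁻¹ * (g * a * g⁻¹) * s = s⁻¹ * g * s * (s⁻¹ * a * s) * (s⁻¹ * g * s)⁻¹ := by group
    rw [h3]; exact h2
  have hdich : ∀ g : S, ((∀ a ∈ B, g * a * g⁻¹ ∈ B) ∧ (∀ a ∈ B', g * a * g⁻¹ ∈ B')) ∨
      ((∀ a ∈ B, g * a * g⁻¹ ∈ B') ∧ (∀ a ∈ B', g * a * g⁻¹ ∈ B)) := by
    intro g
    by_cases hg : g ∈ M
    · left
      exact ⟨hBn g hg, hMB' g hg⟩
    · right
      have h1 : s⁻¹ * g ∈ M := by
        rw [Subgroup.mul_mem_iff_of_index_two hMi]
        simp [hs, hg]
      have h2 : g * s ∈ M := by
        rw [Subgroup.mul_mem_iff_of_index_two hMi]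
        simp [hs, hg]
      refine ⟨fun a ha => ?_, fun a ha => ?_⟩
      · rw [hB'mem]
        have h3 := hBn _ h1 a ha
        have h4 : s⁻¹ * (g * a * g⁻¹) * s = s⁻¹ * g * a * (s⁻¹ * g)⁻¹ := by group
        rw [h4]; exact h3
      · rw [hB'mem] at ha
        have h3 := hBn _ h2 _ ha
        have h4 : g * a * g⁻¹ = g * s * (s⁻¹ * a * s) * (g * s)⁻¹ := by group
        rw [h4]; exact h3
  by_cases hBB : B = B'
  · refine ⟨B, ⟨fun a ha g => ?_⟩, hBc, hBs⟩
    rcases hdich g with h | h
    · exact h.1 a ha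
    · have := h.1 a ha
      rwa [← hBB] at this
  by_cases hcomm : ∀ a ∈ B, ∀ a' ∈ B', a * a' = a' * a
  · -- the abelian case
    let T : Set S := (B : Set S) ∪ (B' : Set S)
    have hTT : ∀ x ∈ T, ∀ y ∈ T, x * y = y * x := by
      have hBab : ∀ x ∈ B, ∀ y ∈ B, x * y = y * x := fun x hx y hy =>
        comm_of_sq (hBs x hx) (hBs y hy) (hBs _ (mul_mem hx hy))
      have hB'ab : ∀ x ∈ B', ∀ y ∈ B', x * y = y * x := fun x hx y hy =>
        comm_of_sq (hB's x hx) (hB's y hy) (hB's _ (mul_mem hx hy))
      rintro x (hx | hx) y (hy | hy)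
      · exact hBab x hx y hy
      · exact hcomm x hx y hy
      · exact (hcomm y hy x hx).symm
      · exact hB'ab x hx y hy
    have hcl1 : ∀ x ∈ closure T, ∀ t ∈ T, x * t = t * x := by
      intro x hx t ht
      induction hx using closure_induction with
      | mem y hy => exact hTT y hy t ht
      | one => simp
      | mul a b _ _ iha ihb => rw [mul_assoc, ihb, ← mul_assoc, iha, mul_assoc]
      | inv a _ iha =>
        have h1 : Commute a t := iha
        exact h1.inv_left.eq
    have hcl2 : ∀ x ∈ closure T, ∀ y ∈ closure T, x * y = y * x := by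
      intro x hx y hy
      induction hy using closure_induction with
      | mem y hy => exact hcl1 x hx y hy
      | one => simp
      | mul a b _ _ iha ihb => rw [← mul_assoc, iha, mul_assoc, ihb, mul_assoc]
      | inv a _ iha =>
        have h1 : Commute x a := iha
        exact h1.inv_right.eq
    have hTs : ∀ x ∈ closure T, x ^ 2 = 1 := by
      intro x hx
      induction hx using closure_induction with
      | mem y hy =>
        rcases hy with hy | hy
        · exact hBs y hy
        · exact hB's y hy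
      | one => simp
      | mul a b ha hb iha ihb =>
        have h1 : Commute a b := hcl2 a ha b hb
        rw [h1.mul_pow, iha, ihb, one_mul]
      | inv a _ iha => rw [inv_pow, iha, inv_one]
    haveI hDn : (closure T).Normal := by
      refine ⟨fun x hx g => ?_⟩
      induction hx using closure_induction with
      | mem y hy =>
        apply Subgroup.subset_closure
        rcases hdich g with h | h
        · rcases hy with hy | hy
          · exact Or.inl (h.1 y hy)
          · exact Or.inr (h.2 y hy)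
        · rcases hy with hy | hy
          · exact Or.inr (h.1 y hy)
          · exact Or.inl (h.2 y hy)
      | one => simp
      | mul a b _ _ iha ihb =>
        have : g * (a * b) * g⁻¹ = (g * a * g⁻¹) * (g * b * g⁻¹) := by group
        rw [this]; exact mul_mem iha ihb
      | inv a _ iha =>
        have : g * a⁻¹ * g⁻¹ = (g * a * g⁻¹)⁻¹ := by group
        rw [this]; exact inv_mem iha
    refine normal_four_of_normal_elem hS (closure T) hTs ?_
    have hle : B ≤ closure T := fun x hx => Subgroup.subset_closure (Or.inl hx)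
    have := Subgroup.card_le_of_le hle
    rw [hBc] at this
    omega
  -- the dihedral case
  push Not at hcomm
  obtain ⟨b, hb, b', hb', hne⟩ := hcomm
  have hb2 := hBs b hb
  have hb'2 := hB's b' hb'
  have hbb : b * b = 1 := by rw [← sq]; exact hb2
  have hb'b' : b' * b' = 1 := by rw [← sq]; exact hb'2
  have hbi : b⁻¹ = b := inv_eq_of_mul_eq_one_left hbb
  have hb'i : b'⁻¹ = b' := inv_eq_of_mul_eq_one_left hb'b'
  have hbM := hBM hb
  have hb'M := hB'M hb'
  set w : S := b * b' * b * b' with hwdef
  have hw1 : w ≠ 1 := by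
    intro h
    apply hne
    calc b * b' = (b * b' * b * b') * (b'⁻¹ * b⁻¹) := by group
      _ = b' * b := by rw [← hwdef, h, one_mul, hbi, hb'i]
  have hwB : w ∈ B := by
    have h1 := hBn b' hb'M b⁻¹ (inv_mem hb)
    have h2 := mul_mem hb h1
    have h3 : b * (b' * b⁻¹ * b'⁻¹) = w := by
      rw [hbi, hb'i, hwdef]; group
    rwa [h3] at h2
  have hwB' : w ∈ B' := by
    have h1 := hMB' b hbM b' hb'
    have h2 := mul_mem h1 (inv_mem hb')
    have h3 : b * b' * b⁻¹ * b'⁻¹ = w := by
      rw [hbi, hb'i, hwdef]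
    rwa [h3] at h2
  have hw2 : w ^ 2 = 1 := hBs w hwB
  have hBab : ∀ x ∈ B, ∀ y ∈ B, x * y = y * x := fun x hx y hy =>
    comm_of_sq (hBs x hx) (hBs y hy) (hBs _ (mul_mem hx hy))
  have hB'ab : ∀ x ∈ B', ∀ y ∈ B', x * y = y * x := fun x hx y hy =>
    comm_of_sq (hB's x hx) (hB's y hy) (hB's _ (mul_mem hx hy))
  have hbB' : b ∉ B' := fun h => hne (hB'ab b h b' hb')
  have hb'B : b' ∉ B := fun h => hne (hBab b hb b' h)
  have hzw : ∀ {x : S}, x ∈ zpowers w → x ∈ B ∧ x ∈ B' := by
    intro x hx
    rcases mem_zpowers_sq hw2 hx with h | h <;> rw [h]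
    · exact ⟨one_mem _, one_mem _⟩
    · exact ⟨hwB, hwB'⟩
  have hbz : b ∉ zpowers w := fun h => hbB' (hzw h).2
  have hb'z : b' ∉ zpowers w := fun h => hb'B (hzw h).1
  -- enumeration
  have henumB : ∀ a ∈ B, a = 1 ∨ a = w ∨ a = b ∨ a = b * w := by
    obtain ⟨h1, -, h3⟩ := four_of_pair hw2 hw1 hb2 hbz (hBab b hb w hwB)
    have hle : closure ({w, b} : Set S) ≤ B := by
      rw [closure_le]
      rintro x (rfl | rfl)
      · exact hwB
      · exact hb
    have heq : closure ({w, b} : Set S) = B :=
      Subgroup.eq_of_le_of_card_ge hle (by rw [h1, hBc])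
    intro a ha
    rw [← heq] at ha
    exact h3 a ha
  have henumB' : ∀ a ∈ B', a = 1 ∨ a = w ∨ a = b' ∨ a = b' * w := by
    obtain ⟨h1, -, h3⟩ := four_of_pair hw2 hw1 hb'2 hb'z (hB'ab b' hb' w hwB')
    have hle : closure ({w, b'} : Set S) ≤ B' := by
      rw [closure_le]
      rintro x (rfl | rfl)
      · exact hwB'
      · exact hb'
    have heq : closure ({w, b'} : Set S) = B' :=
      Subgroup.eq_of_le_of_card_ge hle (by rw [h1, hB'c])
    intro a ha
    rw [← heq] at ha
    exact h3 a ha
  have hinter : ∀ a, a ∈ B → a ∈ B' → a = 1 ∨ a = w := by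
    intro a ha ha'
    rcases henumB a ha with h | h | h | h
    · exact Or.inl h
    · exact Or.inr h
    · exact absurd (h ▸ ha') hbB'
    · exfalso
      apply hbB'
      have h1 : b = a * w := by
        rw [h, mul_assoc, ← sq, hw2, mul_one]
      rw [h1]
      exact mul_mem ha' hwB'
  have hconjne : ∀ (g a : S), a ≠ 1 → g * a * g⁻¹ ≠ 1 := by
    intro g a ha h
    apply ha
    have : a = g⁻¹ * (g * a * g⁻¹) * g := by group
    rw [this, h]
    group
  -- `w` is central
  have hwc' : ∀ g : S, g * w * g⁻¹ = w := by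
    intro g
    have h1 : g * w * g⁻¹ ∈ B ∧ g * w * g⁻¹ ∈ B' := by
      rcases hdich g with h | h
      · exact ⟨h.1 w hwB, h.2 w hwB'⟩
      · exact ⟨h.2 w hwB', h.1 w hwB⟩
    rcases hinter _ h1.1 h1.2 with h2 | h2
    · exact absurd h2 (hconjne g w hw1)
    · exact h2
  have hwc : ∀ g : S, g * w = w * g := by
    intro g
    have := hwc' g
    calc g * w = (g * w * g⁻¹) * g := by group
      _ = w * g := by rw [this]
  have hww : w * w = 1 := by rw [← sq]; exact hw2
  have hwi : w⁻¹ = w := inv_eq_of_mul_eq_one_left hww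
  -- the action on `b`, `b'`
  have hbact : ∀ g ∈ M, g * b * g⁻¹ = b ∨ g * b * g⁻¹ = b * w := by
    intro g hg
    have hb1 : b ≠ 1 := fun h => hbz (h ▸ one_mem _)
    rcases henumB _ (hBn g hg b hb) with h | h | h | h
    · exact absurd h (hconjne g b hb1)
    · exfalso
      apply hbz
      have h1 : b = g⁻¹ * (g * b * g⁻¹) * g := by group
      rw [h1, h]
      have := hwc' g⁻¹
      simp only [inv_inv] at this
      rw [this]
      exact mem_zpowers w
    · exact Or.inl h
    · exact Or.inr h
  have hb'act : ∀ g ∈ M, g * b' * g⁻¹ = b' ∨ g * b' * g⁻¹ = b' * w := by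
    intro g hg
    have hb1 : b' ≠ 1 := fun h => hb'z (h ▸ one_mem _)
    rcases henumB' _ (hMB' g hg b' hb') with h | h | h | h
    · exact absurd h (hconjne g b' hb1)
    · exfalso
      apply hb'z
      have h1 : b' = g⁻¹ * (g * b' * g⁻¹) * g := by group
      rw [h1, h]
      have := hwc' g⁻¹
      simp only [inv_inv] at this
      rw [this]
      exact mem_zpowers w
    · exact Or.inl h
    · exact Or.inr h
  have hswap1 : ∀ g : S, g ∉ M → (g * b * g⁻¹ = b' ∨ g * b * g⁻¹ = b' * w) ∧
      (g * b' * g⁻¹ = b ∨ g * b' * g⁻¹ = b * w) := by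
    intro g hg
    rcases hdich g with h | h
    · exfalso
      -- then `g` normalizes `B` ; but `s⁻¹ g ∈ M`, so `s` normalizes it
      apply hBB
      have h1 : s⁻¹ * g ∈ M := by
        rw [Subgroup.mul_mem_iff_of_index_two hMi]
        simp [hs, hg]
      have hle : B' ≤ B := by
        intro x hx
        rw [hB'mem] at hx
        -- x = s y s⁻¹, y ∈ B; s = g m⁻¹
        have h2 := hBn _ (inv_mem h1) _ hx
        have h3 := h.1 _ h2
        have h4 : g * ((s⁻¹ * g)⁻¹ * (s⁻¹ * x * s) * (s⁻¹ * g)⁻¹⁻¹) * g⁻¹ = x := by group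
        rwa [h4] at h3
      exact (Subgroup.eq_of_le_of_card_ge hle (by rw [hBc, hB'c])).symm
    · have hb1 : b ≠ 1 := fun h => hbz (h ▸ one_mem _)
      have hb1' : b' ≠ 1 := fun h => hb'z (h ▸ one_mem _)
      have hinvw : ∀ x, g * x * g⁻¹ = w → x = w := by
        intro x hx
        have h1 : x = g⁻¹ * (g * x * g⁻¹) * g := by group
        rw [h1, hx]
        have := hwc' g⁻¹
        simp only [inv_inv] at this
        exact this
      constructor
      · rcases henumB' _ (h.1 b hb) with h2 | h2 | h2 | h2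
        · exact absurd h2 (hconjne g b hb1)
        · exact absurd (hinvw b h2 ▸ mem_zpowers w) hbz
        · exact Or.inl h2
        · exact Or.inr h2
      · rcases henumB _ (h.2 b' hb') with h2 | h2 | h2 | h2
        · exact absurd h2 (hconjne g b' hb1')
        · exact absurd (hinvw b' h2 ▸ mem_zpowers w) hb'z
        · exact Or.inl h2
        · exact Or.inr h2
  -- the element y
  set y : S := b * b' with hydef
  have hyy : y * y = w := by simp only [hydef, hwdef, mul_assoc]
  have hyi : y⁻¹ = b' * b := by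
    rw [hydef, mul_inv_rev, hbi, hb'i]
  have hb'b : b' * b = y * w := by
    rw [← hyi]
    apply inv_eq_of_mul_eq_one_right
    rw [← mul_assoc, hyy, hww]
  have hyw : ∀ x : S, x * w = w * x := fun x => hwc x
  have hcw : ∀ x z : S, x * w * z = x * z * w := by
    intro x z
    rw [mul_assoc, ← hyw z, mul_assoc]
  have hsw : ∀ x z : S, x * z = z * x → x * z * (x * z) = x * x * (z * z) := by
    intro x z h
    calc x * z * (x * z) = x * (z * x) * z := by group
      _ = x * (x * z) * z := by rw [← h]
      _ = _ := by group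
  -- conjugation facts
  have c1 : b' * b * b'⁻¹ = b * w := by
    rw [hb'b, hb'i, hydef]
    calc b * b' * w * b' = b * b' * (w * b') := by rw [mul_assoc]
      _ = b * b' * (b' * w) := by rw [hyw b']
      _ = b * (b' * b') * w := by group
      _ = b * w := by rw [hb'b', mul_one]
  have c2 : b * b' * b⁻¹ = b' * w := by
    rw [hbi]
    have h1 : w * b' = b * b' * b := by
      rw [hwdef, mul_assoc (b * b' * b), hb'b', mul_one]
    rw [← h1]
    exact (hyw b').symm
  have c3 : y * b * y⁻¹ = b * w := by
    have h1 : y * b * y⁻¹ = b * (b' * b * b'⁻¹) * b⁻¹ := by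
      rw [hydef]; group
    rw [h1, c1]
    calc b * (b * w) * b⁻¹ = (b * b) * w * b⁻¹ := by group
      _ = w * b⁻¹ := by rw [hbb, one_mul]
      _ = b * w := by rw [hbi]; exact (hyw b).symm
  have c4 : y * b' * y⁻¹ = b' * w := by
    have h1 : y * b' * y⁻¹ = b * b' * b⁻¹ := by
      rw [hydef]; group
    rw [h1, c2]
  -- action on `y`
  have hyact : ∀ g : S, g * y * g⁻¹ = y ∨ g * y * g⁻¹ = y * w := by
    intro g
    have h1 : g * y * g⁻¹ = (g * b * g⁻¹) * (g * b' * g⁻¹) := by
      rw [hydef]; group
    by_cases hg : g ∈ M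
    · rcases hbact g hg with h2 | h2 <;> rcases hb'act g hg with h3 | h3 <;> rw [h1, h2, h3]
      · exact Or.inl rfl
      · right; rw [hydef, mul_assoc]
      · right; exact hcw b b'
      · left
        calc b * w * (b' * w) = (b * w * b') * w := by group
          _ = (b * b' * w) * w := by rw [hcw]
          _ = b * b' * (w * w) := by group
          _ = y := by rw [hww, mul_one]
    · obtain ⟨h2, h3⟩ := hswap1 g hg
      rcases h2 with h2 | h2 <;> rcases h3 with h3 | h3 <;> rw [h1, h2, h3]
      · right; exact hb'b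
      · left
        rw [← mul_assoc, hb'b, mul_assoc, hww, mul_one]
      · left
        rw [hcw, hb'b, mul_assoc, hww, mul_one]
      · right
        calc b' * w * (b * w) = (b' * w * b) * w := by group
          _ = (b' * b * w) * w := by rw [hcw]
          _ = b' * b * (w * w) := by group
          _ = y * w := by rw [hww, mul_one, hb'b]
  -- the centralizer
  let C : Subgroup S := centralizer ({b, b'} : Set S)
  have hCmem : ∀ c, c ∈ C ↔ b * c = c * b ∧ b' * c = c * b' := by
    intro c
    constructor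
    · intro h
      have h1 := (Subgroup.mem_centralizer_iff.mp h)
      exact ⟨h1 b (by simp), h1 b' (by simp)⟩
    · rintro ⟨h1, h2⟩
      apply Subgroup.mem_centralizer_iff.mpr
      rintro x (hx | hx)
      · have hx' : x = b := hx
        rw [hx']; exact h1
      · have hx' : x = b' := hx
        rw [hx']; exact h2
  have hCconj : ∀ c ∈ C, ∀ (x : S), (x = b ∨ x = b * w ∨ x = b' ∨ x = b' * w) → x * c = c * x := by
    intro c hc x hx
    obtain ⟨h1, h2⟩ := (hCmem c).mp hc
    rcases hx with rfl | rfl | rfl | rfl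
    · exact h1
    · rw [mul_assoc, ← hyw c, ← mul_assoc, h1, mul_assoc]
    · exact h2
    · rw [mul_assoc, ← hyw c, ← mul_assoc, h2, mul_assoc]
  have hact' : ∀ (g : S), (g * b * g⁻¹ = b ∨ g * b * g⁻¹ = b * w ∨ g * b * g⁻¹ = b' ∨ g * b * g⁻¹ = b' * w) ∧
      (g * b' * g⁻¹ = b ∨ g * b' * g⁻¹ = b * w ∨ g * b' * g⁻¹ = b' ∨ g * b' * g⁻¹ = b' * w) := by
    intro g
    by_cases hg : g ∈ M
    · constructor
      · rcases hbact g hg with h | h
        · exact Or.inl h
        · exact Or.inr (Or.inl h)
      · rcases hb'act g hg with h | h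
        · exact Or.inr (Or.inr (Or.inl h))
        · exact Or.inr (Or.inr (Or.inr h))
    · obtain ⟨h2, h3⟩ := hswap1 g hg
      constructor
      · rcases h2 with h | h
        · exact Or.inr (Or.inr (Or.inl h))
        · exact Or.inr (Or.inr (Or.inr h))
      · rcases h3 with h | h
        · exact Or.inl h
        · exact Or.inr (Or.inl h)
  haveI hCn : C.Normal := by
    refine ⟨fun c hc g => ?_⟩
    rw [hCmem]
    have hk : ∀ h : S, ((g⁻¹ * h * g⁻¹⁻¹ = b ∨ g⁻¹ * h * g⁻¹⁻¹ = b * w ∨ g⁻¹ * h * g⁻¹⁻¹ = b' ∨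
        g⁻¹ * h * g⁻¹⁻¹ = b' * w)) → h * (g * c * g⁻¹) = g * c * g⁻¹ * h := by
      intro h hh
      have h1 := hCconj c hc _ hh
      simp only [inv_inv] at h1
      calc h * (g * c * g⁻¹) = g * ((g⁻¹ * h * g) * c) * g⁻¹ := by group
        _ = g * (c * (g⁻¹ * h * g)) * g⁻¹ := by rw [h1]
        _ = _ := by group
    exact ⟨hk b (hact' g⁻¹).1, hk b' (hact' g⁻¹).2⟩
  haveI hAn : (zpowers w).Normal := by
    refine ⟨fun n hn g => ?_⟩
    rcases mem_zpowers_sq hw2 hn with h | h <;> rw [h]
    · simp
    · rw [hwc' g]; exact mem_zpowers w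
  have hAC : zpowers w ≤ C := by
    rw [zpowers_le, hCmem]
    exact ⟨(hwc b), (hwc b')⟩
  have hmk : ∀ f d : S, f * b * f⁻¹ = d * b * d⁻¹ → f * b' * f⁻¹ = d * b' * d⁻¹ → d⁻¹ * f ∈ C := by
    intro f d h1 h2
    rw [hCmem]
    constructor
    · calc b * (d⁻¹ * f) = d⁻¹ * (d * b * d⁻¹) * f := by group
        _ = d⁻¹ * (f * b * f⁻¹) * f := by rw [h1]
        _ = d⁻¹ * f * b := by group
    · calc b' * (d⁻¹ * f) = d⁻¹ * (d * b' * d⁻¹) * f := by group
        _ = d⁻¹ * (f * b' * f⁻¹) * f := by rw [h2]
        _ = d⁻¹ * f * b' := by group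
  have hACne : zpowers w ≠ C := by
    intro hAeq
    have hfin : ∀ f d : S, f * b * f⁻¹ = d * b * d⁻¹ → f * b' * f⁻¹ = d * b' * d⁻¹ →
        f = d ∨ f = d * w := by
      intro f d h1 h2
      have h3 := hmk f d h1 h2
      rw [← hAeq] at h3
      rcases mem_zpowers_sq hw2 h3 with h | h
      · left
        calc f = d * (d⁻¹ * f) := by group
          _ = d := by rw [h, mul_one]
      · right
        calc f = d * (d⁻¹ * f) := by group
          _ = d * w := by rw [h]
    have hlist : ∀ f ∈ F, f = 1 ∨ f = w ∨ f = b ∨ f = b * w ∨ f = b' ∨ f = b' * w := by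
      intro f hf
      have hfM := hFM hf
      have hf2 := hFe f hf
      rcases hbact f hfM with h1 | h1 <;> rcases hb'act f hfM with h2 | h2
      · have := hfin f 1 (by rw [h1]; simp) (by rw [h2]; simp)
        rcases this with h | h
        · exact Or.inl h
        · rw [one_mul] at h; exact Or.inr (Or.inl h)
      · have := hfin f b (by rw [h1, hbi]; simp [hbb]) (by rw [h2, c2])
        rcases this with h | h
        · exact Or.inr (Or.inr (Or.inl h))
        · exact Or.inr (Or.inr (Or.inr (Or.inl h)))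
      · have := hfin f b' (by rw [h1, c1]) (by rw [h2, hb'i]; simp [hb'b'])
        rcases this with h | h
        · exact Or.inr (Or.inr (Or.inr (Or.inr (Or.inl h))))
        · exact Or.inr (Or.inr (Or.inr (Or.inr (Or.inr h))))
      · exfalso
        have := hfin f y (by rw [h1, c3]) (by rw [h2, c4])
        rcases this with h | h
        · rw [h, sq, hyy] at hf2
          exact hw1 hf2
        · rw [h, sq] at hf2
          have h5 : y * w * (y * w) = (y * y) * (w * w) := hsw y w (hyw y)
          rw [h5, hyy, hww, mul_one] at hf2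
          exact hw1 hf2
    have hsub : (F : Set S) ⊆ (({1, w, b, b * w, b', b' * w} : Finset S) : Set S) := by
      intro f hf
      have := hlist f hf
      simpa using this
    have h1 := Set.ncard_le_ncard hsub (Finset.finite_toSet _)
    rw [Set.ncard_coe_finset, ← Nat.card_coe_set_eq] at h1
    have h2 : Nat.card (F : Set S) = 8 := hF
    have h3 := Finset.card_le_six (a := (1 : S)) (b := w) (c := b) (d := b * w) (e := b') (f := b' * w)
    omega
  obtain ⟨v, hvC, hvA, hv2, hvg⟩ := Cfsg.Agent.Lib.Transfer.exists_central_mod hS hAC hACne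
  rcases mem_zpowers_sq hw2 hv2 with hv | hv
  · exact normal_pair hw2 hw1 hwc hv hvA hvg
  -- `v ^ 2 = w`
  obtain ⟨hvb, hvb'⟩ := (hCmem v).mp hvC
  have hvy : v * y = y * v := by
    rw [hydef]
    calc v * (b * b') = (v * b) * b' := by group
      _ = (b * v) * b' := by rw [hvb]
      _ = b * (v * b') := by group
      _ = b * (b' * v) := by rw [hvb']
      _ = b * b' * v := by group
  have hvv : v * v = w := by rw [← sq]; exact hv
  have hu2 : (v * y) ^ 2 = 1 := by
    rw [sq]
    calc v * y * (v * y) = (v * v) * (y * y) := hsw v y hvy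
      _ = 1 := by rw [hvv, hyy, hww]
  have hyb : y * b ≠ b * y := by
    intro h
    apply hw1
    have h1 : y * b * y⁻¹ = b := by rw [h]; group
    rw [c3] at h1
    have h2 : b⁻¹ * (b * w) = b⁻¹ * b := by rw [h1]
    simpa using h2
  have huA : v * y ∉ zpowers w := by
    intro h
    apply hyb
    rcases mem_zpowers_sq hw2 h with h1 | h1
    · have h2 : y = v⁻¹ := by
        apply eq_inv_of_mul_eq_one_right h1
      rw [h2]
      have h3 : Commute b v := hvb
      exact h3.inv_right.eq.symm
    · have h2 : y = v⁻¹ * w := by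
        rw [← h1]; group
      rw [h2]
      have h3 : Commute b v := hvb
      have h4 : b * v⁻¹ = v⁻¹ * b := h3.inv_right.eq
      calc v⁻¹ * w * b = v⁻¹ * (w * b) := by group
        _ = v⁻¹ * (b * w) := by rw [hyw b]
        _ = (v⁻¹ * b) * w := by group
        _ = (b * v⁻¹) * w := by rw [h4]
        _ = b * (v⁻¹ * w) := by group
  have hug : ∀ g : S, g * (v * y) * g⁻¹ * (v * y)⁻¹ ∈ zpowers w := by
    intro g
    have h1 : g * (v * y) * g⁻¹ = (g * v * g⁻¹) * (g * y * g⁻¹) := by group
    set e : S := g * v * g⁻¹ * v⁻¹ with he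
    have h2 : g * v * g⁻¹ = e * v := by rw [he]; group
    have he' : e ∈ zpowers w := hvg g
    rw [h1, h2]
    rcases hyact g with h3 | h3 <;> rw [h3]
    · have : e * v * y * (v * y)⁻¹ = e := by group
      rw [this]; exact he'
    · have : e * v * (y * w) * (v * y)⁻¹ = e * (v * y * w * (v * y)⁻¹) := by group
      rw [this, hyw, show w * (v * y) * (v * y)⁻¹ = w by group]
      exact mul_mem he' (mem_zpowers w)
  exact normal_pair hw2 hw1 hwc hu2 huA hug

end Main

section Rank

variable {G : Type*} [Group G] [Finite G]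

/-- Pairwise commuting involutions generate an elementary abelian subgroup. -/
lemma closure_sq_of_comm (T : Set G) (hT : ∀ x ∈ T, ∀ y ∈ T, x * y = y * x)
    (hs : ∀ x ∈ T, x ^ 2 = 1) : ∀ x ∈ closure T, x ^ 2 = 1 := by
  have hcl1 : ∀ x ∈ closure T, ∀ t ∈ T, x * t = t * x := by
    intro x hx t ht
    induction hx using closure_induction with
    | mem y hy => exact hT y hy t ht
    | one => simp
    | mul a b _ _ iha ihb => rw [mul_assoc, ihb, ← mul_assoc, iha, mul_assoc]
    | inv a _ iha =>
      have h1 : Commute a t := iha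
      exact h1.inv_left.eq
  have hcl2 : ∀ x ∈ closure T, ∀ y ∈ closure T, x * y = y * x := by
    intro x hx y hy
    induction hy using closure_induction with
    | mem y hy => exact hcl1 x hx y hy
    | one => simp
    | mul a b _ _ iha ihb => rw [← mul_assoc, iha, mul_assoc, ihb, mul_assoc]
    | inv a _ iha =>
      have h1 : Commute x a := iha
      exact h1.inv_right.eq
  intro x hx
  induction hx using closure_induction with
  | mem y hy => exact hs y hy
  | one => simp
  | mul a b ha hb iha ihb =>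
    have h1 : Commute a b := hcl2 a ha b hb
    rw [h1.mul_pow, iha, ihb, one_mul]
  | inv a _ iha => rw [inv_pow, iha, inv_one]

/-- An elementary abelian subgroup of order at least eight contains one of order eight. -/
lemma exists_E8_of_elem (D : Subgroup G) (hsq : ∀ d ∈ D, d ^ 2 = 1) (hc : 8 ≤ Nat.card D) :
    ∃ E : Subgroup G, E ≤ D ∧ Nat.card E = 8 ∧ ∀ e ∈ E, e ^ 2 = 1 := by
  haveI : Fact (Nat.Prime 2) := ⟨Nat.prime_two⟩
  have hD : IsPGroup 2 D := by
    rw [IsPGroup.iff_orderOf]
    intro d
    have h1 : d ^ 2 = 1 := Subtype.ext (by simpa using hsq d d.2)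
    obtain ⟨k, -, hk⟩ := (Nat.dvd_prime_pow Nat.prime_two).mp (orderOf_dvd_of_pow_eq_one
      (show d ^ 2 ^ 1 = 1 by simpa using h1))
    exact ⟨k, hk⟩
  obtain ⟨k, hk⟩ := IsPGroup.iff_card.mp hD
  have hk3 : 3 ≤ k := by
    by_contra hlt
    push Not at hlt
    have : 2 ^ k ≤ 2 ^ 2 := Nat.pow_le_pow_right (by norm_num) (by omega)
    omega
  have h8 : 2 ^ 3 ∣ Nat.card D := by
    rw [hk]; exact pow_dvd_pow 2 hk3
  obtain ⟨E, hE⟩ := Sylow.exists_subgroup_card_pow_prime 2 h8
  refine ⟨E.map D.subtype, Subgroup.map_subtype_le _, ?_, ?_⟩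
  · rw [Subgroup.card_map_of_injective D.subtype_injective, hE]
    norm_num
  · rintro _ ⟨e, -, rfl⟩
    exact hsq e e.2

/-- Enlarging an elementary abelian subgroup of order four by a commuting involution. -/
lemma exists_E8_of_extend (t : G) (ht : t ^ 2 = 1) (A : Subgroup G) (hA : Nat.card A = 4)
    (hsq : ∀ a ∈ A, a ^ 2 = 1) (htA : ∀ a ∈ A, a * t = t * a) (htn : t ∉ A) :
    ∃ E : Subgroup G, E ≤ centralizer ({t} : Set G) ∧ Nat.card E = 8 ∧ ∀ e ∈ E, e ^ 2 = 1 := by
  let T : Set G := (A : Set G) ∪ {t}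
  have hAab : ∀ x ∈ A, ∀ y ∈ A, x * y = y * x := fun x hx y hy =>
    comm_of_sq (hsq x hx) (hsq y hy) (hsq _ (mul_mem hx hy))
  have hTT : ∀ x ∈ T, ∀ y ∈ T, x * y = y * x := by
    rintro x (hx | hx) y (hy | hy)
    · exact hAab x hx y hy
    · have hy' : y = t := hy
      rw [hy']; exact htA x hx
    · have hx' : x = t := hx
      rw [hx']; exact (htA y hy).symm
    · have hx' : x = t := hx
      have hy' : y = t := hy
      rw [hx', hy']
  have hTs : ∀ x ∈ T, x ^ 2 = 1 := by
    rintro x (hx | hx)
    · exact hsq x hx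
    · have hx' : x = t := hx
      rw [hx']; exact ht
  have hD := closure_sq_of_comm T hTT hTs
  have hle : A ≤ closure T := fun x hx => Subgroup.subset_closure (Or.inl hx)
  have htD : t ∈ closure T := Subgroup.subset_closure (Or.inr rfl)
  have hdvd : Nat.card A ∣ Nat.card (closure T) := Subgroup.card_dvd_of_le hle
  have hne : Nat.card (closure T) ≠ 4 := by
    intro h
    have : A = closure T := Subgroup.eq_of_le_of_card_ge hle (by rw [h, hA])
    exact htn (this ▸ htD)
  have hcard : 8 ≤ Nat.card (closure T) := by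
    rw [hA] at hdvd
    obtain ⟨c, hc⟩ := hdvd
    have hpos : 0 < Nat.card (closure T) := Nat.card_pos
    have hc0 : c ≠ 0 := by
      rintro rfl
      omega
    have hc1 : c ≠ 1 := by
      rintro rfl
      omega
    have : 2 ≤ c := by omega
    omega
  obtain ⟨E, hE, hE8, hEs⟩ := exists_E8_of_elem (closure T) hD hcard
  have hcommD : ∀ d ∈ closure T, t * d = d * t := by
    intro d hd
    induction hd using closure_induction with
    | mem z hz => exact (hTT z hz t (Or.inr rfl)).symm
    | one => simp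
    | mul a b _ _ iha ihb =>
      rw [← mul_assoc, iha, mul_assoc, ihb, mul_assoc]
    | inv a _ iha =>
      have h1 : Commute t a := iha
      exact h1.inv_right.eq
  refine ⟨E, ?_, hE8, hEs⟩
  intro e he
  apply Subgroup.mem_centralizer_iff.mpr
  intro y hy
  have hy' : y = t := hy
  rw [hy']
  exact hcommD e (hE he)

/-- **Rank three passes to involution centralizers**. -/
theorem rank_three_centralizer (hno : ∀ H : Subgroup G, H.index ≠ 2)
    (hrank : ∃ E : Subgroup G, Nat.card E = 8 ∧ ∀ e ∈ E, e ^ 2 = 1) (x : G) (hx : orderOf x = 2) :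
    ∃ E : Subgroup G, E ≤ centralizer ({x} : Set G) ∧ Nat.card E = 8 ∧ ∀ e ∈ E, e ^ 2 = 1 := by
  classical
  haveI : Fact (Nat.Prime 2) := ⟨Nat.prime_two⟩
  obtain ⟨E, hE8, hEs⟩ := hrank
  have hEp : IsPGroup 2 E := by
    rw [IsPGroup.iff_card]
    exact ⟨3, by rw [hE8]; norm_num⟩
  obtain ⟨S, hES⟩ := hEp.exists_le_sylow
  let Good : G → Prop := fun t => ∃ E : Subgroup G, E ≤ centralizer ({t} : Set G) ∧ Nat.card E = 8 ∧
    ∀ e ∈ E, e ^ 2 = 1
  have hconj : ∀ t g : G, Good t → Good (g * t * g⁻¹) := by
    rintro t g ⟨D, hD, hD8, hDs⟩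
    refine ⟨D.map (MulAut.conj g).toMonoidHom, ?_, ?_, ?_⟩
    · rintro _ ⟨d, hd, rfl⟩
      apply Subgroup.mem_centralizer_iff.mpr
      intro y hy
      have hy' : y = g * t * g⁻¹ := hy
      have h1 := (Subgroup.mem_centralizer_iff.mp (hD hd)) t rfl
      rw [hy']
      change g * t * g⁻¹ * (g * d * g⁻¹) = g * d * g⁻¹ * (g * t * g⁻¹)
      calc g * t * g⁻¹ * (g * d * g⁻¹) = g * (t * d) * g⁻¹ := by group
        _ = g * (d * t) * g⁻¹ := by rw [h1]
        _ = _ := by group
    · rw [Subgroup.card_map_of_injective (MulAut.conj g).injective, hD8]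
    · rintro _ ⟨d, hd, rfl⟩
      change (g * d * g⁻¹) ^ 2 = 1
      rw [conj_pow, hDs d hd]
      simp
  -- the normal four-group in S
  let SS : Subgroup G := S
  have hSS : IsPGroup 2 SS := S.isPGroup'
  have hF8 : Nat.card (E.subgroupOf SS) = 8 := by
    rw [← hE8]
    exact Nat.card_congr (Subgroup.subgroupOfEquivOfLe hES).toEquiv
  obtain ⟨A, hAn, hA4, hAs⟩ := exists_normal_four _ SS rfl hSS (E.subgroupOf SS) hF8
    (fun e he => Subtype.ext (by simpa using hEs _ he))
  -- central involution
  have hAbot : A ≠ ⊥ := by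
    rintro rfl
    simp at hA4
  obtain ⟨z, hzA, hz1, hzc, hz2⟩ := Cfsg.Agent.Lib.Transfer.exists_central_of_normal hSS hAbot
  have hord : orderOf z = 2 := orderOf_eq_prime hz2 hz1
  have hzle : zpowers z ≤ A := by rw [zpowers_le]; exact hzA
  have hzne : zpowers z ≠ A := by
    intro h
    have := hA4
    rw [← h, Nat.card_zpowers, hord] at this
    omega
  haveI hzn : (zpowers z).Normal := by
    refine ⟨fun n hn g => ?_⟩
    obtain ⟨k, rfl⟩ := hn
    have h1 : Commute g z := hzc g
    have : g * z ^ k * g⁻¹ = z ^ k := by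
      have h2 := (h1.zpow_right k).eq
      change g * z ^ k = z ^ k * g at h2
      rw [h2]; group
    exact this ▸ ⟨k, rfl⟩
  obtain ⟨v, hvA, hvz, -, hvg⟩ := Cfsg.Agent.Lib.Transfer.exists_central_mod hSS hzle hzne
  have hv2 := hAs v hvA
  -- enumeration of A
  have hvzc : v * z = z * v := (hzc v)
  obtain ⟨hc1, -, hc3⟩ := four_of_pair hz2 hz1 hv2 hvz hvzc
  have hcle : closure ({z, v} : Set SS) ≤ A := by
    rw [closure_le]
    rintro y (hy | hy)
    · have hy' : y = z := hy
      rw [hy']; exact hzA
    · have hy' : y = v := hy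
      rw [hy']; exact hvA
  have hceq : closure ({z, v} : Set SS) = A :=
    Subgroup.eq_of_le_of_card_ge hcle (by rw [hc1, hA4])
  have henum : ∀ a ∈ A, a = 1 ∨ a = z ∨ a = v ∨ a = v * z := by
    intro a ha
    rw [← hceq] at ha
    exact hc3 a ha
  -- the centralizer of v in S
  let C : Subgroup G := SS ⊓ centralizer ({(v : G)} : Set G)
  have hCS : C ≤ SS := inf_le_left
  have hCmem : ∀ g : SS, (g : G) ∈ C ↔ g * v = v * g := by
    intro g
    constructor
    · intro h
      have h1 := (Subgroup.mem_centralizer_iff.mp h.2) (v : G) rfl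
      exact Subtype.ext h1.symm
    · intro h
      refine ⟨g.2, Subgroup.mem_centralizer_iff.mpr ?_⟩
      intro y hy
      have hy' : y = (v : G) := hy
      rw [hy']
      exact (congrArg Subtype.val h).symm
  -- conjugation in S
  have hact : ∀ g : SS, g * v * g⁻¹ = v ∨ g * v * g⁻¹ = z * v := by
    intro g
    have h1 := hvg g
    rcases mem_zpowers_sq hz2 h1 with h2 | h2
    · left
      have : g * v * g⁻¹ = (g * v * g⁻¹ * v⁻¹) * v := by group
      rw [this, h2, one_mul]
    · right
      have : g * v * g⁻¹ = (g * v * g⁻¹ * v⁻¹) * v := by group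
      rw [this, h2]
  have hzz : z * z = 1 := by rw [← sq]; exact hz2
  have hinC : ∀ g : SS, g * v = v * g ∨ g * v = z * (v * g) := by
    intro g
    rcases hact g with h | h
    · left
      calc g * v = (g * v * g⁻¹) * g := by group
        _ = v * g := by rw [h]
    · right
      calc g * v = (g * v * g⁻¹) * g := by group
        _ = z * v * g := by rw [h]
        _ = z * (v * g) := by group
  -- claim 1
  have hclaim : ∀ t : SS, t ^ 2 = 1 → (t : G) ∈ C → Good (t : G) := by
    intro t ht htC
    have htv := (hCmem t).mp htC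
    have htz : t * z = z * t := (hzc t)
    have hcomA : ∀ a ∈ A, a * t = t * a := by
      intro a ha
      rcases henum a ha with rfl | rfl | rfl | rfl
      · simp
      · exact htz.symm
      · exact htv.symm
      · calc v * z * t = v * (t * z) := by rw [mul_assoc, htz]
          _ = t * v * z := by rw [← mul_assoc, ← htv]
          _ = t * (v * z) := by group
    by_cases htA : t ∈ A
    · -- C centralizes t
      have hCt : ∀ c : SS, (c : G) ∈ C → c * t = t * c := by
        intro c hc
        have hcv := (hCmem c).mp hc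
        have hcz : c * z = z * c := hzc c
        rcases henum t htA with h | h | h | h <;> rw [h]
        · simp
        · exact hcz
        · exact hcv
        · calc c * (v * z) = (c * v) * z := by group
            _ = v * (c * z) := by rw [hcv]; group
            _ = v * (z * c) := by rw [hcz]
            _ = v * z * c := by group
      have hCt' : ∀ c ∈ C, c * (t : G) = t * c := by
        intro c hc
        have := hCt ⟨c, hc.1⟩ hc
        exact congrArg Subtype.val this
      by_cases htE : (t : G) ∈ E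
      · refine ⟨E, ?_, hE8, hEs⟩
        intro e he
        apply Subgroup.mem_centralizer_iff.mpr
        intro y hy
        have hy' : y = (t : G) := hy
        rw [hy']
        exact comm_of_sq (hEs _ htE) (hEs e he) (hEs _ (mul_mem htE he))
      by_cases hEC : E ≤ C
      · refine ⟨E, ?_, hE8, hEs⟩
        intro e he
        apply Subgroup.mem_centralizer_iff.mpr
        intro y hy
        have hy' : y = (t : G) := hy
        rw [hy']
        exact (hCt' e (hEC he)).symm
      -- E ∩ C has order four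
      obtain ⟨e₀, he₀, he₀C⟩ := Set.not_subset.mp hEC
      let E₁ : Subgroup G := E ⊓ C
      have hE₁ : Nat.card E₁ = 4 := by
        have hidx : (E₁.subgroupOf E).index = 2 := by
          rw [Subgroup.index_eq_two_iff]
          refine ⟨⟨e₀, he₀⟩, ?_⟩
          rintro ⟨e, he⟩
          have heS : e ∈ SS := hES he
          have he₀S : e₀ ∈ SS := hES he₀
          have h1 := hinC ⟨e, heS⟩
          have h2 := hinC ⟨e₀, he₀S⟩
          have he₀C' : ¬ (⟨e₀, he₀S⟩ : SS) * v = v * ⟨e₀, he₀S⟩ := fun h => he₀C ((hCmem ⟨e₀, he₀S⟩).mpr h)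
          have h2' : (⟨e₀, he₀S⟩ : SS) * v = z * (v * ⟨e₀, he₀S⟩) := h2.resolve_left he₀C'
          have hmem1 : ∀ g : E, g ∈ E₁.subgroupOf E ↔ (⟨g, hES g.2⟩ : SS) * v = v * ⟨g, hES g.2⟩ := by
            intro g
            rw [Subgroup.mem_subgroupOf]
            constructor
            · intro h; exact (hCmem _).mp h.2
            · intro h; exact ⟨g.2, (hCmem ⟨g, hES g.2⟩).mpr h⟩
          rw [hmem1, hmem1]
          have hzne1 : ∀ w : SS, z * w ≠ w := by
            intro w hw
            exact hz1 (mul_eq_right.mp hw)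
          rcases h1 with h1 | h1
          · -- e commutes with v, e e₀ does not
            right
            refine ⟨h1, ?_⟩
            intro h
            apply he₀C'
            have h3 : (⟨e, heS⟩ : SS) * ⟨e₀, he₀S⟩ * v = v * (⟨e, heS⟩ * ⟨e₀, he₀S⟩) := h
            have hv' : ∀ a b c : SS, a * b * c = a * (b * c) := fun a b c => mul_assoc a b c
            rw [hv', h2'] at h3
            exfalso
            have h4 : (⟨e, heS⟩ : SS) * (z * (v * ⟨e₀, he₀S⟩)) = z * ((⟨e, heS⟩ * v) * ⟨e₀, he₀S⟩) := by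
              rw [← mul_assoc, hzc ⟨e, heS⟩]
              group
            rw [h4, h1] at h3
            apply hzne1 (v * (⟨e, heS⟩ * ⟨e₀, he₀S⟩))
            calc z * (v * (⟨e, heS⟩ * ⟨e₀, he₀S⟩)) = z * (v * ⟨e, heS⟩ * ⟨e₀, he₀S⟩) := by group
              _ = _ := h3
          · -- e does not commute, e e₀ does
            left
            have hne : ¬ (⟨e, heS⟩ : SS) * v = v * ⟨e, heS⟩ := by
              intro h
              rw [h] at h1
              exact hzne1 _ h1.symm
            refine ⟨?_, hne⟩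
            change (⟨e, heS⟩ : SS) * ⟨e₀, he₀S⟩ * v = v * (⟨e, heS⟩ * ⟨e₀, he₀S⟩)
            calc (⟨e, heS⟩ : SS) * ⟨e₀, he₀S⟩ * v = ⟨e, heS⟩ * (⟨e₀, he₀S⟩ * v) := by group
              _ = ⟨e, heS⟩ * (z * (v * ⟨e₀, he₀S⟩)) := by rw [h2']
              _ = z * ((⟨e, heS⟩ * v) * ⟨e₀, he₀S⟩) := by
                rw [← mul_assoc, hzc ⟨e, heS⟩]
                group
              _ = z * (z * (v * ⟨e, heS⟩) * ⟨e₀, he₀S⟩) := by rw [h1]
              _ = (z * z) * (v * (⟨e, heS⟩ * ⟨e₀, he₀S⟩)) := by group
              _ = v * (⟨e, heS⟩ * ⟨e₀, he₀S⟩) := by rw [hzz, one_mul]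
        have h3 := Subgroup.card_mul_index (E₁.subgroupOf E)
        rw [hidx, hE8] at h3
        have h4 : Nat.card (E₁.subgroupOf E) = Nat.card E₁ :=
          Nat.card_congr (Subgroup.subgroupOfEquivOfLe inf_le_left).toEquiv
        omega
      refine exists_E8_of_extend (t : G) ?_ E₁ hE₁ ?_ ?_ ?_
      · simpa using congrArg Subtype.val ht
      · intro a ha; exact hEs a ha.1
      · intro a ha; exact hCt' a ha.2
      · intro h; exact htE h.1
    · -- `t ∉ A`
      have hmap : Nat.card (A.map SS.subtype) = 4 := by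
        rw [Subgroup.card_map_of_injective SS.subtype_injective, hA4]
      refine exists_E8_of_extend (t : G) ?_ (A.map SS.subtype) hmap ?_ ?_ ?_
      · simpa using congrArg Subtype.val ht
      · rintro _ ⟨a, ha, rfl⟩
        simpa using congrArg Subtype.val (hAs a ha)
      · rintro _ ⟨a, ha, rfl⟩
        exact congrArg Subtype.val (hcomA a ha)
      · rintro ⟨a, ha, hat⟩
        have : a = t := Subtype.ext hat
        exact htA (this ▸ ha)
  -- conjugating x into S
  have hpz : IsPGroup 2 (zpowers x) := by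
    rw [IsPGroup.iff_card]
    exact ⟨1, by rw [Nat.card_zpowers, hx]; norm_num⟩
  obtain ⟨Q, hQ⟩ := hpz.exists_le_sylow
  obtain ⟨g, hg⟩ := MulAction.exists_smul_eq G Q S
  have hxQ : x ∈ Q := hQ (mem_zpowers x)
  have hx'S : g * x * g⁻¹ ∈ SS := by
    have h : g * x * g⁻¹ ∈ g • Q := Cfsg.Agent.Lib.Transfer.conj_mem_smul_sylow hxQ
    rw [hg] at h
    exact h
  set x' : G := g * x * g⁻¹ with hx'
  have hx'2 : x' ^ 2 = 1 := by
    rw [hx', conj_pow, ← hx, pow_orderOf_eq_one]
    simp
  have hx'o : orderOf x' = 2 := by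
    rw [hx']
    exact (MulEquiv.orderOf_eq (MulAut.conj g) x).trans hx
  -- it suffices to show Good x'
  suffices hgood : Good x' by
    have := hconj x' g⁻¹ hgood
    have h1 : g⁻¹ * x' * g⁻¹⁻¹ = x := by rw [hx']; group
    rw [h1] at this
    exact this
  by_cases hx'C : x' ∈ C
  · exact hclaim ⟨x', hx'S⟩ (Subtype.ext (by simpa using hx'2)) hx'C
  -- C has index two in S
  have hidxC : C.relIndex SS = 2 := by
    change (C.subgroupOf SS).index = 2
    rw [Subgroup.index_eq_two_iff]
    refine ⟨⟨x', hx'S⟩, ?_⟩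
    have hmem : ∀ g : SS, g ∈ C.subgroupOf SS ↔ g * v = v * g := by
      intro g
      rw [Subgroup.mem_subgroupOf]
      exact hCmem g
    have hne0 : ¬ (⟨x', hx'S⟩ : SS) * v = v * ⟨x', hx'S⟩ := fun h => hx'C ((hCmem ⟨x', hx'S⟩).mpr h)
    have h2' := (hinC ⟨x', hx'S⟩).resolve_left hne0
    have hzne1 : ∀ w : SS, z * w ≠ w := by
      intro w hw
      exact hz1 (mul_eq_right.mp hw)
    intro e
    rw [hmem, hmem]
    set u : SS := ⟨x', hx'S⟩ with hu
    have hmove : ∀ a : SS, a * (u * v) = z * (a * v * u) := by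
      intro a
      rw [h2']
      calc a * (z * (v * u)) = (a * z) * (v * u) := by group
        _ = (z * a) * (v * u) := by rw [hzc a]
        _ = _ := by group
    rcases hinC e with h1 | h1
    · right
      refine ⟨h1, ?_⟩
      intro h
      apply hzne1 (v * (e * u))
      calc z * (v * (e * u)) = z * (e * v * u) := by rw [h1]; group
        _ = e * (u * v) := (hmove e).symm
        _ = e * u * v := by group
        _ = v * (e * u) := h
    · left
      have hne : ¬ e * v = v * e := by
        intro h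
        rw [h] at h1
        exact hzne1 _ h1.symm
      refine ⟨?_, hne⟩
      rw [mul_assoc, hmove, h1]
      calc z * (z * (v * e) * u) = (z * z) * (v * (e * u)) := by group
        _ = v * (e * u) := by rw [hzz, one_mul]
  rcases Cfsg.Agent.S0111.result S C hCS hidxC x' hx'o hx'S hx'C with ⟨M, -, hMi, -⟩ | ⟨k, hk⟩
  · exact absurd hMi (hno M)
  · have h1 : Good (k * x' * k⁻¹) := by
      refine hclaim ⟨k * x' * k⁻¹, hCS hk⟩ (Subtype.ext ?_) hk
      change (k * x' * k⁻¹) ^ 2 = 1
      rw [conj_pow, hx'2]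
      simp
    have := hconj _ k⁻¹ h1
    have h2 : k⁻¹ * (k * x' * k⁻¹) * k⁻¹⁻¹ = x' := by group
    rw [h2] at this
    exact this

end Rank

end Cfsg.Agent.Lib.Misc19
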