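import Cfsg.Agent.Lib.Transfer.Frobenius

/-!
# Orders of simple groups: `12`, `16` or `56`
-/

set_option autoImplicit false

namespace Cfsg.Agent.Lib.Misc19

open Subgroup

variable {G : Type*} [Group G] [Finite G]

/-- An element `g` of odd order normalizing a subgroup but not centralizing it has a power `h`
which does not centralize it and with `h ^ r` centralizing it, where the prime `r` divides the
order of `g`. -/
lemma exists_prime_power_noncent (C : Subgroup G) {g : G} (hg : g ∉ C) :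
    ∃ (r m : ℕ), r.Prime ∧ r ∣ orderOf g ∧ g ^ m ∉ C ∧ (g ^ m) ^ r ∈ C := by
  classical
  have hex : ∃ t : ℕ, 0 < t ∧ g ^ t ∈ C :=
    ⟨orderOf g, orderOf_pos g, by rw [pow_orderOf_eq_one]; exact one_mem _⟩
  let t := Nat.find hex
  have ht : 0 < t ∧ g ^ t ∈ C := Nat.find_spec hex
  have hmin : ∀ s, 0 < s → s < t → g ^ s ∉ C := fun s hs hst hc =>
    Nat.find_min hex hst ⟨hs, hc⟩
  have hdvd : t ∣ orderOf g := by
    have h1 : g ^ (orderOf g % t) ∈ C := by
      have h2 : g ^ orderOf g = 1 := pow_orderOf_eq_one g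
      have h3 : g ^ (t * (orderOf g / t) + orderOf g % t) = 1 := by
        rw [Nat.div_add_mod]; exact h2
      rw [pow_add, pow_mul] at h3
      have h4 : (g ^ t) ^ (orderOf g / t) ∈ C := pow_mem ht.2 _
      have h5 : g ^ (orderOf g % t) = ((g ^ t) ^ (orderOf g / t))⁻¹ := by
        exact eq_inv_of_mul_eq_one_right h3
      rw [h5]
      exact inv_mem h4
    by_contra hnd
    have h6 : orderOf g % t ≠ 0 := fun h0 => hnd (Nat.dvd_of_mod_eq_zero h0)
    exact hmin _ (Nat.pos_of_ne_zero h6) (Nat.mod_lt _ ht.1) h1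
  have ht1 : t ≠ 1 := by
    intro h
    have := ht.2
    rw [h, pow_one] at this
    exact hg this
  obtain ⟨r, hr, hrd⟩ := Nat.exists_prime_and_dvd ht1
  obtain ⟨c, hc⟩ := hrd
  have hc0 : 0 < c := by
    rcases Nat.eq_zero_or_pos c with h | h
    · subst h; simp at hc; omega
    · exact h
  refine ⟨r, c, hr, dvd_trans ⟨c, hc⟩ hdvd, ?_, ?_⟩
  · apply hmin c hc0
    rw [hc]
    calc c = 1 * c := (one_mul c).symm
      _ < r * c := Nat.mul_lt_mul_of_pos_right hr.one_lt hc0
  · rw [← pow_mul, mul_comm, ← hc]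
    exact ht.2

/-- If an element `h` with `h ^ r` centralizing `D` normalizes `D`, `r` prime,
then `|D| ≡ |C_D(h)| mod r`. -/
lemma card_modEq_fixed (D : Subgroup G) {h : G} (hh : h ∈ normalizer (D : Set G)) {r : ℕ}
    [Fact r.Prime] (hr : h ^ r ∈ centralizer (D : Set G)) :
    Nat.card D ≡ Nat.card (D ⊓ centralizer ({h} : Set G) : Subgroup G) [MOD r] := by
  classical
  haveI : Fintype D := Fintype.ofFinite _
  rw [Subgroup.mem_normalizer_iff] at hh
  let f₀ : D → D := fun d => ⟨h * d * h⁻¹, (hh d).1 d.2⟩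
  let f : Function.End D := f₀
  have hfpow : ∀ m : ℕ, ∀ d : D, ((f ^ m) d : D).1 = h ^ m * d * (h ^ m)⁻¹ := by
    intro m
    induction m with
    | zero => intro d; simp; rfl
    | succ m ihm =>
      intro d
      rw [pow_succ', Function.End.mul_def]
      change h * ((f ^ m) d : D).1 * h⁻¹ = _
      rw [ihm, pow_succ']
      group
  have hf1 : f ^ (r ^ 1) = 1 := by
    funext d
    apply Subtype.ext
    rw [hfpow, pow_one]
    have h2 := (Subgroup.mem_centralizer_iff.mp hr) d d.2
    rw [← h2]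
    simp
    rfl
  have hmod := Equiv.Perm.card_fixedPoints_modEq hf1
  simp only [Fintype.card_eq_nat_card] at hmod
  have h2 : Nat.card (D ⊓ centralizer ({h} : Set G) : Subgroup G)
      = Nat.card (Function.fixedPoints f₀) := by
    apply Nat.card_congr
    refine ⟨fun x => ⟨⟨x.1, x.2.1⟩, ?_⟩, fun y => ⟨y.1.1, y.1.2, ?_⟩, ?_, ?_⟩
    · apply Subtype.ext
      change h * x.1 * h⁻¹ = x.1
      have := (Subgroup.mem_centralizer_iff.mp x.2.2) h rfl
      rw [this]
      simp
    · apply Subgroup.mem_centralizer_iff.mpr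
      intro z hz
      have hz' : z = h := hz
      rw [hz']
      have h3 : h * y.1.1 * h⁻¹ = y.1.1 := congrArg Subtype.val y.2
      calc h * y.1.1 = (h * y.1.1 * h⁻¹) * h := by group
        _ = y.1.1 * h := by rw [h3]
    · intro x; rfl
    · intro y; rfl
  rw [h2]
  exact hmod

/-- The stability of the prime 2 when the order is not divisible by 12, 16 or 56. -/
theorem stable_of_not_dvd (h12 : ¬ 12 ∣ Nat.card G) (h16 : ¬ 16 ∣ Nat.card G)
    (h56 : ¬ 56 ∣ Nat.card G) : Cfsg.Agent.Lib.Transfer.FrobeniusStable 2 G := by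
  classical
  intro D hD g hgn hg
  by_contra hgc
  obtain ⟨r, m, hr, hrd, hm, hmr⟩ := exists_prime_power_noncent (centralizer (D : Set G)) hgc
  haveI : Fact r.Prime := ⟨hr⟩
  have hr2 : r ≠ 2 := by
    rintro rfl
    have := Nat.Coprime.eq_one_of_dvd (Nat.Coprime.symm hg) hrd
    omega
  have hrn : r ∣ Nat.card G := dvd_trans hrd (orderOf_dvd_natCard g)
  have hnorm : g ^ m ∈ normalizer (D : Set G) := pow_mem hgn m
  have hmod := card_modEq_fixed D hnorm hmr
  obtain ⟨a, ha⟩ := IsPGroup.iff_card.mp hD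
  set E : Subgroup G := D ⊓ centralizer ({g ^ m} : Set G) with hE
  have hED : E ≤ D := inf_le_left
  have hEdvd : Nat.card E ∣ Nat.card D := Subgroup.card_dvd_of_le hED
  rw [ha] at hEdvd
  obtain ⟨b, hb, hbe⟩ := (Nat.dvd_prime_pow Nat.prime_two).mp hEdvd
  have hbne : b ≠ a := by
    rintro rfl
    apply hm
    have hEeq : E = D := Subgroup.eq_of_le_of_card_ge hED (by rw [ha, hbe])
    rw [Subgroup.mem_centralizer_iff]
    intro d hd
    have : d ∈ E := hEeq ▸ hd
    have h3 := (Subgroup.mem_centralizer_iff.mp this.2) (g ^ m) rfl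
    exact h3.symm
  have hba : b < a := lt_of_le_of_ne hb hbne
  have hDn : 2 ^ a ∣ Nat.card G := by
    rw [← ha]; exact Subgroup.card_subgroup_dvd_card D
  have ha3 : a ≤ 3 := by
    by_contra hlt
    apply h16
    exact dvd_trans (pow_dvd_pow 2 (by omega : 4 ≤ a)) hDn
  rw [ha, hbe] at hmod
  have hdvd : r ∣ 2 ^ a - 2 ^ b :=
    (Nat.modEq_iff_dvd' (Nat.pow_le_pow_right (by norm_num) hb)).mp hmod.symm
  have hrodd : r ≠ 2 := hr2
  interval_cases a <;> interval_cases b <;> norm_num at hdvd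
  · -- a = 1, b = 0 : r ∣ 1
    exact hr.one_lt.ne' hdvd
  · -- a = 2, b = 0 : r ∣ 3
    have h3 : r = 3 := (Nat.prime_dvd_prime_iff_eq hr (by norm_num)).mp hdvd
    apply h12
    have : Nat.Coprime 4 3 := by norm_num
    have h4 : (4 : ℕ) ∣ Nat.card G := by simpa using hDn
    have h5 : 3 ∣ Nat.card G := h3 ▸ hrn
    have := Nat.Coprime.mul_dvd_of_dvd_of_dvd this h4 h5
    simpa using this
  · -- a = 2, b = 1 : r ∣ 2
    exact hr2 ((Nat.prime_dvd_prime_iff_eq hr (by norm_num)).mp hdvd)
  · -- a = 3, b = 0 : r ∣ 7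
    have h7 : r = 7 := (Nat.prime_dvd_prime_iff_eq hr (by norm_num)).mp hdvd
    apply h56
    have : Nat.Coprime 8 7 := by norm_num
    have h4 : (8 : ℕ) ∣ Nat.card G := by simpa using hDn
    have h5 : 7 ∣ Nat.card G := h7 ▸ hrn
    have := Nat.Coprime.mul_dvd_of_dvd_of_dvd this h4 h5
    simpa using this
  · -- a = 3, b = 1 : r ∣ 6
    have h6 : r ∣ 2 * 3 := by simpa using hdvd
    rcases (Nat.Prime.dvd_mul hr).mp h6 with h | h
    · exact hr2 ((Nat.prime_dvd_prime_iff_eq hr (by norm_num)).mp h)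
    · have h3 : r = 3 := (Nat.prime_dvd_prime_iff_eq hr (by norm_num)).mp h
      apply h12
      have : Nat.Coprime 4 3 := by norm_num
      have h4 : (4 : ℕ) ∣ Nat.card G := dvd_trans (by norm_num) hDn
      have h5 : 3 ∣ Nat.card G := h3 ▸ hrn
      have := Nat.Coprime.mul_dvd_of_dvd_of_dvd this h4 h5
      simpa using this
  · -- a = 3, b = 2 : r ∣ 4
    have h4 : r ∣ 2 ^ 2 := by simpa using hdvd
    exact hr2 ((Nat.prime_dvd_prime_iff_eq hr (by norm_num)).mp (hr.dvd_of_dvd_pow h4))

/-- The order of a nonabelian simple group of even order is divisible by 12, 16 or 56. -/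
theorem order_12_16_56 [IsSimpleGroup G] (hG : ¬ IsMulCommutative G) (h2 : Even (Nat.card G)) :
    12 ∣ Nat.card G ∨ 16 ∣ Nat.card G ∨ 56 ∣ Nat.card G := by
  by_contra hno
  push Not at hno
  obtain ⟨h12, h16, h56⟩ := hno
  haveI : Fact (Nat.Prime 2) := ⟨Nat.prime_two⟩
  obtain ⟨P, N, hN, hc⟩ := Cfsg.Agent.Lib.Transfer.hasNormalPComplement_of_stable
    (stable_of_not_dvd (G := G) h12 h16 h56)
  rcases hN.eq_bot_or_eq_top with h | h
  · -- `N = ⊥`, so `G` is a 2-group
    subst h
    have hPtop : (P : Subgroup G) = ⊤ := by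
      have := hc.sup_eq_top
      simpa using this
    have hpG : IsPGroup 2 G := by
      have h1 : IsPGroup 2 (P : Subgroup G) := P.isPGroup'
      rw [hPtop] at h1
      exact h1.of_equiv Subgroup.topEquiv
    haveI : Nontrivial G := IsSimpleGroup.toNontrivial
    have hcen : Subgroup.center G = ⊤ := by
      rcases (inferInstance : (Subgroup.center G).Normal).eq_bot_or_eq_top with h | h
      · exact absurd h (by
          haveI := hpG.center_nontrivial
          exact Subgroup.nontrivial_iff_ne_bot _ |>.mp this)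
      · exact h
    apply hG
    exact ⟨⟨fun a b => (Subgroup.mem_center_iff.mp (hcen ▸ Subgroup.mem_top a : a ∈ Subgroup.center G) b).symm⟩⟩
  · -- `N = ⊤`, so the Sylow 2-subgroup is trivial
    subst h
    have hPbot : (P : Subgroup G) = ⊥ := by
      have := hc.disjoint
      simpa using this
    have h3 := P.not_dvd_index
    rw [hPbot, Subgroup.index_bot] at h3
    exact h3 h2.two_dvd

end Cfsg.Agent.Lib.Misc19
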