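import Mathlib

set_option autoImplicit false

namespace Cfsg.Agent.Lib.Misc19.Sharp

open Finset

/-- Sharply `k`-transitive, as unique existence. -/
def Shk (Γ β : Type*) [Group Γ] [MulAction Γ β] (k : ℕ) : Prop :=
  ∀ x y : Fin k ↪ β, ∃! g : Γ, ∀ i, g • x i = y i

section basic

variable {Γ β : Type*} [Group Γ] [MulAction Γ β]

theorem shk_of_stabilizer {α : Type*} (G : Subgroup (Equiv.Perm α)) (k : ℕ)
    [MulAction.IsMultiplyPretransitive G α k]
    (hsharp : ∀ x : Fin k ↪ α, MulAction.stabilizer G x = ⊥) : Shk G α k := by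
  intro x y
  obtain ⟨g, hg⟩ := MulAction.exists_smul_eq G x y
  refine ⟨g, fun i => ?_, ?_⟩
  · exact DFunLike.congr_fun hg i
  · intro h hh
    have h1 : g⁻¹ * h ∈ MulAction.stabilizer G x := by
      rw [MulAction.mem_stabilizer_iff]
      ext i
      have h2 : g • x i = y i := DFunLike.congr_fun hg i
      change (g⁻¹ * h) • x i = x i
      rw [mul_smul, hh i, ← h2, inv_smul_smul]
    rw [hsharp x, Subgroup.mem_bot] at h1
    calc h = g * (g⁻¹ * h) := by group
      _ = g := by rw [h1, mul_one]

theorem Shk.eq_of_agree {k : ℕ} (h : Shk Γ β k) {g g' : Γ} (x : Fin k ↪ β)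
    (hx : ∀ i, g • x i = g' • x i) : g = g' := by
  obtain ⟨u, _, hu⟩ := h x (g' • x)
  have h1 := hu g (fun i => hx i)
  have h2 := hu g' (fun i => rfl)
  rw [h1, h2]

theorem Shk.stabilizer {k : ℕ} (h : Shk Γ β (k + 1)) (a : β) :
    Shk (MulAction.stabilizer Γ a) (SubMulAction.ofStabilizer Γ a) k := by
  intro x y
  obtain ⟨g, hg, hu⟩ := h (SubMulAction.ofStabilizer.snoc x) (SubMulAction.ofStabilizer.snoc y)
  have hga : g • a = a := by
    have := hg (Fin.last k)
    rwa [SubMulAction.ofStabilizer.snoc_last, SubMulAction.ofStabilizer.snoc_last] at this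
  refine ⟨⟨g, hga⟩, fun i => ?_, ?_⟩
  · have := hg i.castSucc
    rw [SubMulAction.ofStabilizer.snoc_castSucc, SubMulAction.ofStabilizer.snoc_castSucc] at this
    exact Subtype.ext this
  · rintro ⟨g', hg'⟩ hh
    have hg'a : g' • a = a := hg'
    have : g' = g := by
      apply hu
      intro i
      refine Fin.lastCases ?_ (fun j => ?_) i
      · rw [SubMulAction.ofStabilizer.snoc_last, SubMulAction.ofStabilizer.snoc_last]
        exact hg'a
      · rw [SubMulAction.ofStabilizer.snoc_castSucc, SubMulAction.ofStabilizer.snoc_castSucc]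
        exact congrArg Subtype.val (hh j)
    exact Subtype.ext this

theorem card_ofStabilizer {β Γ : Type*} [Group Γ] [MulAction Γ β] [Fintype β]
    (a : β) [Fintype (SubMulAction.ofStabilizer Γ a)] :
    Fintype.card (SubMulAction.ofStabilizer Γ a) + 1 = Fintype.card β := by
  have := SubMulAction.nat_card_ofStabilizer_add_one_eq Γ a
  simpa [Nat.card_eq_fintype_card] using this

end basic

section four

variable {Γ β : Type*} [Group Γ] [Fintype Γ] [DecidableEq Γ] [MulAction Γ β] [Fintype β] [DecidableEq β]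

/-- fixed points -/
def fx (t : Γ) : Finset β := univ.filter (fun p => t • p = p)
/-- moved points -/
def mv (t : Γ) : Finset β := univ.filter (fun p => t • p ≠ p)

variable (Γ) in
/-- involutions -/
def invs : Finset Γ := univ.filter (fun t => t ≠ 1 ∧ t * t = 1)

omit [Fintype Γ] [DecidableEq Γ] in
theorem card_fx_add_mv (t : Γ) : (fx t : Finset β).card + (mv t : Finset β).card = Fintype.card β := by
  unfold fx mv
  rw [Finset.card_filter_add_card_filter_not]
  simp

omit [Fintype Γ] [DecidableEq Γ] in
theorem even_mv {t : Γ} (ht : t * t = 1) : 2 ∣ (mv t : Finset β).card := by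
  have h1 : (MulAction.toPerm t : Equiv.Perm β) ^ 2 = 1 := by
    ext p
    have : t • t • p = p := by rw [← mul_smul, ht, one_smul]
    simpa [sq] using this
  have h2 := Equiv.Perm.two_dvd_card_support h1
  have h3 : (MulAction.toPerm t : Equiv.Perm β).support = mv t := by
    ext p
    simp [mv, Equiv.Perm.mem_support]
  rwa [h3] at h2

theorem Shk.card_fx_le (h : Shk Γ β 4) {t : Γ} (ht : t ≠ 1) (x : Fin 4 ↪ β) : (fx t : Finset β).card ≤ 3 := by
  by_contra hc
  push Not at hc
  have h4 : 4 ≤ ((fx t : Finset β) : Finset β).card := hc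
  have hc' : Fintype.card (Fin 4) ≤ Fintype.card (fx t : Finset β) := by simpa using h4
  obtain ⟨e⟩ := Function.Embedding.nonempty_of_card_le hc'
  let y : Fin 4 ↪ β := e.trans (Function.Embedding.subtype _)
  apply ht
  apply h.eq_of_agree y
  intro i
  have h1 : t • (e i : β) = e i := (Finset.mem_filter.mp (e i).2).2
  rw [one_smul]
  exact h1

/-- for an involutive pattern `σ` on four indices, every embedding has a unique involution -/
theorem Shk.pat (h : Shk Γ β 4) (σ : Fin 4 → Fin 4) (hσ : ∀ i, σ (σ i) = i) (hσ1 : ∃ i, σ i ≠ i)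
    (x : Fin 4 ↪ β) : ∃ t ∈ invs Γ, ∀ i, t • x i = x (σ i) := by
  have hinj : Function.Injective σ := fun i j hij => by
    rw [← hσ i, ← hσ j, hij]
  obtain ⟨t, ht, -⟩ := h x ((⟨σ, hinj⟩ : Fin 4 ↪ Fin 4).trans x)
  have ht' : ∀ i, t • x i = x (σ i) := fun i => ht i
  refine ⟨t, ?_, ht'⟩
  simp only [invs, mem_filter, mem_univ, true_and]
  constructor
  · rintro rfl
    obtain ⟨i, hi⟩ := hσ1
    have := ht' i
    rw [one_smul] at this
    exact hi (x.injective this).symm
  · apply h.eq_of_agree x
    intro i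
    rw [mul_smul, ht', ht', hσ, one_smul]

theorem Shk.sum_fiber (h : Shk Γ β 4) (σ : Fin 4 → Fin 4) (hσ : ∀ i, σ (σ i) = i) (hσ1 : ∃ i, σ i ≠ i) :
    ∑ t ∈ invs Γ, (univ.filter (fun x : Fin 4 ↪ β => ∀ i, t • x i = x (σ i))).card
      = Fintype.card (Fin 4 ↪ β) := by
  classical
  choose φ hφ1 hφ2 using h.pat σ hσ hσ1
  have h1 := Finset.card_eq_sum_card_fiberwise (f := φ) (s := (univ : Finset (Fin 4 ↪ β))) (t := invs Γ)
    (fun x _ => hφ1 x)
  rw [Finset.card_univ] at h1
  rw [h1]
  apply Finset.sum_congr rfl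
  intro t _
  congr 1
  ext x
  simp only [mem_filter, mem_univ, true_and]
  constructor
  · intro hx
    have : φ x = t := h.eq_of_agree x (fun i => by rw [hφ2, hx])
    exact this
  · rintro rfl i
    exact hφ2 x i

/-- pattern A: swap two pairs -/
theorem card_patA {t : Γ} (ht : t * t = 1) :
    (univ.filter (fun x : Fin 4 ↪ β => ∀ i, t • x i = x (![1, 0, 3, 2] i))).card
      = (mv t : Finset β).card * ((mv t : Finset β).card - 2) := by
  classical
  set M : Finset β := mv t with hM
  have htt : ∀ p : β, t • t • p = p := fun p => by rw [← mul_smul, ht, one_smul]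
  have hMm : ∀ p, p ∈ M ↔ t • p ≠ p := fun p => by simp [hM, mv]
  have hP : ((M.sigma (fun a => M \ {a, t • a})).card) = M.card * (M.card - 2) := by
    rw [Finset.card_sigma]
    rw [Finset.sum_const_nat (m := M.card - 2)]
    intro a ha
    have h2 : ({a, t • a} : Finset β) ⊆ M := by
      intro p hp
      simp only [mem_insert, mem_singleton] at hp
      rcases hp with rfl | rfl
      · exact ha
      · rw [hMm, htt]
        exact ((hMm _).1 ha).symm
    rw [Finset.card_sdiff_of_subset h2, Finset.card_pair ((hMm _).1 ha).symm]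
  rw [← hP]
  refine Finset.card_bij (fun x _ => ⟨x 0, x 2⟩) ?_ ?_ ?_
  · intro x hx
    have hx' : ∀ i, t • x i = x (![1, 0, 3, 2] i) := by simpa using hx
    have h0 : t • x 0 = x 1 := hx' 0
    have h2 : t • x 2 = x 3 := hx' 2
    simp only [mem_sigma, mem_sdiff, mem_insert, mem_singleton, not_or]
    refine ⟨?_, ?_, ?_, ?_⟩
    · rw [hMm, h0]
      exact fun h => by simpa using x.injective h
    · rw [hMm, h2]
      exact fun h => by simpa using x.injective h
    · exact fun h => by simpa using x.injective h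
    · rw [h0]
      exact fun h => by simpa using x.injective h
  · intro x hx y hy hxy
    have hx' : ∀ i, t • x i = x (![1, 0, 3, 2] i) := by simpa using hx
    have hy' : ∀ i, t • y i = y (![1, 0, 3, 2] i) := by simpa using hy
    have hh : x 0 = y 0 ∧ x 2 = y 2 := by simpa using hxy
    obtain ⟨h0, h2⟩ := hh
    ext i
    fin_cases i
    · exact h0
    · have h1 := hx' 0
      have h3 := hy' 0
      change x 1 = y 1
      calc x 1 = t • x 0 := h1.symm
        _ = t • y 0 := by rw [h0]
        _ = y 1 := h3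
    · exact h2
    · have h1 := hx' 2
      have h3 := hy' 2
      change x 3 = y 3
      calc x 3 = t • x 2 := h1.symm
        _ = t • y 2 := by rw [h2]
        _ = y 3 := h3
  · rintro ⟨a, c⟩ hac
    simp only [mem_sigma, mem_sdiff, mem_insert, mem_singleton, not_or] at hac
    obtain ⟨ha, hc, hca, hcta⟩ := hac
    have ha' := (hMm _).1 ha
    have hc' := (hMm _).1 hc
    have inj : Function.Injective (![a, t • a, c, t • c] : Fin 4 → β) := by
      have e1 : a ≠ t • c := fun e => hcta (by rw [e, htt])
      have e2 : t • a ≠ t • c := fun e => hca (MulAction.injective t e).symm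
      intro i j hij
      fin_cases i <;> fin_cases j <;> simp at hij ⊢ <;> first
        | exact (ha' hij.symm).elim
        | exact (ha' hij).elim
        | exact (hca hij.symm).elim
        | exact (hca hij).elim
        | exact (e1 hij).elim
        | exact (e1 hij.symm).elim
        | exact (hcta hij.symm).elim
        | exact (hcta hij).elim
        | exact (e2 hij).elim
        | exact (e2 hij.symm).elim
        | exact (hc' hij).elim
        | exact (hc' hij.symm).elim
    refine ⟨⟨_, inj⟩, ?_, rfl⟩
    simp only [mem_filter, mem_univ, true_and]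
    intro i
    fin_cases i
    · rfl
    · exact htt a
    · rfl
    · exact htt c

/-- pattern B: swap one pair, fix two points -/
theorem card_patB {t : Γ} (ht : t * t = 1) :
    (univ.filter (fun x : Fin 4 ↪ β => ∀ i, t • x i = x (![1, 0, 2, 3] i))).card
      = (mv t : Finset β).card * ((fx t : Finset β).card * (fx t : Finset β).card - (fx t : Finset β).card) := by
  classical
  set M : Finset β := mv t with hM
  set F : Finset β := fx t with hF
  have htt : ∀ p : β, t • t • p = p := fun p => by rw [← mul_smul, ht, one_smul]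
  have hMm : ∀ p, p ∈ M ↔ t • p ≠ p := fun p => by simp [hM, mv]
  have hFm : ∀ p, p ∈ F ↔ t • p = p := fun p => by simp [hF, fx]
  rw [← Finset.offDiag_card, ← Finset.card_product]
  refine Finset.card_bij (fun x _ => (x 0, (x 2, x 3))) ?_ ?_ ?_
  · intro x hx
    have hx' : ∀ i, t • x i = x (![1, 0, 2, 3] i) := by simpa using hx
    have h0 : t • x 0 = x 1 := hx' 0
    have h2 : t • x 2 = x 2 := hx' 2
    have h3 : t • x 3 = x 3 := hx' 3
    simp only [mem_product, mem_offDiag]
    refine ⟨?_, ?_, ?_, ?_⟩
    · rw [hMm, h0]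
      exact fun h => by simpa using x.injective h
    · rw [hFm]; exact h2
    · rw [hFm]; exact h3
    · exact fun h => by simpa using x.injective h
  · intro x hx y hy hxy
    have hx' : ∀ i, t • x i = x (![1, 0, 2, 3] i) := by simpa using hx
    have hy' : ∀ i, t • y i = y (![1, 0, 2, 3] i) := by simpa using hy
    have hh : x 0 = y 0 ∧ x 2 = y 2 ∧ x 3 = y 3 := by simpa using hxy
    obtain ⟨h0, h2, h3⟩ := hh
    ext i
    fin_cases i
    · exact h0
    · have h1 := hx' 0
      have h4 := hy' 0
      change x 1 = y 1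
      calc x 1 = t • x 0 := h1.symm
        _ = t • y 0 := by rw [h0]
        _ = y 1 := h4
    · exact h2
    · exact h3
  · rintro ⟨a, c, d⟩ hac
    simp only [mem_product, mem_offDiag] at hac
    obtain ⟨ha, hc, hd, hcd⟩ := hac
    have ha' := (hMm _).1 ha
    have hc' := (hFm _).1 hc
    have hd' := (hFm _).1 hd
    have e1 : a ≠ c := fun e => ha' (by rw [e]; exact hc')
    have e2 : a ≠ d := fun e => ha' (by rw [e]; exact hd')
    have e3 : t • a ≠ c := fun e => e1 (by
      have := congrArg (fun p => t • p) e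
      simp only [htt, hc'] at this
      exact this)
    have e4 : t • a ≠ d := fun e => e2 (by
      have := congrArg (fun p => t • p) e
      simp only [htt, hd'] at this
      exact this)
    have inj : Function.Injective (![a, t • a, c, d] : Fin 4 → β) := by
      intro i j hij
      fin_cases i <;> fin_cases j <;> simp at hij ⊢ <;> first
        | exact (ha' hij.symm).elim
        | exact (ha' hij).elim
        | exact (e1 hij).elim
        | exact (e1 hij.symm).elim
        | exact (e2 hij).elim
        | exact (e2 hij.symm).elim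
        | exact (e3 hij).elim
        | exact (e3 hij.symm).elim
        | exact (e4 hij).elim
        | exact (e4 hij.symm).elim
        | exact (hcd hij).elim
        | exact (hcd hij.symm).elim
    refine ⟨⟨_, inj⟩, ?_, rfl⟩
    simp only [mem_filter, mem_univ, true_and]
    intro i
    fin_cases i
    · rfl
    · exact htt a
    · exact hc'
    · exact hd'

/-- split a sum over involutions according to the number of fixed points -/
theorem sum_split (h : Shk Γ β 4) (x : Fin 4 ↪ β) (w : ℕ → ℕ) :
    ∑ t ∈ invs Γ, w (fx t : Finset β).card =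
      ((invs Γ).filter (fun t => (fx t : Finset β).card = 0)).card * w 0
      + ((invs Γ).filter (fun t => (fx t : Finset β).card = 1)).card * w 1
      + ((invs Γ).filter (fun t => (fx t : Finset β).card = 2)).card * w 2
      + ((invs Γ).filter (fun t => (fx t : Finset β).card = 3)).card * w 3 := by
  have hm : ∀ t ∈ invs Γ, (fx t : Finset β).card ∈ Finset.range 4 := by
    intro t ht
    have h1 : t ≠ 1 := (Finset.mem_filter.mp ht).2.1
    have := h.card_fx_le h1 x
    simp only [Finset.mem_range]
    omega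
  rw [← Finset.sum_fiberwise_of_maps_to hm]
  simp only [Finset.sum_range_succ, Finset.sum_range_zero, zero_add]
  have key : ∀ i, ∑ t ∈ (invs Γ).filter (fun t => (fx t : Finset β).card = i), w (fx t : Finset β).card
      = ((invs Γ).filter (fun t => (fx t : Finset β).card = i)).card * w i := by
    intro i
    rw [Finset.sum_const_nat]
    intro t ht
    rw [(Finset.mem_filter.mp ht).2]
  rw [key, key, key, key]

omit [Fintype Γ] [DecidableEq Γ] [DecidableEq β] in
theorem Shk.exists_smul (h : Shk Γ β 4) (x : Fin 4 ↪ β) (a b : β) : ∃ g : Γ, g • a = b := by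
  classical
  let s (c : β) : Fin 4 ↪ β := x.trans (Equiv.swap (x 0) c).toEmbedding
  obtain ⟨g, hg, -⟩ := h (s a) (s b)
  refine ⟨g, ?_⟩
  have := hg 0
  simpa [s] using this

theorem card_fx_conj (g t : Γ) : (fx (g * t * g⁻¹) : Finset β).card = (fx t : Finset β).card := by
  symm
  refine Finset.card_bij (fun p _ => g • p) ?_ (fun p _ q _ e => MulAction.injective g e) ?_
  · intro p hp
    have hp' : t • p = p := (Finset.mem_filter.mp hp).2
    simp only [fx, mem_filter, mem_univ, true_and]
    rw [mul_smul, mul_smul, inv_smul_smul, hp']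
  · intro q hq
    have hq' : (g * t * g⁻¹) • q = q := (Finset.mem_filter.mp hq).2
    refine ⟨g⁻¹ • q, ?_, by simp⟩
    simp only [fx, mem_filter, mem_univ, true_and]
    have : g • t • g⁻¹ • q = q := by
      simpa [mul_smul] using hq'
    exact eq_inv_smul_iff.mpr this

theorem mem_invs_conj (g : Γ) {t : Γ} (ht : t ∈ invs Γ) : g * t * g⁻¹ ∈ invs Γ := by
  obtain ⟨h1, h2⟩ := (Finset.mem_filter.mp ht).2
  simp only [invs, mem_filter, mem_univ, true_and]
  constructor
  · intro h
    apply h1
    have : t = g⁻¹ * (g * t * g⁻¹) * g := by group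
    rw [this, h]
    group
  · calc g * t * g⁻¹ * (g * t * g⁻¹) = g * (t * t) * g⁻¹ := by group
      _ = 1 := by rw [h2]; group

theorem Shk.card_dvd (h : Shk Γ β 4) (x : Fin 4 ↪ β) :
    Fintype.card β ∣ ((invs Γ).filter (fun t => (fx t : Finset β).card = 1)).card := by
  classical
  set A := (invs Γ).filter (fun t => (fx t : Finset β).card = 1) with hA
  let B (e : β) : Finset Γ := A.filter (fun t => t • e = e)
  have h1 : ∑ e : β, (B e).card = A.card := by
    have := Finset.sum_card_bipartiteAbove_eq_sum_card_bipartiteBelow (s := (univ : Finset β)) (t := A)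
      (fun e t => t • e = e)
    simp only [Finset.bipartiteAbove, Finset.bipartiteBelow] at this
    rw [this]
    have h2 : ∀ t ∈ A, (univ.filter (fun e : β => t • e = e)).card = 1 := by
      intro t ht
      exact (Finset.mem_filter.mp ht).2
    rw [Finset.sum_congr rfl h2]
    simp
  have h3 : ∀ e e' : β, (B e).card = (B e').card := by
    intro e e'
    obtain ⟨g, hg⟩ := h.exists_smul x e e'
    refine Finset.card_bij (fun t _ => g * t * g⁻¹) ?_ ?_ ?_
    · intro t ht
      obtain ⟨ht1, ht2⟩ := Finset.mem_filter.mp ht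
      obtain ⟨ht3, ht4⟩ := Finset.mem_filter.mp ht1
      refine Finset.mem_filter.mpr ⟨Finset.mem_filter.mpr ⟨mem_invs_conj g ht3, ?_⟩, ?_⟩
      · rw [card_fx_conj]; exact ht4
      · rw [← hg, mul_smul, mul_smul, inv_smul_smul, ht2]
    · intro t _ u _ e
      exact mul_left_cancel (mul_right_cancel e)
    · intro u hu
      obtain ⟨ht1, ht2⟩ := Finset.mem_filter.mp hu
      obtain ⟨ht3, ht4⟩ := Finset.mem_filter.mp ht1
      refine ⟨g⁻¹ * u * g, Finset.mem_filter.mpr ⟨Finset.mem_filter.mpr ⟨?_, ?_⟩, ?_⟩, by group⟩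
      · have := mem_invs_conj g⁻¹ ht3
        simpa using this
      · have := card_fx_conj (β := β) g⁻¹ u
        rw [inv_inv] at this
        rw [this]; exact ht4
      · rw [mul_smul, mul_smul, hg, ht2, inv_smul_eq_iff, hg]
  rw [← h1]
  have hne : Nonempty β := ⟨x 0⟩
  obtain ⟨e₀⟩ := hne
  rw [Finset.sum_congr rfl (fun e _ => h3 e e₀)]
  simp

theorem Shk.card_four (h : Shk Γ β 4) (h4 : 4 ≤ Fintype.card β) :
    Fintype.card β = 4 ∨ Fintype.card β = 5 ∨ Fintype.card β = 6 ∨ Fintype.card β = 11 := by
  classical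
  obtain ⟨x⟩ : Nonempty (Fin 4 ↪ β) := Function.Embedding.nonempty_of_card_le (by simpa using h4)
  set n := Fintype.card β with hn
  have hD : Fintype.card (Fin 4 ↪ β) = n.descFactorial 4 := by
    rw [Fintype.card_embedding_eq]; simp [hn]
  have hmv : ∀ t : Γ, (mv t : Finset β).card = n - (fx t : Finset β).card := by
    intro t
    have := card_fx_add_mv (β := β) t
    omega
  -- the two double counts
  have hA : ∑ t ∈ invs Γ, (n - (fx t : Finset β).card) * (n - (fx t : Finset β).card - 2) = n.descFactorial 4 := by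
    rw [← hD, ← h.sum_fiber ![1, 0, 3, 2] (by decide) (by decide)]
    apply Finset.sum_congr rfl
    intro t ht
    rw [card_patA (Finset.mem_filter.mp ht).2.2, hmv]
  have hB : ∑ t ∈ invs Γ, (n - (fx t : Finset β).card) * ((fx t : Finset β).card * (fx t : Finset β).card - (fx t : Finset β).card) = n.descFactorial 4 := by
    rw [← hD, ← h.sum_fiber ![1, 0, 2, 3] (by decide) (by decide)]
    apply Finset.sum_congr rfl
    intro t ht
    rw [card_patB (Finset.mem_filter.mp ht).2.2, hmv]
  rw [sum_split h x (fun f => (n - f) * (n - f - 2))] at hA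
  rw [sum_split h x (fun f => (n - f) * (f * f - f))] at hB
  set a0 := ((invs Γ).filter (fun t => (fx t : Finset β).card = 0)).card with ha0
  set a1 := ((invs Γ).filter (fun t => (fx t : Finset β).card = 1)).card with ha1
  set a2 := ((invs Γ).filter (fun t => (fx t : Finset β).card = 2)).card with ha2
  set a3 := ((invs Γ).filter (fun t => (fx t : Finset β).card = 3)).card with ha3
  have hpar : ∀ t ∈ invs Γ, 2 ∣ n - (fx t : Finset β).card := by
    intro t ht
    rw [← hmv]
    exact even_mv (Finset.mem_filter.mp ht).2.2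
  have hzero : ∀ i, i ≤ 3 → ¬ 2 ∣ n - i → ((invs Γ).filter (fun t => (fx t : Finset β).card = i)).card = 0 := by
    intro i _ hi
    rw [Finset.card_eq_zero, Finset.filter_eq_empty_iff]
    intro t ht e
    exact hi (e ▸ hpar t ht)
  have hdvd : n ∣ a1 := h.card_dvd x
  rcases Nat.even_or_odd' n with ⟨m, hm | hm⟩
  · -- n even
    by_cases h8 : n < 8
    · omega
    exfalso
    obtain ⟨k, hk⟩ : ∃ k, n = k + 8 := ⟨n - 8, by omega⟩
    have h1 : a1 = 0 := hzero 1 (by omega) (by omega)
    have h3 : a3 = 0 := hzero 3 (by omega) (by omega)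
    rw [h1, h3] at hA hB
    rw [hk] at hA hB
    have hDk : (k + 8).descFactorial 4 = (k + 5) * (k + 6) * (k + 7) * (k + 8) := by
      simp [Nat.descFactorial]; ring
    rw [hDk] at hA hB
    have hA' : a0 * ((k + 8) * (k + 6)) + a2 * ((k + 6) * (k + 4)) = (k + 5) * (k + 6) * (k + 7) * (k + 8) := by
      simpa using hA
    have hB' : a2 * ((k + 6) * 2) = (k + 5) * (k + 6) * (k + 7) * (k + 8) := by
      simpa using hB
    have hpos : 0 < (k + 5) * (k + 6) * (k + 7) * (k + 8) := by positivity
    have ha2 : 0 < a2 := by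
      rcases Nat.eq_zero_or_pos a2 with h0 | h0
      · rw [h0] at hB'; omega
      · exact h0
    nlinarith [Nat.mul_pos ha2 (show 0 < k + 6 by omega), Nat.zero_le (a0 * ((k + 8) * (k + 6))),
      Nat.mul_le_mul_left (a2 * (k + 6)) (show 2 + 1 ≤ k + 4 by omega)]
  · -- n odd
    by_cases h5 : n < 5
    · omega
    obtain ⟨k, hk⟩ : ∃ k, n = k + 5 := ⟨n - 5, by omega⟩
    have h0 : a0 = 0 := hzero 0 (by omega) (by omega)
    have h2 : a2 = 0 := hzero 2 (by omega) (by omega)
    rw [h0, h2] at hA hB
    rw [hk] at hA hB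
    have hDk : (k + 5).descFactorial 4 = (k + 2) * (k + 3) * (k + 4) * (k + 5) := by
      simp [Nat.descFactorial]; ring
    rw [hDk] at hA hB
    have hA' : a1 * ((k + 4) * (k + 2)) + a3 * ((k + 2) * k) = (k + 2) * (k + 3) * (k + 4) * (k + 5) := by
      simpa using hA
    have hB' : a3 * ((k + 2) * 6) = (k + 2) * (k + 3) * (k + 4) * (k + 5) := by
      simpa using hB
    have hB2 : 6 * a3 = (k + 3) * (k + 4) * (k + 5) := by
      apply Nat.eq_of_mul_eq_mul_left (show 0 < k + 2 by omega)
      calc (k + 2) * (6 * a3) = a3 * ((k + 2) * 6) := by ring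
        _ = _ := hB'
        _ = _ := by ring
    have hA2 : a1 * (k + 4) + a3 * k = (k + 3) * (k + 4) * (k + 5) := by
      apply Nat.eq_of_mul_eq_mul_left (show 0 < k + 2 by omega)
      calc (k + 2) * (a1 * (k + 4) + a3 * k) = a1 * ((k + 4) * (k + 2)) + a3 * ((k + 2) * k) := by ring
        _ = _ := hA'
        _ = _ := by ring
    have hC : 6 * a1 + (k + 3) * (k + 5) * k = 6 * ((k + 3) * (k + 5)) := by
      apply Nat.eq_of_mul_eq_mul_left (show 0 < k + 4 by omega)
      have h7 : (k + 3) * (k + 4) * (k + 5) * k = 6 * a3 * k := by rw [hB2]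
      calc (k + 4) * (6 * a1 + (k + 3) * (k + 5) * k)
          = 6 * (a1 * (k + 4)) + (k + 3) * (k + 4) * (k + 5) * k := by ring
        _ = 6 * (a1 * (k + 4)) + 6 * a3 * k := by rw [h7]
        _ = 6 * (a1 * (k + 4) + a3 * k) := by ring
        _ = 6 * ((k + 3) * (k + 4) * (k + 5)) := by rw [hA2]
        _ = (k + 4) * (6 * ((k + 3) * (k + 5))) := by ring
    have hk7 : k ≤ 6 := by
      by_contra hk7
      push Not at hk7
      have h8 : 7 ≤ k := hk7
      have hpos : 0 < (k + 3) * (k + 5) := by positivity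
      have h9 := Nat.mul_le_mul_left ((k + 3) * (k + 5)) h8
      generalize (k + 3) * (k + 5) = X at *
      generalize X * k = Y at *
      omega
    have hkeven : 2 ∣ k := by omega
    have : k = 0 ∨ k = 2 ∨ k = 4 ∨ k = 6 := by omega
    rcases this with rfl | rfl | rfl | rfl
    · right; left; omega
    · exfalso; omega
    · exfalso
      have ha1 : a1 = 21 := by omega
      rw [ha1, hk] at hdvd
      norm_num at hdvd
    · right; right; right; omega

end four

section primeDeg

variable {Γ β : Type*} [Group Γ] [Finite Γ] [MulAction Γ β] [Fintype β]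

/-- A subgroup of order `p` of a faithful group of degree `p` has normaliser of order `p * m`, `m ∣ p - 1`. -/
theorem exists_normalizer_card [FaithfulSMul Γ β] {p : ℕ} [hp : Fact p.Prime] (hβ : Fintype.card β = p)
    (Q : Subgroup Γ) (hQ : Nat.card Q = p) :
    ∃ m, m ∣ p - 1 ∧ Nat.card (Subgroup.normalizer (Q : Set Γ)) = p * m := by
  classical
  have hp1 : 1 < p := hp.out.one_lt
  -- a non-identity element moving a point
  have hQnt : Nontrivial Q := by
    rw [← Finite.one_lt_card_iff_nontrivial, hQ]; exact hp1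
  obtain ⟨⟨g, hgQ⟩, hg⟩ := exists_ne (1 : Q)
  have hg' : g ≠ 1 := fun h => hg (Subtype.ext h)
  obtain ⟨a, ha⟩ : ∃ a : β, g • a ≠ a := by
    by_contra h
    push Not at h
    apply hg'
    apply FaithfulSMul.eq_of_smul_eq_smul (α := β)
    intro x
    rw [h x, one_smul]
  -- orbit of a under Q is everything
  have horbeq : ∀ {K : Subgroup Γ}, Nat.card (MulAction.stabilizer K a) * Nat.card (MulAction.orbit K a) = Nat.card K := by
    intro K
    rw [← Subgroup.card_mul_index (MulAction.stabilizer K a), MulAction.index_stabilizer, Nat.card_coe_set_eq]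
  have horb : Nat.card (MulAction.orbit Q a) = p := by
    have h1 : Nat.card (MulAction.orbit Q a) ∣ p := by
      rw [← hQ, ← horbeq]
      exact dvd_mul_left _ _
    rcases (Nat.dvd_prime hp.out).1 h1 with h2 | h2
    · exfalso
      have h3 : 1 < Nat.card (MulAction.orbit Q a) := by
        rw [Nat.card_coe_set_eq]
        exact (Set.one_lt_ncard_iff (Set.toFinite _)).2
          ⟨a, g • a, MulAction.mem_orbit_self a, ⟨⟨g, hgQ⟩, rfl⟩, ha.symm⟩
      omega
    · exact h2
  have horbU : MulAction.orbit Q a = Set.univ := by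
    apply Set.eq_of_subset_of_ncard_le (Set.subset_univ _)
    rw [Set.ncard_univ, Nat.card_eq_fintype_card, hβ, ← Nat.card_coe_set_eq, horb]
  have htr : ∀ c : β, ∃ q ∈ Q, q • a = c := by
    intro c
    have : c ∈ MulAction.orbit Q a := by rw [horbU]; trivial
    obtain ⟨⟨q, hq⟩, rfl⟩ := this
    exact ⟨q, hq, rfl⟩
  -- orbit of a under the normaliser
  let N := Subgroup.normalizer (Q : Set Γ)
  have horbN : Nat.card (MulAction.orbit N a) = p := by
    have : MulAction.orbit N a = Set.univ := by
      ext c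
      simp only [Set.mem_univ, iff_true]
      obtain ⟨q, hq, rfl⟩ := htr c
      exact ⟨⟨q, Subgroup.le_normalizer hq⟩, rfl⟩
    rw [this, Nat.card_eq_fintype_card]
    simp [hβ]
  have hcard := horbeq (K := N)
  rw [horbN] at hcard
  refine ⟨Nat.card (MulAction.stabilizer N a), ?_, by rw [← hcard, mul_comm]⟩
  -- embedding in Aut(Q)
  have : IsCyclic Q := isCyclic_of_prime_card hQ
  have hAut : Nat.card (MulAut Q) = p - 1 := by
    rw [IsCyclic.card_mulAut, hQ, Nat.totient_prime hp.out]
  rw [← hAut]
  let φ : MulAction.stabilizer N a →* MulAut Q :=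
    (Q.normalizerMonoidHom).comp (MulAction.stabilizer N a).subtype
  have hφ : Function.Injective φ := by
    rw [injective_iff_map_eq_one]
    rintro ⟨⟨u, huN⟩, hua⟩ hu
    have hua' : u • a = a := hua
    have hker : (⟨u, huN⟩ : N) ∈ (Q.normalizerMonoidHom).ker := hu
    rw [Subgroup.normalizerMonoidHom_ker, Subgroup.mem_subgroupOf, Subgroup.mem_centralizer_iff] at hker
    have hu1 : u = 1 := by
      apply FaithfulSMul.eq_of_smul_eq_smul (α := β)
      intro c
      obtain ⟨q, hq, rfl⟩ := htr c
      have h5 : u * q = q * u := (hker q hq).symm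
      rw [← mul_smul, h5, mul_smul, hua', one_smul]
    exact Subtype.ext (Subtype.ext hu1)
  exact Subgroup.card_dvd_of_injective φ hφ

/-- Sylow count in a faithful group of prime degree whose order is `p * r`, `p ∤ r`. -/
theorem exists_sylow_count [FaithfulSMul Γ β] {p : ℕ} [hp : Fact p.Prime] (hβ : Fintype.card β = p)
    (Q : Subgroup Γ) (hQ : Nat.card Q = p) {r : ℕ} (hΓ : Nat.card Γ = p * r) (hr : ¬ p ∣ r) :
    ∃ m n, m ∣ p - 1 ∧ Nat.card (Subgroup.normalizer (Q : Set Γ)) = p * m ∧ n % p = 1 ∧ r = m * n := by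
  classical
  obtain ⟨m, hm, hN⟩ := exists_normalizer_card hβ Q hQ
  have hfac : (Nat.card Γ).factorization p = 1 := by
    have hr0 : r ≠ 0 := fun h => hr (h ▸ dvd_zero p)
    rw [hΓ, Nat.factorization_mul hp.out.ne_zero hr0]
    simp [Nat.factorization_eq_zero_of_not_dvd hr, hp.out.factorization]
  let P : Sylow p Γ := Sylow.ofCard Q (by rw [hQ, hfac, pow_one])
  have h1 := card_sylow_modEq_one p Γ
  have h2 : Nat.card (Sylow p Γ) = (Subgroup.normalizer (Q : Set Γ)).index := by
    exact Sylow.card_eq_index_normalizer P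
  refine ⟨m, (Subgroup.normalizer (Q : Set Γ)).index, hm, hN, ?_, ?_⟩
  · rw [← h2]
    have := h1
    unfold Nat.ModEq at this
    rw [this, Nat.mod_eq_of_lt hp.out.one_lt]
  · have h3 := Subgroup.card_mul_index (Subgroup.normalizer (Q : Set Γ))
    rw [hN, hΓ, mul_assoc] at h3
    exact (Nat.eq_of_mul_eq_mul_left hp.out.pos h3).symm

end primeDeg

section applications

variable {Γ β : Type*} [Group Γ] [MulAction Γ β]

theorem Shk.faithful {k : ℕ} (h : Shk Γ β k) (x : Fin k ↪ β) : FaithfulSMul Γ β :=
  ⟨fun hgh => h.eq_of_agree x (fun i => hgh (x i))⟩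

theorem Shk.card_group {k : ℕ} [Fintype β] (h : Shk Γ β k) (hk : k ≤ Fintype.card β) :
    Nat.card Γ = (Fintype.card β).descFactorial k := by
  classical
  obtain ⟨x⟩ : Nonempty (Fin k ↪ β) := Function.Embedding.nonempty_of_card_le (by simpa using hk)
  let f : Γ → (Fin k ↪ β) := fun g => g • x
  have hf : Function.Bijective f := by
    constructor
    · intro g g' e
      apply h.eq_of_agree x
      intro i
      exact DFunLike.congr_fun e i
    · intro y
      obtain ⟨g, hg, -⟩ := h x y
      exact ⟨g, by ext i; exact hg i⟩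
  rw [Nat.card_congr (Equiv.ofBijective f hf), Nat.card_eq_fintype_card, Fintype.card_embedding_eq]
  simp

theorem Shk.isMulti {k : ℕ} (h : Shk Γ β k) : MulAction.IsMultiplyPretransitive Γ β k := by
  refine ⟨fun x y => ?_⟩
  obtain ⟨g, hg, -⟩ := h x y
  exact ⟨g, by ext i; exact hg i⟩

theorem Shk.card_four' [Finite Γ] [Fintype β] (h : Shk Γ β 4) (h4 : 4 ≤ Fintype.card β) :
    Fintype.card β = 4 ∨ Fintype.card β = 5 ∨ Fintype.card β = 6 ∨ Fintype.card β = 11 := by
  classical
  letI := Fintype.ofFinite Γ
  exact h.card_four h4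

theorem Shk.card_five [Finite Γ] [Fintype β] (h : Shk Γ β 5) (h5 : 5 ≤ Fintype.card β) :
    Fintype.card β = 5 ∨ Fintype.card β = 6 ∨ Fintype.card β = 7 ∨ Fintype.card β = 12 := by
  classical
  obtain ⟨x⟩ : Nonempty (Fin 5 ↪ β) := Function.Embedding.nonempty_of_card_le (by simpa using h5)
  let a := x 0
  letI := Fintype.ofFinite (SubMulAction.ofStabilizer Γ a)
  have hc := card_ofStabilizer (Γ := Γ) a
  have := (h.stabilizer a).card_four' (by omega)
  omega

theorem Shk.not_six_thirteen [Finite Γ] [Fintype β] (h : Shk Γ β 6) (h13 : Fintype.card β = 13) : False := by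
  classical
  have hcard : Nat.card Γ = 13 * 95040 := by
    rw [h.card_group (by omega), h13]; decide
  obtain ⟨x⟩ : Nonempty (Fin 6 ↪ β) := Function.Embedding.nonempty_of_card_le (by simp; omega)
  haveI := h.faithful x
  haveI : Fact (Nat.Prime 13) := ⟨by norm_num⟩
  obtain ⟨Q, hQ⟩ := Sylow.exists_subgroup_card_pow_prime (G := Γ) 13 (n := 1) (by rw [hcard]; norm_num)
  rw [pow_one] at hQ
  obtain ⟨m, n, hm, -, hn, hr⟩ := exists_sylow_count (Γ := Γ) (β := β) (p := 13) h13 Q hQ hcard (by norm_num)
  have hm12 : m ≤ 12 := Nat.le_of_dvd (by norm_num) hm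
  have hm' : m ∣ 12 := hm
  interval_cases m <;> first | omega | (exfalso; revert hm'; decide)

end applications

theorem Shk.card_ge_six.{u, v} (k : ℕ) (hk : 6 ≤ k) : ∀ (Γ : Type u) (β : Type v) [Group Γ] [Finite Γ]
    [MulAction Γ β] [Fintype β], Shk Γ β k → k ≤ Fintype.card β →
      Fintype.card β = k ∨ Fintype.card β = k + 1 ∨ Fintype.card β = k + 2 := by
  induction k, hk using Nat.le_induction with
  | base =>
    intro Γ β _ _ _ _ h h6
    classical
    obtain ⟨x⟩ : Nonempty (Fin 6 ↪ β) := Function.Embedding.nonempty_of_card_le (by simpa using h6)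
    let a := x 0
    letI := Fintype.ofFinite (SubMulAction.ofStabilizer Γ a)
    have hc := card_ofStabilizer (Γ := Γ) a
    have h5 := (h.stabilizer a).card_five (by omega)
    by_cases h13 : Fintype.card β = 13
    · exact (h.not_six_thirteen h13).elim
    · omega
  | succ k hk ih =>
    intro Γ β _ _ _ _ h h6
    classical
    obtain ⟨x⟩ : Nonempty (Fin (k + 1) ↪ β) := Function.Embedding.nonempty_of_card_le (by simpa using h6)
    let a := x 0
    letI := Fintype.ofFinite (SubMulAction.ofStabilizer Γ a)
    have hc := card_ofStabilizer (Γ := Γ) a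
    have h5 := ih _ _ (h.stabilizer a) (by omega)
    omega

section m11

variable {Γ β : Type*} [Group Γ] [MulAction Γ β]

/-- elements fixing three points and moving `u` to `v` -/
theorem Shk.exists_fix_three (h : Shk Γ β 4) (y : Fin 3 ↪ β) {u v : β} (hu : u ∉ Set.range y) (hv : v ∉ Set.range y) :
    ∃ k : Γ, (∀ i, k • y i = y i) ∧ k • u = v := by
  obtain ⟨k, hk, -⟩ := h (Fin.Embedding.snoc y hu) (Fin.Embedding.snoc y hv)
  refine ⟨k, fun i => ?_, ?_⟩
  · have := hk i.castSucc
    simpa using this
  · have := hk (Fin.last 3)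
    rwa [Fin.Embedding.snoc_last, Fin.Embedding.snoc_last] at this

theorem Shk.eq_of_fix_three (h : Shk Γ β 4) (y : Fin 3 ↪ β) {u : β} (hu : u ∉ Set.range y) {k k' : Γ}
    (h1 : ∀ i, k • y i = k' • y i) (h2 : k • u = k' • u) : k = k' := by
  apply h.eq_of_agree (Fin.Embedding.snoc y hu)
  intro i
  refine Fin.lastCases ?_ (fun j => ?_) i
  · rw [Fin.Embedding.snoc_last]; exact h2
  · simpa using h1 j

/-- pointwise stabiliser of three points in degree 11 has order 8 -/
theorem Shk.pow_eight_eq_one [Finite Γ] [Fintype β] (h : Shk Γ β 4) (hβ : Fintype.card β = 11) (y : Fin 3 ↪ β)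
    (k : Γ) (hk : ∀ i, k • y i = y i) : k ^ 8 = 1 := by
  classical
  let K : Subgroup Γ := MulAction.stabilizer Γ y
  have hkK : k ∈ K := by
    change k • y = y
    ext i
    exact hk i
  have hmem : ∀ k' : K, ∀ i, (k' : Γ) • y i = y i := by
    rintro ⟨k', hk'⟩ i
    have h1 : k' • y = y := hk'
    exact DFunLike.congr_fun h1 i
  obtain ⟨u, hu⟩ : ∃ u, u ∉ Set.range y := by
    by_contra hc
    push Not at hc
    have hs : Function.Surjective y := hc
    have := Fintype.card_le_of_surjective y hs
    simp [hβ] at this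
  let C := {v : β // v ∉ Set.range y}
  have hC : Nat.card C = 8 := by
    rw [Nat.card_eq_fintype_card]
    have h1 : Fintype.card C = Fintype.card β - Fintype.card (Set.range y) := by
      exact Fintype.card_compl_set _
    have h2 : Fintype.card (Set.range y) = 3 := by
      rw [Set.card_range_of_injective y.injective]; simp
    rw [h1, h2, hβ]
  let f : K → C := fun k' => ⟨(k' : Γ) • u, by
    rintro ⟨i, hi⟩
    apply hu
    refine ⟨i, ?_⟩
    have h1 := hmem k' i
    rw [← h1] at hi
    exact MulAction.injective (k' : Γ) hi⟩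
  have hf : Function.Bijective f := by
    constructor
    · intro k1 k2 e
      apply Subtype.ext
      apply h.eq_of_fix_three y hu
      · intro i; rw [hmem, hmem]
      · exact congrArg Subtype.val e
    · rintro ⟨v, hv⟩
      obtain ⟨k', hk1, hk2⟩ := h.exists_fix_three y hu hv
      have : k' ∈ K := by
        change k' • y = y
        ext i
        exact hk1 i
      exact ⟨⟨k', this⟩, Subtype.ext hk2⟩
  have hK : Nat.card K = 8 := by
    rw [Nat.card_congr (Equiv.ofBijective f hf), hC]
  have := pow_card_eq_one' (x := (⟨k, hkK⟩ : K))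
  rw [hK] at this
  simpa using congrArg Subtype.val this

/-- in degree at least 6: moving a point while fixing at most two others, inside `N` -/
theorem Shk.exists_move [Fintype β] (h : Shk Γ β 4) (hβ : 7 ≤ Fintype.card β) (N : Subgroup Γ)
    (hN : ∀ (y : Fin 3 ↪ β) (k : Γ), (∀ i, k • y i = y i) → k ∈ N)
    (F : Finset β) (hF : F.card ≤ 3) {u v : β} (hu : u ∉ F) (hv : v ∉ F) :
    ∃ k ∈ N, (∀ p ∈ F, k • p = p) ∧ k • u = v := by
  classical
  have h1 : F ⊆ univ \ {u, v} := by
    intro p hp
    simp only [mem_sdiff, mem_univ, mem_insert, mem_singleton, true_and, not_or]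
    exact ⟨fun e => hu (e ▸ hp), fun e => hv (e ▸ hp)⟩
  have h2 : 3 ≤ (univ \ {u, v} : Finset β).card := by
    have h3 : ({u, v} : Finset β).card ≤ 2 := Finset.card_le_two
    have h4 := Finset.card_sdiff_of_subset (Finset.subset_univ ({u, v} : Finset β))
    rw [Finset.card_univ] at h4
    omega
  obtain ⟨T, hFT, hT, hTc⟩ := Finset.exists_subsuperset_card_eq h1 hF h2
  let e := T.equivFinOfCardEq hTc
  let y : Fin 3 ↪ β := e.symm.toEmbedding.trans (Function.Embedding.subtype _)
  have hy : ∀ p, p ∈ T → ∃ i, y i = p := by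
    intro p hp
    exact ⟨e ⟨p, hp⟩, by simp [y]⟩
  have hyT : ∀ i, y i ∈ T := fun i => (e.symm i).2
  have hTu : ∀ p ∈ T, p ≠ u ∧ p ≠ v := by
    intro p hp
    have := hT hp
    simpa using this
  have hu' : u ∉ Set.range y := by
    rintro ⟨i, hi⟩
    exact (hTu _ (hyT i)).1 hi
  have hv' : v ∉ Set.range y := by
    rintro ⟨i, hi⟩
    exact (hTu _ (hyT i)).2 hi
  obtain ⟨k, hk1, hk2⟩ := h.exists_fix_three y hu' hv'
  refine ⟨k, hN y k hk1, ?_, hk2⟩
  intro p hp
  obtain ⟨i, rfl⟩ := hy p (hFT hp)
  exact hk1 i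

/-- a normal subgroup containing all three-point stabilisers is everything -/
theorem Shk.eq_top_of_contains [Fintype β] (h : Shk Γ β 4) (hβ : 7 ≤ Fintype.card β) (N : Subgroup Γ)
    (hN : ∀ (y : Fin 3 ↪ β) (k : Γ), (∀ i, k • y i = y i) → k ∈ N) : N = ⊤ := by
  classical
  obtain ⟨x⟩ : Nonempty (Fin 3 ↪ β) := Function.Embedding.nonempty_of_card_le (by simp; omega)
  rw [eq_top_iff]
  intro g _
  obtain ⟨k1, hk1, -, hk1'⟩ := h.exists_move hβ N hN ∅ (by simp) (u := x 0) (v := g • x 0) (by simp) (by simp)
  let g1 := k1⁻¹ * g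
  have hg1 : g1 • x 0 = x 0 := by simp [g1, mul_smul, ← hk1']
  have hne10 : x 1 ≠ x 0 := fun e => by simpa using x.injective e
  have hne20 : x 2 ≠ x 0 := fun e => by simpa using x.injective e
  have hne21 : x 2 ≠ x 1 := fun e => by simpa using x.injective e
  obtain ⟨k2, hk2, hk2f, hk2'⟩ := h.exists_move hβ N hN {x 0} (by simp) (u := x 1) (v := g1 • x 1)
    (by simpa using hne10) (by
      simp only [mem_singleton]
      intro e
      rw [← hg1] at e
      exact hne10 (MulAction.injective g1 e))
  have hk20 : k2 • x 0 = x 0 := hk2f _ (by simp)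
  let g2 := k2⁻¹ * g1
  have hg20 : g2 • x 0 = x 0 := by
    simp only [g2, mul_smul, hg1]
    rw [inv_smul_eq_iff, hk20]
  have hg21 : g2 • x 1 = x 1 := by simp [g2, mul_smul, ← hk2']
  obtain ⟨k3, hk3, hk3f, hk3'⟩ := h.exists_move hβ N hN {x 0, x 1} (Finset.card_le_two.trans (by norm_num))
    (u := x 2) (v := g2 • x 2)
    (by simp [hne20, hne21]) (by
      simp only [mem_insert, mem_singleton, not_or]
      constructor
      · intro e
        rw [← hg20] at e
        exact hne20 (MulAction.injective g2 e)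
      · intro e
        rw [← hg21] at e
        exact hne21 (MulAction.injective g2 e))
  have hk30 : k3 • x 0 = x 0 := hk3f _ (by simp)
  have hk31 : k3 • x 1 = x 1 := hk3f _ (by simp)
  let g3 := k3⁻¹ * g2
  have hg3 : g3 ∈ N := by
    apply hN x g3
    intro i
    fin_cases i
    · change g3 • x 0 = x 0
      simp only [g3, mul_smul, hg20]
      rw [inv_smul_eq_iff, hk30]
    · change g3 • x 1 = x 1
      simp only [g3, mul_smul, hg21]
      rw [inv_smul_eq_iff, hk31]
    · change g3 • x 2 = x 2
      simp [g3, mul_smul, ← hk3']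
  have e : g = k1 * (k2 * (k3 * g3)) := by simp [g1, g2, g3]
  rw [e]
  exact N.mul_mem hk1 (N.mul_mem hk2 (N.mul_mem hk3 hg3))

/-- A sharply 4-transitive group of degree 11 is simple of order 7920. -/
theorem Shk.m11 [Finite Γ] [Fintype β] (h : Shk Γ β 4) (hβ : Fintype.card β = 11) :
    IsSimpleGroup Γ ∧ Nat.card Γ = 7920 := by
  classical
  have hcard : Nat.card Γ = 11 * 720 := by rw [h.card_group (by omega), hβ]; decide
  obtain ⟨x⟩ : Nonempty (Fin 4 ↪ β) := Function.Embedding.nonempty_of_card_le (by simp; omega)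
  have hfaith := h.faithful x
  have hp11 : Fact (Nat.Prime 11) := ⟨by norm_num⟩
  have hmulti := h.isMulti
  have h2 : MulAction.IsMultiplyPretransitive Γ β 2 :=
    MulAction.isMultiplyPretransitive_of_le (n := 4) (by norm_num) (by simp; omega)
  have hprim : MulAction.IsPreprimitive Γ β := MulAction.isPreprimitive_of_is_two_pretransitive h2
  refine ⟨?_, by rw [hcard]⟩
  have hnt : Nontrivial Γ := by
    rw [← Finite.one_lt_card_iff_nontrivial, hcard]; norm_num
  refine ⟨?_⟩
  intro N hNn
  by_cases hbot : N = ⊥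
  · exact Or.inl hbot
  right
  have hfix : MulAction.fixedPoints N β ≠ Set.univ := by
    intro hf
    apply hbot
    rw [eq_bot_iff]
    intro g hg
    rw [Subgroup.mem_bot]
    apply FaithfulSMul.eq_of_smul_eq_smul (α := β)
    intro p
    have : p ∈ MulAction.fixedPoints N β := by rw [hf]; trivial
    have := this ⟨g, hg⟩
    rw [one_smul]
    exact this
  have htr : MulAction.IsPretransitive N β := MulAction.IsQuasiPreprimitive.isPretransitive_of_normal hfix
  have h11 : 11 ∣ Nat.card N := by
    have h3 := MulAction.index_stabilizer_of_transitive (G := N) (X := β) (x 0)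
    rw [Nat.card_eq_fintype_card, hβ] at h3
    rw [← h3]
    exact Subgroup.index_dvd_card _
  let P : Sylow 11 N := default
  have hP11 : 11 ∣ Nat.card P := P.dvd_card_of_dvd_card h11
  have hPd : Nat.card P ∣ 11 * 720 := by
    rw [← hcard]
    exact (Subgroup.card_subgroup_dvd_card _).trans (Subgroup.card_subgroup_dvd_card N)
  have hP : Nat.card P = 11 := by
    obtain ⟨j, hj⟩ := (IsPGroup.iff_card).1 P.isPGroup'
    have hj1 : j = 1 := by
      rcases j with _ | _ | j
      · rw [hj] at hP11; norm_num at hP11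
      · rfl
      · exfalso
        rw [hj] at hPd
        have h4 : 11 ^ 2 ∣ 11 * 720 := (pow_dvd_pow 11 (by omega)).trans hPd
        norm_num at h4
    rw [hj, hj1, pow_one]
  let Q : Subgroup Γ := (P : Subgroup N).map N.subtype
  have hQ : Nat.card Q = 11 := by
    rw [Subgroup.card_map_of_injective N.subtype_injective]
    exact hP
  obtain ⟨m, n, hm, hN1, hn, hr⟩ := exists_sylow_count (Γ := Γ) (β := β) (p := 11) hβ Q hQ hcard (by norm_num)
  have hm5 : m = 5 := by
    have hm10 : m ≤ 10 := Nat.le_of_dvd (by norm_num) hm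
    have hm' : m ∣ 10 := hm
    interval_cases m <;> first | rfl | omega | (exfalso; revert hm'; decide)
  rw [hm5] at hN1
  have hF : Subgroup.normalizer (Q : Set Γ) ⊔ N = ⊤ := Sylow.normalizer_sup_eq_top P
  have hidx : N.index ∣ 55 := by
    have h5 : N.relIndex (N ⊔ Subgroup.normalizer (Q : Set Γ)) = N.relIndex (Subgroup.normalizer (Q : Set Γ)) :=
      Subgroup.relIndex_sup_left _ _
    rw [sup_comm, hF, Subgroup.relIndex_top_right] at h5
    rw [h5]
    have := Subgroup.relIndex_dvd_card N (Subgroup.normalizer (Q : Set Γ))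
    rwa [hN1] at this
  obtain ⟨c, hc⟩ := hidx
  apply h.eq_top_of_contains (by omega) N
  intro y k hk
  have h8 := h.pow_eight_eq_one hβ y k hk
  have h55 : k ^ 55 ∈ N := by
    rw [hc, pow_mul]
    exact N.pow_mem (N.pow_index_mem k) c
  have e : k = (k ^ 55)⁻¹ := by
    have h56 : k ^ 56 = 1 := by
      rw [show 56 = 8 * 7 by norm_num, pow_mul, h8, one_pow]
    have h57 : k * k ^ 55 = 1 := by
      rw [← pow_succ', h56]
    exact eq_inv_of_mul_eq_one_left h57
  rw [e]
  exact N.inv_mem h55

end m11

section m12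

variable {Γ β : Type*} [Group Γ] [MulAction Γ β]

/-- A sharply 5-transitive group of degree 12 is simple of order 95040. -/
theorem Shk.m12 [Finite Γ] [Fintype β] (h : Shk Γ β 5) (hβ : Fintype.card β = 12) :
    IsSimpleGroup Γ ∧ Nat.card Γ = 95040 := by
  classical
  have hcard : Nat.card Γ = 95040 := by rw [h.card_group (by omega), hβ]; decide
  obtain ⟨x⟩ : Nonempty (Fin 5 ↪ β) := Function.Embedding.nonempty_of_card_le (by simp; omega)
  have hfaith := h.faithful x
  have hmulti := h.isMulti
  have h2 : MulAction.IsMultiplyPretransitive Γ β 2 :=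
    MulAction.isMultiplyPretransitive_of_le (n := 5) (by norm_num) (by simp; omega)
  have hprim : MulAction.IsPreprimitive Γ β := MulAction.isPreprimitive_of_is_two_pretransitive h2
  refine ⟨?_, hcard⟩
  have hnt : Nontrivial Γ := by
    rw [← Finite.one_lt_card_iff_nontrivial, hcard]; norm_num
  refine ⟨?_⟩
  intro N hNn
  by_cases hbot : N = ⊥
  · exact Or.inl hbot
  right
  have hfix : MulAction.fixedPoints N β ≠ Set.univ := by
    intro hf
    apply hbot
    rw [eq_bot_iff]
    intro g hg
    rw [Subgroup.mem_bot]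
    apply FaithfulSMul.eq_of_smul_eq_smul (α := β)
    intro p
    have : p ∈ MulAction.fixedPoints N β := by rw [hf]; trivial
    have := this ⟨g, hg⟩
    rw [one_smul]
    exact this
  have htr : MulAction.IsPretransitive N β := MulAction.IsQuasiPreprimitive.isPretransitive_of_normal hfix
  let a := x 0
  letI := Fintype.ofFinite (SubMulAction.ofStabilizer Γ a)
  have hc := card_ofStabilizer (Γ := Γ) a
  have hS := ((h.stabilizer a).m11 (by omega)).1
  have hNa : (N.subgroupOf (MulAction.stabilizer Γ a)).Normal := Subgroup.normal_subgroupOf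
  rcases hS.eq_bot_or_eq_top_of_normal _ hNa with hb | ht
  · -- N ∩ Γ_a = 1, N regular
    exfalso
    have hfree : ∀ g ∈ N, g • a = a → g = 1 := by
      intro g hg hga
      have : (⟨g, hga⟩ : MulAction.stabilizer Γ a) ∈ N.subgroupOf (MulAction.stabilizer Γ a) := hg
      rw [hb, Subgroup.mem_bot] at this
      exact congrArg Subtype.val this
    have hNc : Nat.card N = 12 := by
      have h3 := MulAction.index_stabilizer_of_transitive (G := N) (X := β) a
      rw [Nat.card_eq_fintype_card, hβ] at h3
      have h4 : MulAction.stabilizer N a = ⊥ := by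
        rw [eq_bot_iff]
        rintro ⟨g, hg⟩ hgs
        rw [Subgroup.mem_bot]
        exact Subtype.ext (hfree g hg hgs)
      rw [h4, Subgroup.index_bot] at h3
      exact h3
    have hp2 : Fact (Nat.Prime 2) := ⟨by norm_num⟩
    have hp3 : Fact (Nat.Prime 3) := ⟨by norm_num⟩
    obtain ⟨s, hs⟩ := exists_prime_orderOf_dvd_card' (G := N) 2 (by rw [hNc]; norm_num)
    obtain ⟨t, ht⟩ := exists_prime_orderOf_dvd_card' (G := N) 3 (by rw [hNc]; norm_num)
    have hs2 : (s : Γ) ^ 2 = 1 := by
      have := pow_orderOf_eq_one s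
      rw [hs] at this
      simpa using congrArg Subtype.val this
    have ht1 : (t : Γ) ≠ 1 := by
      intro e
      have : t = 1 := Subtype.ext e
      rw [this, orderOf_one] at ht
      norm_num at ht
    have ht3 : (t : Γ) ^ 3 = 1 := by
      have := pow_orderOf_eq_one t
      rw [ht] at this
      simpa using congrArg Subtype.val this
    have hs1 : (s : Γ) ≠ 1 := by
      intro e
      have : s = 1 := Subtype.ext e
      rw [this, orderOf_one] at hs
      norm_num at hs
    have hsa : (s : Γ) • a ≠ a := fun e => hs1 (hfree _ s.2 e)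
    have hta : (t : Γ) • a ≠ a := fun e => ht1 (hfree _ t.2 e)
    obtain ⟨u, hu1, hu2⟩ := MulAction.is_two_pretransitive_iff.mp h2 hsa.symm hta.symm
    have hz : u * (s : Γ) * u⁻¹ = t := by
      have h5 : ((t : Γ)⁻¹ * (u * (s : Γ) * u⁻¹)) = 1 := by
        apply hfree
        · exact N.mul_mem (N.inv_mem t.2) (hNn.conj_mem _ s.2 u)
        · rw [mul_smul, mul_smul, mul_smul]
          have : u⁻¹ • a = a := by
            rw [inv_smul_eq_iff, hu1]
          rw [this, hu2, inv_smul_smul]
      calc u * (s : Γ) * u⁻¹ = t * ((t : Γ)⁻¹ * (u * (s : Γ) * u⁻¹)) := by group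
        _ = t := by rw [h5, mul_one]
    have h6 : (t : Γ) ^ 2 = 1 := by
      rw [← hz, conj_pow, hs2]; group
    apply ht1
    calc (t : Γ) = (t : Γ) ^ 3 * ((t : Γ) ^ 2)⁻¹ := by group
      _ = 1 := by rw [ht3, h6]; group
  · -- Γ_a ≤ N
    rw [eq_top_iff]
    intro g _
    obtain ⟨n, hn⟩ := MulAction.exists_smul_eq N a (g • a)
    have hn' : (n : Γ) • a = g • a := hn
    have h7 : (n : Γ)⁻¹ * g ∈ MulAction.stabilizer Γ a := by
      rw [MulAction.mem_stabilizer_iff, mul_smul, ← hn', inv_smul_smul]
    have h8 : (⟨_, h7⟩ : MulAction.stabilizer Γ a) ∈ N.subgroupOf (MulAction.stabilizer Γ a) := by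
      rw [ht]; trivial
    have h9 : (n : Γ)⁻¹ * g ∈ N := h8
    have e : g = n * ((n : Γ)⁻¹ * g) := by group
    rw [e]
    exact N.mul_mem n.2 h9

end m12

end Cfsg.Agent.Lib.Misc19.Sharp
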