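import Mathlib

/-! The rank-one Steinberg presentation of `SL₂` over a finite field. -/

set_option autoImplicit false

namespace Cfsg.Agent.Lib.Misc19.SteinbergRankOne

/-- Generators satisfying additivity and the Weyl conjugation relation. -/
structure Data (K Γ : Type*) [Field K] [Group Γ] where
  x : K → Γ
  y : K → Γ
  hx : ∀ t u, x t * x u = x (t + u)
  hy : ∀ t u, y t * y u = y (t + u)
  R : ∀ t u, t ≠ 0 → (x t * y (-t⁻¹) * x t) * x u * (x t * y (-t⁻¹) * x t)⁻¹ = y (-(t⁻¹ ^ 2 * u))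

/-- The existence of a nonsquare whose complement to one is a nonsquare. -/
theorem exists_nonsq_compl {K : Type*} [Field K] [Finite K] (g : K) (hg : ¬ IsSquare g) : ∃ t : K, ¬ IsSquare t ∧ ¬ IsSquare (1 - t) := by
  classical
  by_contra hcon
  push Not at hcon
  have hg0 : g ≠ 0 := by
    rintro rfl
    exact hg (IsSquare.zero)
  -- the map on nonzero squares
  let S := {s : K // s ≠ 0 ∧ IsSquare s}
  have hmap : ∀ s : S, (1 - g * s.1) ≠ 0 ∧ IsSquare (1 - g * s.1) := by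
    rintro ⟨s, hs0, hs⟩
    have hnon : ¬ IsSquare (g * s) := by
      intro h
      apply hg
      have : g = (g * s) * s⁻¹ := by field_simp
      rw [this]
      exact h.mul hs.inv
    refine ⟨?_, hcon _ hnon⟩
    intro h
    apply hnon
    have : g * s = 1 := by
      have h2 : 1 - g * s + g * s = 0 + g * s := by rw [h]
      rw [sub_add_cancel, zero_add] at h2
      exact h2.symm
    rw [this]
    exact IsSquare.one
  let f : S → S := fun s => ⟨1 - g * s.1, hmap s⟩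
  have hf : Function.Injective f := by
    intro a b hab
    have h := congrArg Subtype.val hab
    change 1 - g * a.1 = 1 - g * b.1 at h
    have h2 : g * a.1 = g * b.1 := sub_right_injective h
    exact Subtype.ext (mul_left_cancel₀ hg0 h2)
  have hsurj := Finite.injective_iff_surjective.mp hf
  obtain ⟨a, ha⟩ := hsurj ⟨1, one_ne_zero, IsSquare.one⟩
  have h := congrArg Subtype.val ha
  change 1 - g * a.1 = 1 at h
  have h2 : g * a.1 = 0 := by
    have h3 : 1 - g * a.1 = 1 - 0 := by rw [h, sub_zero]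
    exact sub_right_injective h3
  exact (mul_ne_zero hg0 a.2.1) h2

namespace Data

variable {K Γ : Type*} [Field K] [Group Γ] (D : Data K Γ)

/-- `w(t)`. -/
def n (t : K) : Γ := D.x t * D.y (-t⁻¹) * D.x t

theorem x_zero : D.x 0 = 1 := by
  have h := D.hx 0 0
  rw [add_zero] at h
  exact mul_eq_left.mp h

theorem y_zero : D.y 0 = 1 := by
  have h := D.hy 0 0
  rw [add_zero] at h
  exact mul_eq_left.mp h

theorem x_neg (t : K) : D.x (-t) = (D.x t)⁻¹ := by
  rw [eq_inv_iff_mul_eq_one, D.hx, neg_add_cancel, D.x_zero]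

theorem y_neg (t : K) : D.y (-t) = (D.y t)⁻¹ := by
  rw [eq_inv_iff_mul_eq_one, D.hy, neg_add_cancel, D.y_zero]

theorem n_inv (t : K) : (D.n t)⁻¹ = D.n (-t) := by
  unfold n
  rw [mul_inv_rev, mul_inv_rev, ← D.x_neg, ← D.y_neg, inv_neg, neg_neg, mul_assoc]

theorem conj_x {t : K} (u : K) (ht : t ≠ 0) : D.n t * D.x u * (D.n t)⁻¹ = D.y (-(t⁻¹ ^ 2 * u)) :=
  D.R t u ht

theorem conj_y {t : K} (v : K) (ht : t ≠ 0) : D.n t * D.y v * (D.n t)⁻¹ = D.x (-(t ^ 2 * v)) := by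
  have h := D.conj_x (t := -t) (-(t ^ 2 * v)) (neg_ne_zero.mpr ht)
  rw [← D.n_inv, inv_inv] at h
  have e : -((-t)⁻¹ ^ 2 * -(t ^ 2 * v)) = v := by
    field_simp
  rw [e] at h
  rw [← h]
  group

theorem n_eq_w {t : K} (ht : t ≠ 0) : D.n t = D.y (-t⁻¹) * D.x t * D.y (-t⁻¹) := by
  have h1 := D.conj_x (t := t) t ht
  have h2 := D.conj_y (t := t) (-t⁻¹) ht
  have e1 : -(t⁻¹ ^ 2 * t) = -t⁻¹ := by field_simp
  have e2 : -(t ^ 2 * -t⁻¹) = t := by field_simp
  rw [e1] at h1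
  rw [e2] at h2
  calc D.n t = D.n t * D.n t * (D.n t)⁻¹ := by group
    _ = (D.n t * D.x t * (D.n t)⁻¹) * (D.n t * D.y (-t⁻¹) * (D.n t)⁻¹) * (D.n t * D.x t * (D.n t)⁻¹) := by
        conv_lhs => rw [show D.n t * D.n t = D.n t * (D.x t * D.y (-t⁻¹) * D.x t) from rfl]
        group
    _ = _ := by rw [h1, h2]

theorem n_conj_n {t s : K} (ht : t ≠ 0) (hs : s ≠ 0) : D.n t * D.n s * (D.n t)⁻¹ = D.n (t ^ 2 * s⁻¹) := by
  have h1 := D.conj_x (t := t) s ht
  have h2 := D.conj_y (t := t) (-s⁻¹) ht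
  have h3 : t ^ 2 * s⁻¹ ≠ 0 := mul_ne_zero (pow_ne_zero _ ht) (inv_ne_zero hs)
  rw [D.n_eq_w h3]
  have e1 : -(t ^ 2 * s⁻¹)⁻¹ = -(t⁻¹ ^ 2 * s) := by field_simp
  have e2 : t ^ 2 * s⁻¹ = -(t ^ 2 * -s⁻¹) := by ring
  rw [e1]
  conv_rhs => rw [e2]
  rw [← h1, ← h2]
  conv_lhs => rw [show D.n s = D.x s * D.y (-s⁻¹) * D.x s from rfl]
  group

/-- `ν = w(1)`. -/
def ν : Γ := D.n 1

/-- `h(t) = w(t) w(1)⁻¹`. -/
def h (t : K) : Γ := D.n t * (D.ν)⁻¹

theorem n_eq (t : K) : D.n t = D.h t * D.ν := by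
  unfold h
  group

theorem h_one : D.h (1 : K) = 1 := by
  unfold h ν
  group

theorem ν_inv : (D.ν)⁻¹ = D.n (-1 : K) := D.n_inv 1

theorem h_conj_x {t : K} (u : K) (ht : t ≠ 0) : D.h t * D.x u * (D.h t)⁻¹ = D.x (t ^ 2 * u) := by
  have h1 := D.conj_x (t := (-1 : K)) u (by simp)
  have h2 := D.conj_y (t := t) (-u) ht
  have e1 : -((-1 : K)⁻¹ ^ 2 * u) = -u := by simp
  have e2 : -(t ^ 2 * -u) = t ^ 2 * u := by ring
  rw [e1, ← D.ν_inv, inv_inv] at h1
  rw [e2, ← h1] at h2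
  rw [← h2]
  unfold h
  group

theorem h_conj_y {t : K} (v : K) (ht : t ≠ 0) : D.h t * D.y v * (D.h t)⁻¹ = D.y (t⁻¹ ^ 2 * v) := by
  have h1 := D.conj_y (t := (-1 : K)) v (by simp)
  have h2 := D.conj_x (t := t) (-v) ht
  have e1 : -((-1 : K) ^ 2 * v) = -v := by simp
  have e2 : -(t⁻¹ ^ 2 * -v) = t⁻¹ ^ 2 * v := by ring
  rw [e1, ← D.ν_inv, inv_inv] at h1
  rw [e2, ← h1] at h2
  rw [← h2]
  unfold h
  group

theorem ν_h {t : K} (ht : t ≠ 0) : D.ν * D.h t * (D.ν)⁻¹ = D.h t⁻¹ := by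
  have h1 := D.n_conj_n (t := (1 : K)) (s := t) one_ne_zero ht
  rw [one_pow, one_mul] at h1
  change D.ν * D.n t * (D.ν)⁻¹ = D.n t⁻¹ at h1
  unfold h
  rw [← h1]
  group

theorem h_n {t s : K} (ht : t ≠ 0) (hs : s ≠ 0) : D.h t * D.n s * (D.h t)⁻¹ = D.n (t ^ 2 * s) := by
  have h1 := D.n_conj_n (t := (-1 : K)) (s := s) (by simp) hs
  have h2 := D.n_conj_n (t := t) (s := s⁻¹) ht (inv_ne_zero hs)
  rw [inv_inv] at h2
  have e : (-1 : K) ^ 2 * s⁻¹ = s⁻¹ := by simp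
  rw [e, ← D.ν_inv, inv_inv] at h1
  rw [← h2, ← h1]
  unfold h
  group

theorem y_form {v : K} (hv : v ≠ 0) : D.y v = D.x v⁻¹ * D.n (-v⁻¹) * D.x v⁻¹ := by
  unfold n
  have e : -(-v⁻¹)⁻¹ = v := by simp
  rw [e, D.x_neg]
  group

theorem ν_sq : D.ν * D.ν = (D.h (-1 : K))⁻¹ := by
  unfold h
  rw [← D.ν_inv, mul_inv_rev, inv_inv]

/-- The Kubota-type relation. -/
theorem kubota {u v : K} (hu : u ≠ 0) (hv : v ≠ 0) (huv : u + v = 1) :
    D.n (v * u⁻¹) * D.n (-u⁻¹) * D.n (-v⁻¹) = D.n (-1 : K) := by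
  have hL : D.y u * D.y v = D.x 1 * (D.n (v * u⁻¹) * D.n (-u⁻¹) * D.n (-v⁻¹)) * D.x 1 := by
    -- the first commutation
    have hr : u⁻¹ + v⁻¹ ≠ 0 := by
      have : u⁻¹ + v⁻¹ = (u * v)⁻¹ := by
        field_simp
        rw [add_comm, huv]
      rw [this]
      exact inv_ne_zero (mul_ne_zero hu hv)
    have h1 := D.conj_x (t := -u⁻¹) (u⁻¹ + v⁻¹) (neg_ne_zero.mpr (inv_ne_zero hu))
    have e1 : -((-u⁻¹)⁻¹ ^ 2 * (u⁻¹ + v⁻¹)) = -(u * v⁻¹) := by
      have : v = 1 - u := by rw [← huv]; ring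
      field_simp
      rw [this]
      ring
    rw [e1] at h1
    have hr2 : -(u * v⁻¹) ≠ 0 := neg_ne_zero.mpr (mul_ne_zero hu (inv_ne_zero hv))
    have h2 := D.y_form hr2
    have e2 : (-(u * v⁻¹))⁻¹ = -(v * u⁻¹) := by field_simp
    have e3 : -(-(u * v⁻¹))⁻¹ = v * u⁻¹ := by field_simp
    rw [e3, e2] at h2
    -- the second commutation
    have c1 := D.conj_x (t := u⁻¹) (-(v * u⁻¹)) (inv_ne_zero hu)
    have e4 : -(u⁻¹⁻¹ ^ 2 * -(v * u⁻¹)) = u * v := by field_simp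
    rw [e4, D.n_inv, show D.n u⁻¹ = (D.n (-u⁻¹))⁻¹ by rw [D.n_inv, neg_neg]] at c1
    have c2 := D.conj_y (t := v⁻¹) (u * v) (inv_ne_zero hv)
    have e5 : -(v⁻¹ ^ 2 * (u * v)) = -(u * v⁻¹) := by field_simp
    rw [e5, D.n_inv, show D.n v⁻¹ = (D.n (-v⁻¹))⁻¹ by rw [D.n_inv, neg_neg]] at c2
    have h4 : D.x (-(v * u⁻¹)) * D.n (-u⁻¹) * D.n (-v⁻¹) = D.n (-u⁻¹) * D.n (-v⁻¹) * D.x (-(u * v⁻¹)) := by
      rw [← c2, ← c1]
      group
    have h1' : D.n (-u⁻¹) * D.x (u⁻¹ + v⁻¹) = D.y (-(u * v⁻¹)) * D.n (-u⁻¹) := by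
      rw [← h1]
      group
    have e6 : u⁻¹ + -(v * u⁻¹) = 1 := by
      have : v = 1 - u := by rw [← huv]; ring
      field_simp
      rw [this]
      ring
    have e7 : -(u * v⁻¹) + v⁻¹ = 1 := by
      have : u = 1 - v := by rw [← huv]; ring
      field_simp
      rw [this]
      ring
    calc D.y u * D.y v
        = D.x u⁻¹ * (D.n (-u⁻¹) * (D.x u⁻¹ * D.x v⁻¹)) * D.n (-v⁻¹) * D.x v⁻¹ := by
          rw [D.y_form hu, D.y_form hv]
          group
      _ = D.x u⁻¹ * (D.y (-(u * v⁻¹)) * D.n (-u⁻¹)) * D.n (-v⁻¹) * D.x v⁻¹ := by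
          rw [D.hx, h1']
      _ = D.x u⁻¹ * (D.x (-(v * u⁻¹)) * D.n (v * u⁻¹) * D.x (-(v * u⁻¹))) * D.n (-u⁻¹) * D.n (-v⁻¹) * D.x v⁻¹ := by
          rw [h2]
          group
      _ = (D.x u⁻¹ * D.x (-(v * u⁻¹))) * D.n (v * u⁻¹) * (D.x (-(v * u⁻¹)) * D.n (-u⁻¹) * D.n (-v⁻¹)) * D.x v⁻¹ := by
          group
      _ = (D.x u⁻¹ * D.x (-(v * u⁻¹))) * D.n (v * u⁻¹) * (D.n (-u⁻¹) * D.n (-v⁻¹) * D.x (-(u * v⁻¹))) * D.x v⁻¹ := by
          rw [h4]
      _ = (D.x u⁻¹ * D.x (-(v * u⁻¹))) * (D.n (v * u⁻¹) * D.n (-u⁻¹) * D.n (-v⁻¹)) * (D.x (-(u * v⁻¹)) * D.x v⁻¹) := by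
          group
      _ = _ := by
          rw [D.hx, D.hx, e6, e7]
  have hR : D.y (u + v) = D.x 1 * D.n (-1 : K) * D.x 1 := by
    rw [huv, D.y_form (one_ne_zero), inv_one]
  rw [D.hy, hR] at hL
  exact (mul_left_cancel (mul_right_cancel hL)).symm

/-- The defect `h(t) h(s) h(ts)⁻¹`. -/
def c (t s : K) : Γ := D.h t * D.h s * (D.h (t * s))⁻¹

theorem c_conj_x {t s : K} (ht : t ≠ 0) (hs : s ≠ 0) (u : K) : D.c t s * D.x u = D.x u * D.c t s := by
  have hts := mul_ne_zero ht hs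
  have h1 := D.h_conj_x (t := t * s) ((t * s)⁻¹ ^ 2 * u) hts
  have h2 := D.h_conj_x (t := s) ((t * s)⁻¹ ^ 2 * u) hs
  have h3 := D.h_conj_x (t := t) (s ^ 2 * ((t * s)⁻¹ ^ 2 * u)) ht
  have e1 : (t * s) ^ 2 * ((t * s)⁻¹ ^ 2 * u) = u := by field_simp
  have e2 : t ^ 2 * (s ^ 2 * ((t * s)⁻¹ ^ 2 * u)) = u := by field_simp
  rw [e1] at h1
  rw [e2] at h3
  rw [← h2] at h3
  have hc : D.c t s * D.x u * (D.c t s)⁻¹ = D.x u := by
    unfold c
    conv_lhs => rw [← h1]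
    conv_rhs => rw [← h3]
    group
  calc D.c t s * D.x u = (D.c t s * D.x u * (D.c t s)⁻¹) * D.c t s := by group
    _ = _ := by rw [hc]

theorem c_conj_y {t s : K} (ht : t ≠ 0) (hs : s ≠ 0) (v : K) : D.c t s * D.y v = D.y v * D.c t s := by
  have hts := mul_ne_zero ht hs
  have h1 := D.h_conj_y (t := t * s) ((t * s) ^ 2 * v) hts
  have h2 := D.h_conj_y (t := s) ((t * s) ^ 2 * v) hs
  have h3 := D.h_conj_y (t := t) (s⁻¹ ^ 2 * ((t * s) ^ 2 * v)) ht
  have e1 : (t * s)⁻¹ ^ 2 * ((t * s) ^ 2 * v) = v := by field_simp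
  have e2 : t⁻¹ ^ 2 * (s⁻¹ ^ 2 * ((t * s) ^ 2 * v)) = v := by field_simp
  rw [e1] at h1
  rw [e2] at h3
  rw [← h2] at h3
  have hc : D.c t s * D.y v * (D.c t s)⁻¹ = D.y v := by
    unfold c
    conv_lhs => rw [← h1]
    conv_rhs => rw [← h3]
    group
  calc D.c t s * D.y v = (D.c t s * D.y v * (D.c t s)⁻¹) * D.c t s := by group
    _ = _ := by rw [hc]

section generated

variable (hgen : Subgroup.closure (Set.range D.x ∪ Set.range D.y) = ⊤)
include hgen

theorem c_central {t s : K} (ht : t ≠ 0) (hs : s ≠ 0) (g : Γ) : Commute (D.c t s) g := by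
  have hg : g ∈ Subgroup.closure (Set.range D.x ∪ Set.range D.y) := by
    rw [hgen]
    exact Subgroup.mem_top g
  induction hg using Subgroup.closure_induction with
  | mem a ha =>
    rcases ha with ⟨u, rfl⟩ | ⟨v, rfl⟩
    · exact D.c_conj_x ht hs u
    · exact D.c_conj_y ht hs v
  | one => exact Commute.one_right _
  | mul a b _ _ ha hb => exact ha.mul_right hb
  | inv a _ ha => exact ha.inv_right

variable [Finite K]

theorem h_comm {t s : K} (ht : t ≠ 0) (hs : s ≠ 0) : Commute (D.h t) (D.h s) := by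
  classical
  obtain ⟨g, hg⟩ := IsCyclic.exists_generator (α := Kˣ)
  have key : ∀ k : ℕ, ∃ Z : Γ, (∀ a, Commute Z a) ∧ D.h ((g : K) ^ k) = Z * D.h (g : K) ^ k := by
    intro k
    induction k with
    | zero => exact ⟨1, fun a => Commute.one_left a, by simp [D.h_one]⟩
    | succ k ih =>
      obtain ⟨Z, hZ, hk⟩ := ih
      have hgk : (g : K) ^ k ≠ 0 := pow_ne_zero _ g.ne_zero
      refine ⟨Z * (D.c ((g : K) ^ k) (g : K))⁻¹, ?_, ?_⟩
      · intro a
        exact (hZ a).mul_left ((D.c_central hgen hgk g.ne_zero a).inv_left)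
      · have h1 : D.h ((g : K) ^ k * g) = (D.c ((g : K) ^ k) (g : K))⁻¹ * (D.h ((g : K) ^ k) * D.h (g : K)) := by
          unfold c
          group
        rw [pow_succ, h1, hk, pow_succ]
        have h2 := D.c_central hgen hgk g.ne_zero (Z * D.h (g : K) ^ k * D.h (g : K))
        have h3 := h2.inv_left
        calc (D.c ((g : K) ^ k) (g : K))⁻¹ * (Z * D.h (g : K) ^ k * D.h (g : K))
            = (Z * D.h (g : K) ^ k * D.h (g : K)) * (D.c ((g : K) ^ k) (g : K))⁻¹ := h3.eq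
          _ = _ := by
            have h4 := (hZ (D.c ((g : K) ^ k) (g : K))⁻¹)
            have h5 : Commute (D.c ((g : K) ^ k) (g : K))⁻¹ (D.h (g : K) ^ k * D.h (g : K)) :=
              (D.c_central hgen hgk g.ne_zero _).inv_left
            rw [mul_assoc Z, mul_assoc Z, mul_assoc Z]
            congr 1
            exact h5.eq.symm
  have hrep : ∀ r : K, r ≠ 0 → ∃ k : ℕ, r = (g : K) ^ k := by
    intro r hr
    obtain ⟨k, hk⟩ := mem_powers_iff_mem_zpowers.mpr (hg (Units.mk0 r hr))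
    exact ⟨k, by
      have := congrArg Units.val hk
      simpa using this.symm⟩
  obtain ⟨a, rfl⟩ := hrep t ht
  obtain ⟨b, rfl⟩ := hrep s hs
  obtain ⟨Z₁, hZ₁, h1⟩ := key a
  obtain ⟨Z₂, hZ₂, h2⟩ := key b
  rw [h1, h2]
  refine Commute.mul_left ?_ ?_
  · exact hZ₁ _
  · refine Commute.mul_right ?_ ?_
    · exact (hZ₂ _).symm
    · exact (Commute.refl _).pow_pow _ _

/-- The rule for squares. -/
theorem h_sq_mul {t s : K} (ht : t ≠ 0) (hs : s ≠ 0) : D.h (t ^ 2 * s) = D.h (t ^ 2) * D.h s := by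
  have hti := inv_ne_zero ht
  have key : ∀ r : K, r ≠ 0 → D.h t * D.h r * (D.h t⁻¹)⁻¹ = D.h (t ^ 2 * r) := by
    intro r hr
    have h1 := D.h_n ht hr
    rw [D.n_eq, D.n_eq] at h1
    have h2 := D.ν_h ht
    have h3 : D.ν * (D.h t)⁻¹ = (D.h t⁻¹)⁻¹ * D.ν := by
      rw [← h2]
      group
    have h4 : D.h t * (D.h r * D.ν) * (D.h t)⁻¹ = D.h t * D.h r * (D.h t⁻¹)⁻¹ * D.ν := by
      rw [mul_assoc (D.h t * D.h r), ← h3]
      group
    rw [h4] at h1
    exact mul_right_cancel h1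
  have h1 := key s hs
  have h2 := key 1 one_ne_zero
  rw [D.h_one, mul_one, mul_one] at h2
  rw [← h1, ← h2]
  have h3 : Commute (D.h s) (D.h t⁻¹)⁻¹ := (D.h_comm hgen hs hti).inv_right
  rw [mul_assoc, h3.eq, ← mul_assoc]

theorem sq_rule {t s : K} (ht : t ≠ 0) (hs : s ≠ 0) (hsq : IsSquare t) : D.h (t * s) = D.h t * D.h s := by
  obtain ⟨e, rfl⟩ := hsq
  have he : e ≠ 0 := fun h => ht (by rw [h, mul_zero])
  have := D.h_sq_mul hgen he hs
  rwa [pow_two] at this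

/-- `h` is multiplicative. -/
theorem h_mul {t s : K} (ht : t ≠ 0) (hs : s ≠ 0) : D.h t * D.h s = D.h (t * s) := by
  classical
  haveI := Fintype.ofFinite K
  by_cases hts : IsSquare t
  · exact (D.sq_rule hgen ht hs hts).symm
  by_cases hss : IsSquare s
  · rw [mul_comm t s, D.sq_rule hgen hs ht hss]
    exact (D.h_comm hgen ht hs).eq
  -- nonsquares multiply to squares
  have hnn : ∀ a b : K, ¬ IsSquare a → ¬ IsSquare b → IsSquare (a * b) := by
    intro a b ha hb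
    have hb0 : b ≠ 0 := fun h => hb (by rw [h]; exact IsSquare.zero)
    have ha0 : a ≠ 0 := fun h => ha (by rw [h]; exact IsSquare.zero)
    have h1 := quadraticChar_neg_one_iff_not_isSquare.mpr ha
    have h2 := quadraticChar_neg_one_iff_not_isSquare.mpr hb
    rw [← quadraticChar_one_iff_isSquare (mul_ne_zero ha0 hb0), map_mul, h1, h2]
    norm_num
  have hsn : ∀ a b : K, b ≠ 0 → IsSquare b → ¬ IsSquare a → ¬ IsSquare (a * b) := by
    intro a b hb0 hb ha h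
    apply ha
    have : a = (a * b) * b⁻¹ := by field_simp
    rw [this]
    exact h.mul hb.inv
  have hinv : ∀ a : K, ¬ IsSquare a → ¬ IsSquare a⁻¹ := by
    intro a ha h
    exact ha (by rw [← inv_inv a]; exact h.inv)
  -- the key: one nonsquare with `h g h g = h (g ^ 2)`
  have hone : ∃ g : K, ¬ IsSquare g ∧ D.h g * D.h g = D.h (g * g) := by
    obtain ⟨u, hu, hv⟩ := exists_nonsq_compl t hts
    set v := 1 - u with hvdef
    have hu0 : u ≠ 0 := fun h => hu (by rw [h]; exact IsSquare.zero)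
    have hv0 : v ≠ 0 := fun h => hv (by rw [h]; exact IsSquare.zero)
    have huv : u + v = 1 := by rw [hvdef]; ring
    have hk := D.kubota hu0 hv0 huv
    -- translate
    have hui := inv_ne_zero hu0
    have hvi := inv_ne_zero hv0
    have h1 : D.h (v * u⁻¹) * D.h (-u) * D.h (-v⁻¹) = D.h (-1 : K) * D.h (-1 : K) := by
      rw [D.n_eq, D.n_eq, D.n_eq, D.n_eq] at hk
      have h2 := D.ν_h (t := -u⁻¹) (neg_ne_zero.mpr hui)
      have e : (-u⁻¹)⁻¹ = -u := by simp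
      rw [e] at h2
      have h3 : D.ν * D.h (-u⁻¹) = D.h (-u) * D.ν := by
        rw [← h2]
        group
      have h4 : D.h (v * u⁻¹) * D.ν * (D.h (-u⁻¹) * D.ν) * (D.h (-v⁻¹) * D.ν)
          = D.h (v * u⁻¹) * D.h (-u) * (D.ν * D.ν) * D.h (-v⁻¹) * D.ν := by
        calc _ = D.h (v * u⁻¹) * (D.ν * D.h (-u⁻¹)) * D.ν * (D.h (-v⁻¹) * D.ν) := by group
          _ = _ := by rw [h3]; group
      rw [h4, D.ν_sq] at hk
      have h5 := mul_right_cancel hk
      have hc : Commute (D.h (-1 : K))⁻¹ (D.h (-v⁻¹)) :=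
        (D.h_comm hgen (t := (-1 : K)) (s := -v⁻¹) (by simp) (neg_ne_zero.mpr hvi)).inv_left
      calc D.h (v * u⁻¹) * D.h (-u) * D.h (-v⁻¹)
          = D.h (v * u⁻¹) * D.h (-u) * (D.h (-v⁻¹) * (D.h (-1 : K))⁻¹) * D.h (-1 : K) := by group
        _ = D.h (v * u⁻¹) * D.h (-u) * ((D.h (-1 : K))⁻¹ * D.h (-v⁻¹)) * D.h (-1 : K) := by rw [hc.eq]
        _ = (D.h (v * u⁻¹) * D.h (-u) * (D.h (-1 : K))⁻¹ * D.h (-v⁻¹)) * D.h (-1 : K) := by group
        _ = _ := by rw [h5]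
    have hvu : IsSquare (v * u⁻¹) := hnn v u⁻¹ hv (hinv u hu)
    have hvu0 : v * u⁻¹ ≠ 0 := mul_ne_zero hv0 hui
    by_cases hm1 : IsSquare (-1 : K)
    · -- `-1` a square
      have hn1 : ¬ IsSquare (-u) := by
        have := hsn u (-1) (by simp) hm1 hu
        simpa using this
      have hn2 : ¬ IsSquare (-v) := by
        have := hsn v (-1) (by simp) hm1 hv
        simpa using this
      refine ⟨-v, hn2, ?_⟩
      have hv1 : -v ≠ 0 := neg_ne_zero.mpr hv0
      rw [← D.sq_rule hgen hvu0 (neg_ne_zero.mpr hu0) hvu] at h1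
      have e1 : v * u⁻¹ * -u = -v := by field_simp
      rw [e1] at h1
      have e2 : D.h (-1 : K) * D.h (-1 : K) = 1 := by
        rw [← D.sq_rule hgen (by simp) (by simp) hm1]
        simp [D.h_one]
      rw [e2] at h1
      -- now `h(a) h(a⁻¹) = 1`, `a = -v`
      have e3 : -v⁻¹ = (-v)⁻¹ := by simp
      rw [e3] at h1
      have hia : (-v)⁻¹ ≠ 0 := inv_ne_zero hv1
      have h6 : D.h (-v)⁻¹ = D.h ((-v)⁻¹ * (-v)⁻¹) * D.h (-v) := by
        rw [← D.sq_rule hgen (mul_ne_zero hia hia) hv1 ⟨_, rfl⟩]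
        congr 1
        field_simp
      have h7 : D.h ((-v)⁻¹ * (-v)⁻¹) * D.h (-v * -v) = 1 := by
        rw [← D.sq_rule hgen (mul_ne_zero hia hia) (mul_ne_zero hv1 hv1) ⟨_, rfl⟩]
        have : (-v)⁻¹ * (-v)⁻¹ * (-v * -v) = 1 := by field_simp
        rw [this, D.h_one]
      rw [h6] at h1
      have hc : Commute (D.h (-v)) (D.h ((-v)⁻¹ * (-v)⁻¹)) :=
        D.h_comm hgen hv1 (mul_ne_zero hia hia)
      have h8 : D.h ((-v)⁻¹ * (-v)⁻¹) * (D.h (-v) * D.h (-v)) = 1 := by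
        rw [← mul_assoc, ← hc.eq, mul_assoc]
        exact h1
      calc D.h (-v) * D.h (-v)
          = (D.h ((-v)⁻¹ * (-v)⁻¹))⁻¹ := eq_inv_of_mul_eq_one_right h8
        _ = D.h (-v * -v) := (eq_inv_of_mul_eq_one_right h7).symm
    · -- `-1` a nonsquare
      refine ⟨-1, hm1, ?_⟩
      have hq1 : IsSquare (-u) := by
        have := hnn u (-1) hu hm1
        simpa using this
      have hq2 : IsSquare (-v⁻¹) := by
        have := hnn v⁻¹ (-1) (hinv v hv) hm1
        simpa using this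
      rw [← D.sq_rule hgen hvu0 (neg_ne_zero.mpr hu0) hvu] at h1
      have e1 : v * u⁻¹ * -u = -v := by field_simp
      rw [e1] at h1
      have hq3 : IsSquare (-v) := by
        have := hnn v (-1) hv hm1
        simpa using this
      rw [← D.sq_rule hgen (neg_ne_zero.mpr hv0) (neg_ne_zero.mpr hvi) hq3] at h1
      have e2 : -v * -v⁻¹ = 1 := by field_simp
      rw [e2, D.h_one] at h1
      have e3 : (-1 : K) * -1 = 1 := by ring
      rw [e3, D.h_one]
      exact h1.symm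
  obtain ⟨g, hg, hgg⟩ := hone
  have hg0 : g ≠ 0 := fun h => hg (by rw [h]; exact IsSquare.zero)
  -- squares of nonsquares
  have hall : ∀ a : K, ¬ IsSquare a → D.h a * D.h a = D.h (a * a) := by
    intro a ha
    have ha0 : a ≠ 0 := fun h => ha (by rw [h]; exact IsSquare.zero)
    have hag : IsSquare (a * g⁻¹) := hnn a g⁻¹ ha (hinv g hg)
    have hag0 : a * g⁻¹ ≠ 0 := mul_ne_zero ha0 (inv_ne_zero hg0)
    have e : a = a * g⁻¹ * g := by field_simp
    have h1 : D.h a = D.h (a * g⁻¹) * D.h g := by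
      rw [← D.sq_rule hgen hag0 hg0 hag, ← e]
    have e2 : a * a = (a * g⁻¹) * (a * g⁻¹) * (g * g) := by field_simp
    have h2 : D.h (a * a) = D.h (a * g⁻¹) * D.h (a * g⁻¹) * D.h (g * g) := by
      rw [e2, D.sq_rule hgen (mul_ne_zero hag0 hag0) (mul_ne_zero hg0 hg0) ⟨_, rfl⟩,
        D.sq_rule hgen hag0 hag0 hag]
    rw [h2, ← hgg]
    have h3 : Commute (D.h g) (D.h (a * g⁻¹)) := D.h_comm hgen hg0 hag0
    conv_lhs => rw [h1]
    calc D.h (a * g⁻¹) * D.h g * (D.h (a * g⁻¹) * D.h g)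
        = D.h (a * g⁻¹) * (D.h g * D.h (a * g⁻¹)) * D.h g := by group
      _ = D.h (a * g⁻¹) * (D.h (a * g⁻¹) * D.h g) * D.h g := by rw [h3.eq]
      _ = _ := by group
  have hr : IsSquare (t * s⁻¹) := hnn t s⁻¹ hts (hinv s hss)
  have hr0 : t * s⁻¹ ≠ 0 := mul_ne_zero ht (inv_ne_zero hs)
  have e : t = t * s⁻¹ * s := by field_simp
  have h1 : D.h t = D.h (t * s⁻¹) * D.h s := by
    rw [← D.sq_rule hgen hr0 hs hr, ← e]
  conv_lhs => rw [h1]
  rw [mul_assoc, hall s hss, ← D.sq_rule hgen hr0 (mul_ne_zero hs hs) hr]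
  congr 1
  field_simp

/-- The inverse of `h`. -/
theorem h_inv {t : K} (ht : t ≠ 0) : (D.h t)⁻¹ = D.h t⁻¹ := by
  rw [inv_eq_iff_mul_eq_one, D.h_mul hgen ht (inv_ne_zero ht), mul_inv_cancel₀ ht, D.h_one]

/-- `x(a) h(t) = h(t) x(t⁻² a)`. -/
theorem x_h {t : K} (a : K) (ht : t ≠ 0) : D.x a * D.h t = D.h t * D.x (t⁻¹ ^ 2 * a) := by
  have h1 := D.h_conj_x (t := t) (t⁻¹ ^ 2 * a) ht
  have e : t ^ 2 * (t⁻¹ ^ 2 * a) = a := by field_simp
  rw [e] at h1
  rw [← h1]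
  group

theorem ν_mul_h {t : K} (ht : t ≠ 0) : D.ν * D.h t = D.h t⁻¹ * D.ν := by
  rw [← D.ν_h ht]
  group

/-- Bruhat normal forms. -/
def Normal (g : Γ) : Prop :=
  (∃ a t : K, t ≠ 0 ∧ g = D.x a * D.h t) ∨ (∃ a t b : K, t ≠ 0 ∧ g = D.x a * D.h t * D.ν * D.x b)

theorem normal_x {g : Γ} (u : K) (hg : D.Normal g) : D.Normal (D.x u * g) := by
  rcases hg with ⟨a, t, ht, rfl⟩ | ⟨a, t, b, ht, rfl⟩
  · exact Or.inl ⟨u + a, t, ht, by rw [← mul_assoc, D.hx]⟩
  · exact Or.inr ⟨u + a, t, b, ht, by rw [← D.hx]; group⟩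

theorem normal_h {g : Γ} {r : K} (hr : r ≠ 0) (hg : D.Normal g) : D.Normal (D.h r * g) := by
  have hx : ∀ a : K, D.h r * D.x a = D.x (r ^ 2 * a) * D.h r := by
    intro a
    rw [← D.h_conj_x a hr]
    group
  rcases hg with ⟨a, t, ht, rfl⟩ | ⟨a, t, b, ht, rfl⟩
  · refine Or.inl ⟨r ^ 2 * a, r * t, mul_ne_zero hr ht, ?_⟩
    rw [← mul_assoc, hx, mul_assoc, D.h_mul hgen hr ht]
  · refine Or.inr ⟨r ^ 2 * a, r * t, b, mul_ne_zero hr ht, ?_⟩
    rw [← D.h_mul hgen hr ht]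
    calc D.h r * (D.x a * D.h t * D.ν * D.x b) = (D.h r * D.x a) * D.h t * D.ν * D.x b := by group
      _ = _ := by rw [hx]; group

theorem normal_ν {g : Γ} (hg : D.Normal g) : D.Normal (D.ν * g) := by
  rcases hg with ⟨a, t, ht, rfl⟩ | ⟨a, t, b, ht, rfl⟩
  · refine Or.inr ⟨0, t⁻¹, t⁻¹ ^ 2 * a, inv_ne_zero ht, ?_⟩
    rw [D.x_zero, one_mul, D.x_h hgen a ht, ← mul_assoc, D.ν_mul_h hgen ht]
  · -- `νh(t)ν = h(-t⁻¹)`
    have hm : (-t⁻¹ : K) ≠ 0 := neg_ne_zero.mpr (inv_ne_zero ht)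
    have e0 : D.ν * D.h t * D.ν = D.h (-t⁻¹) := by
      rw [D.ν_mul_h hgen ht, mul_assoc, D.ν_sq, D.h_inv hgen (t := (-1 : K)) (by simp),
        D.h_mul hgen (inv_ne_zero ht) (by simp)]
      congr 1
      simp
    by_cases ha : a = 0
    · subst ha
      refine Or.inl ⟨(-t⁻¹) ^ 2 * b, -t⁻¹, hm, ?_⟩
      rw [D.x_zero, one_mul]
      have h1 := D.h_conj_x (t := -t⁻¹) b hm
      rw [← h1, ← e0]
      group
    · have h1 : D.ν * D.x a = D.y (-a) * D.ν := by
        have h2 := D.conj_x (t := (1 : K)) a one_ne_zero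
        have e : -((1 : K)⁻¹ ^ 2 * a) = -a := by simp
        rw [e] at h2
        change D.ν * D.x a * (D.ν)⁻¹ = D.y (-a) at h2
        rw [← h2]
        group
      have h2 := D.y_form (v := -a) (neg_ne_zero.mpr ha)
      have hai := inv_ne_zero ha
      have e1 : -(-a)⁻¹ = a⁻¹ := by simp
      rw [e1, D.n_eq] at h2
      have hs : (a⁻¹ : K) ≠ 0 := hai
      refine Or.inr ⟨(-a)⁻¹, a⁻¹ * (-t⁻¹)⁻¹, (-t⁻¹)⁻¹ ^ 2 * (-a)⁻¹ + b, mul_ne_zero hai (inv_ne_zero hm), ?_⟩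
      rw [← D.h_mul hgen hai (inv_ne_zero hm), ← D.hx]
      have h3 : D.x (-a)⁻¹ * D.h (-t⁻¹) = D.h (-t⁻¹) * D.x ((-t⁻¹)⁻¹ ^ 2 * (-a)⁻¹) := D.x_h hgen _ hm
      have h4 := D.ν_mul_h hgen hm
      calc D.ν * (D.x a * D.h t * D.ν * D.x b)
          = (D.ν * D.x a) * D.h t * D.ν * D.x b := by group
        _ = D.y (-a) * (D.ν * D.h t * D.ν) * D.x b := by rw [h1]; group
        _ = (D.x (-a)⁻¹ * (D.h a⁻¹ * D.ν) * D.x (-a)⁻¹) * D.h (-t⁻¹) * D.x b := by rw [e0, ← h2]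
        _ = D.x (-a)⁻¹ * D.h a⁻¹ * D.ν * (D.x (-a)⁻¹ * D.h (-t⁻¹)) * D.x b := by
          simp only [mul_assoc]
        _ = D.x (-a)⁻¹ * D.h a⁻¹ * (D.ν * D.h (-t⁻¹)) * D.x ((-t⁻¹)⁻¹ ^ 2 * (-a)⁻¹) * D.x b := by rw [h3]; group
        _ = _ := by rw [h4]; group

theorem normal_y {g : Γ} (v : K) (hg : D.Normal g) : D.Normal (D.y v * g) := by
  -- `y(v) = ν x(-v) ν⁻¹`, `ν⁻¹ = h(-1) ν`
  have h1 : D.y v = D.ν * D.x (-v) * (D.ν)⁻¹ := by
    have h2 := D.conj_x (t := (1 : K)) (-v) one_ne_zero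
    have e : -((1 : K)⁻¹ ^ 2 * -v) = v := by simp
    rw [e] at h2
    exact h2.symm
  have h3 : (D.ν)⁻¹ = D.h (-1 : K) * D.ν := by
    rw [← D.n_eq]
    exact D.ν_inv
  rw [h1, h3]
  have h4 := D.normal_h hgen (r := (-1 : K)) (by simp) (D.normal_ν hgen hg)
  have h5 := D.normal_ν hgen (D.normal_x hgen (-v) h4)
  convert h5 using 1
  group

/-- All elements are in normal form. -/
theorem normal_all (g : Γ) : D.Normal g := by
  have hg : g ∈ Subgroup.closure (Set.range D.x ∪ Set.range D.y) := by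
    rw [hgen]
    exact Subgroup.mem_top g
  induction hg using Subgroup.closure_induction_left with
  | one =>
    refine Or.inl ⟨0, 1, one_ne_zero, ?_⟩
    rw [D.x_zero, D.h_one, one_mul]
  | mul_left a ha b _ hb =>
    rcases ha with ⟨u, rfl⟩ | ⟨v, rfl⟩
    · exact D.normal_x hgen u hb
    · exact D.normal_y hgen v hb
  | inv_mul_cancel a ha b _ hb =>
    rcases ha with ⟨u, rfl⟩ | ⟨v, rfl⟩
    · rw [← D.x_neg]
      exact D.normal_x hgen _ hb
    · rw [← D.y_neg]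
      exact D.normal_y hgen _ hb

end generated

end Data

/-- The standard generators in `SL₂`. -/
def xM {K : Type*} [Field K] (b : Bool) (t : K) : Matrix.SpecialLinearGroup (Fin 2) K :=
  if b then ⟨!![1, t; 0, 1], by simp [Matrix.det_fin_two]⟩ else ⟨!![1, 0; t, 1], by simp [Matrix.det_fin_two]⟩

theorem xM_true {K : Type*} [Field K] (t : K) :
    ((xM true t : Matrix.SpecialLinearGroup (Fin 2) K) : Matrix (Fin 2) (Fin 2) K) = !![1, t; 0, 1] := rfl

theorem xM_false {K : Type*} [Field K] (t : K) :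
    ((xM false t : Matrix.SpecialLinearGroup (Fin 2) K) : Matrix (Fin 2) (Fin 2) K) = !![1, 0; t, 1] := rfl

theorem xM_add {K : Type*} [Field K] (b : Bool) (t u : K) : xM b t * xM b u = xM b (t + u) := by
  apply Subtype.ext
  rw [Matrix.SpecialLinearGroup.coe_mul]
  cases b
  · rw [xM_false, xM_false, xM_false]
    ext i j
    fin_cases i <;> fin_cases j <;> simp [Matrix.mul_apply, Fin.sum_univ_two, add_comm]
  · rw [xM_true, xM_true, xM_true]
    ext i j
    fin_cases i <;> fin_cases j <;> simp [Matrix.mul_apply, Fin.sum_univ_two, add_comm]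

theorem xM_conj {K : Type*} [Field K] (b : Bool) {t : K} (u : K) (ht : t ≠ 0) :
    (xM b t * xM (!b) (-t⁻¹) * xM b t) * xM b u = xM (!b) (-(t⁻¹ ^ 2 * u)) * (xM b t * xM (!b) (-t⁻¹) * xM b t) := by
  apply Subtype.ext
  simp only [Matrix.SpecialLinearGroup.coe_mul]
  cases b
  · simp only [Bool.not_false, xM_false, xM_true]
    ext i j
    fin_cases i <;> fin_cases j <;> simp [Matrix.mul_apply, Fin.sum_univ_two]
    all_goals (try field_simp)
    all_goals (try ring)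
    all_goals (try simp)
  · simp only [Bool.not_true, xM_false, xM_true]
    ext i j
    fin_cases i <;> fin_cases j <;> simp [Matrix.mul_apply, Fin.sum_univ_two]
    all_goals (try field_simp)
    all_goals (try ring)
    all_goals (try simp)

/-- Surjectivity onto `SL₂`. -/
theorem xM_surj {K : Type*} [Field K] (H : Subgroup (Matrix.SpecialLinearGroup (Fin 2) K))
    (hH : ∀ b t, xM b t ∈ H) : H = ⊤ := by
  have key : ∀ g : Matrix.SpecialLinearGroup (Fin 2) K, (g : Matrix (Fin 2) (Fin 2) K) 1 0 ≠ 0 → g ∈ H := by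
    intro g hc
    obtain ⟨a, ha⟩ : ∃ a, a = (g : Matrix (Fin 2) (Fin 2) K) 0 0 := ⟨_, rfl⟩
    obtain ⟨b, hb⟩ : ∃ b, b = (g : Matrix (Fin 2) (Fin 2) K) 0 1 := ⟨_, rfl⟩
    obtain ⟨c, hc'⟩ : ∃ c, c = (g : Matrix (Fin 2) (Fin 2) K) 1 0 := ⟨_, rfl⟩
    obtain ⟨d, hd⟩ : ∃ d, d = (g : Matrix (Fin 2) (Fin 2) K) 1 1 := ⟨_, rfl⟩
    rw [← hc'] at hc
    have hg : (g : Matrix (Fin 2) (Fin 2) K) = !![a, b; c, d] := by
      rw [ha, hb, hc', hd]
      exact (Matrix.eta_fin_two _)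
    have hdet : a * d - b * c = 1 := by
      have := g.2
      rw [Matrix.det_fin_two] at this
      rw [ha, hb, hc', hd]
      exact this
    have hb' : b = (a * d - 1) * c⁻¹ := by
      rw [← hdet]
      field_simp
      ring
    have : g = xM true ((a - 1) * c⁻¹) * xM false c * xM true ((d - 1) * c⁻¹) := by
      apply Subtype.ext
      simp only [Matrix.SpecialLinearGroup.coe_mul, xM_false, xM_true]
      rw [hg]
      ext i j
      fin_cases i <;> fin_cases j <;> simp [Matrix.mul_apply, Fin.sum_univ_two]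
      all_goals (try rw [hb'])
      all_goals (try field_simp)
      all_goals (try ring)
    rw [this]
    exact H.mul_mem (H.mul_mem (hH _ _) (hH _ _)) (hH _ _)
  rw [eq_top_iff]
  intro g _
  by_cases hc : (g : Matrix (Fin 2) (Fin 2) K) 1 0 = 0
  · have ha : (g : Matrix (Fin 2) (Fin 2) K) 0 0 ≠ 0 := by
      intro h0
      have := g.2
      rw [Matrix.det_fin_two, hc, h0] at this
      simp at this
    have h1 : xM false 1 * g ∈ H := by
      apply key
      simp only [Matrix.SpecialLinearGroup.coe_mul, xM_false]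
      simp [Matrix.mul_apply, Fin.sum_univ_two, hc]
      exact ha
    have h2 := H.mul_mem (H.inv_mem (hH false 1)) h1
    simpa using h2
  · exact key g hc

namespace Data

variable {K Γ : Type*} [Field K] [Group Γ] (D : Data K Γ)

/-- The comparison map is injective. -/
theorem injective_of [Finite K] (hgen : Subgroup.closure (Set.range D.x ∪ Set.range D.y) = ⊤)
    (φ : Γ →* Matrix.SpecialLinearGroup (Fin 2) K) (hx : ∀ t, φ (D.x t) = xM true t) (hy : ∀ t, φ (D.y t) = xM false t) :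
    Function.Injective φ := by
  have hn : ∀ t : K, t ≠ 0 → ((φ (D.n t) : Matrix.SpecialLinearGroup (Fin 2) K) : Matrix (Fin 2) (Fin 2) K) = !![0, t; -t⁻¹, 0] := by
    intro t ht
    unfold n
    simp only [map_mul, hx, hy, Matrix.SpecialLinearGroup.coe_mul, xM_false, xM_true]
    ext i j
    fin_cases i <;> fin_cases j <;> simp [Matrix.mul_apply, Fin.sum_univ_two]
    all_goals (try field_simp)
    all_goals (try ring)
    all_goals (try simp)
  have hν : ((φ D.ν : Matrix.SpecialLinearGroup (Fin 2) K) : Matrix (Fin 2) (Fin 2) K) = !![0, 1; -1, 0] := by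
    have := hn 1 one_ne_zero
    simpa [ν] using this
  have hh : ∀ t : K, t ≠ 0 → ((φ (D.h t) : Matrix.SpecialLinearGroup (Fin 2) K) : Matrix (Fin 2) (Fin 2) K) = !![t, 0; 0, t⁻¹] := by
    intro t ht
    unfold h
    rw [D.ν_inv, map_mul, Matrix.SpecialLinearGroup.coe_mul, hn t ht, hn (-1) (by simp)]
    ext i j
    fin_cases i <;> fin_cases j <;> simp [Matrix.mul_apply, Fin.sum_univ_two]
  rw [injective_iff_map_eq_one]
  intro g hg
  rcases D.normal_all hgen g with ⟨a, t, ht, rfl⟩ | ⟨a, t, b, ht, rfl⟩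
  · have h1 := congrArg (fun A : Matrix.SpecialLinearGroup (Fin 2) K => (A : Matrix (Fin 2) (Fin 2) K)) hg
    simp only [map_mul, hx, Matrix.SpecialLinearGroup.coe_mul, xM_true, hh t ht, Matrix.SpecialLinearGroup.coe_one] at h1
    have h00 := congrFun (congrFun h1 0) 0
    have h01 := congrFun (congrFun h1 0) 1
    simp [Matrix.mul_apply, Fin.sum_univ_two] at h00 h01
    have ht1 : t = 1 := h00
    subst ht1
    have ha : a = 0 := by simpa using h01
    rw [ha, D.x_zero, D.h_one, one_mul]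
  · exfalso
    have h1 := congrArg (fun A : Matrix.SpecialLinearGroup (Fin 2) K => (A : Matrix (Fin 2) (Fin 2) K)) hg
    simp only [map_mul, hx, Matrix.SpecialLinearGroup.coe_mul, xM_true, hh t ht, hν, Matrix.SpecialLinearGroup.coe_one] at h1
    have h10 := congrFun (congrFun h1 1) 0
    simp [Matrix.mul_apply, Fin.sum_univ_two] at h10
    exact ht h10

end Data

/-- The relators of the presentation. -/
def rels (K : Type*) [Field K] : Set (FreeGroup (Bool × K)) :=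
  {g : FreeGroup (Bool × K) | ∃ (b : Bool) (t u : K), g = FreeGroup.of (b, t) * FreeGroup.of (b, u) * (FreeGroup.of (b, t + u))⁻¹} ∪
    {g | ∃ (b : Bool) (t u : K), t ≠ 0 ∧
      g = (FreeGroup.of (b, t) * FreeGroup.of (!b, -t⁻¹) * FreeGroup.of (b, t)) * FreeGroup.of (b, u) *
            (FreeGroup.of (b, t) * FreeGroup.of (!b, -t⁻¹) * FreeGroup.of (b, t))⁻¹ * (FreeGroup.of (!b, -(t⁻¹ ^ 2 * u)))⁻¹}

/-- **The presentation.** -/
theorem presentation {K : Type*} [Field K] [Finite K] :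
    ∃ e : PresentedGroup (rels K) ≃* Matrix.SpecialLinearGroup (Fin 2) K,
      (∀ t : K, ((e (PresentedGroup.of (true, t)) : Matrix (Fin 2) (Fin 2) K)) = !![1, t; 0, 1]) ∧
      (∀ t : K, ((e (PresentedGroup.of (false, t)) : Matrix (Fin 2) (Fin 2) K)) = !![1, 0; t, 1]) := by
  classical
  -- the map
  have hrel : ∀ r ∈ rels K, FreeGroup.lift (fun p : Bool × K => xM p.1 p.2) r = 1 := by
    rintro r (⟨b, t, u, rfl⟩ | ⟨b, t, u, ht, rfl⟩)
    · simp only [map_mul, map_inv, FreeGroup.lift_apply_of]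
      rw [xM_add]
      group
    · simp only [map_mul, map_inv, FreeGroup.lift_apply_of]
      rw [xM_conj b u ht]
      group
  let φ : PresentedGroup (rels K) →* Matrix.SpecialLinearGroup (Fin 2) K := PresentedGroup.toGroup hrel
  have hφ : ∀ p : Bool × K, φ (PresentedGroup.of p) = xM p.1 p.2 := by
    intro p
    exact PresentedGroup.toGroup.of hrel
  -- the data
  have hof : ∀ r ∈ rels K, (PresentedGroup.mk (rels K) r) = 1 := by
    intro r hr
    exact (QuotientGroup.eq_one_iff r).mpr (Subgroup.subset_normalClosure hr)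
  let D : Data K (PresentedGroup (rels K)) :=
    { x := fun t => PresentedGroup.of (true, t)
      y := fun t => PresentedGroup.of (false, t)
      hx := by
        intro t u
        have h := hof _ (Or.inl ⟨true, t, u, rfl⟩)
        simp only [map_mul, map_inv] at h
        exact mul_inv_eq_one.mp h
      hy := by
        intro t u
        have h := hof _ (Or.inl ⟨false, t, u, rfl⟩)
        simp only [map_mul, map_inv] at h
        exact mul_inv_eq_one.mp h
      R := by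
        intro t u ht
        have h := hof _ (Or.inr ⟨true, t, u, ht, rfl⟩)
        simp only [map_mul, map_inv] at h
        exact mul_inv_eq_one.mp h }
  have hgen : Subgroup.closure (Set.range D.x ∪ Set.range D.y) = ⊤ := by
    rw [eq_top_iff, ← PresentedGroup.closure_range_of]
    apply Subgroup.closure_mono
    rintro _ ⟨⟨b, t⟩, rfl⟩
    cases b
    · exact Or.inr ⟨t, rfl⟩
    · exact Or.inl ⟨t, rfl⟩
  have hinj : Function.Injective φ :=
    D.injective_of hgen φ (fun t => hφ (true, t)) (fun t => hφ (false, t))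
  have hsurj : Function.Surjective φ := by
    rw [← MonoidHom.range_eq_top]
    apply xM_surj
    intro b t
    exact ⟨PresentedGroup.of (b, t), hφ (b, t)⟩
  refine ⟨MulEquiv.ofBijective φ ⟨hinj, hsurj⟩, ?_, ?_⟩
  · intro t
    change ((φ (PresentedGroup.of (true, t)) : Matrix.SpecialLinearGroup (Fin 2) K) : Matrix (Fin 2) (Fin 2) K) = _
    rw [hφ]
    rfl
  · intro t
    change ((φ (PresentedGroup.of (false, t)) : Matrix.SpecialLinearGroup (Fin 2) K) : Matrix (Fin 2) (Fin 2) K) = _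
    rw [hφ]
    rfl

end Cfsg.Agent.Lib.Misc19.SteinbergRankOne
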