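import Mathlib
import Cfsg.Agent.Lib.Misc19.SteinbergRankOne
import Cfsg.Agent.Lib.Classical.SL

/-! The Steinberg presentation of `SL_n` over a finite field, by induction on `n`: cosets of the
stabiliser of a basis vector. -/

set_option autoImplicit false

namespace Cfsg.Agent.Lib.Misc19.SteinbergSLn

open Matrix

/-- A Steinberg system of elements. -/
structure Sys (ι K E : Type*) [Field K] [Group E] where
  x : ι → ι → K → E
  add : ∀ i j, i ≠ j → ∀ t u, x i j t * x i j u = x i j (t + u)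
  comm : ∀ i j k l, i ≠ j → k ≠ l → j ≠ k → i ≠ l → ∀ t u, x i j t * x k l u = x k l u * x i j t
  chev : ∀ i j l, i ≠ j → j ≠ l → i ≠ l → ∀ t u,
    x i j t * x j l u * (x i j t)⁻¹ * (x j l u)⁻¹ = x i l (t * u)

namespace Sys

variable {ι K E : Type*} [Field K] [Group E] (S : Sys ι K E)

/-- The Weyl elements. -/
def W (i j : ι) (t : K) : E := S.x i j t * S.x j i (-t⁻¹) * S.x i j t

/-- The rank-one relation. -/
def R : Prop := ∀ i j, i ≠ j → ∀ t u : K, t ≠ 0 →
  S.W i j t * S.x i j u * (S.W i j t)⁻¹ = S.x j i (-(t⁻¹ ^ 2 * u))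

theorem x_zero {i j : ι} (h : i ≠ j) : S.x i j 0 = 1 := by
  have h1 := S.add i j h 0 0
  rw [add_zero] at h1
  exact mul_eq_left.mp h1

theorem x_neg {i j : ι} (h : i ≠ j) (t : K) : S.x i j (-t) = (S.x i j t)⁻¹ := by
  rw [eq_inv_iff_mul_eq_one, S.add i j h, neg_add_cancel, S.x_zero h]

theorem x_inv {i j : ι} (h : i ≠ j) (t : K) : (S.x i j t)⁻¹ = S.x i j (-t) := (S.x_neg h t).symm

/-- Conjugation (A). -/
theorem conj_aux_A {G : Type*} [Group G] {a b y z : G} (h1 : a * y = y * a)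
    (h2 : b * y * b⁻¹ * y⁻¹ = z) (h3 : a * z * a⁻¹ * z⁻¹ = y⁻¹) (h5 : z * y = y * z) :
    (a * b * a) * y * (a * b * a)⁻¹ = z := by
  have e1 : a * y * a⁻¹ = y := by rw [h1]; group
  have e2 : b * y * b⁻¹ = z * y := by rw [← h2]; group
  have e3 : a * z * a⁻¹ = y⁻¹ * z := by rw [← h3]; group
  calc (a * b * a) * y * (a * b * a)⁻¹ = a * (b * (a * y * a⁻¹) * b⁻¹) * a⁻¹ := by group
    _ = a * (z * y) * a⁻¹ := by rw [e1, e2]
    _ = (a * z * a⁻¹) * (a * y * a⁻¹) := by group
    _ = y⁻¹ * z * y := by rw [e3, e1]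
    _ = z := by rw [mul_assoc, h5]; group

/-- Conjugation (B). -/
theorem conj_aux_B {G : Type*} [Group G] {a b y z : G} (h1 : a * y * a⁻¹ * y⁻¹ = z)
    (h2 : b * z * b⁻¹ * z⁻¹ = y⁻¹) (h3 : b * y = y * b) (h4 : a * z = z * a) (h5 : z * y = y * z) :
    (a * b * a) * y * (a * b * a)⁻¹ = z := by
  have e1 : a * y * a⁻¹ = z * y := by rw [← h1]; group
  have e2 : b * z * b⁻¹ = y⁻¹ * z := by rw [← h2]; group
  have e3 : b * y * b⁻¹ = y := by rw [h3]; group
  have e4 : a * z * a⁻¹ = z := by rw [h4]; group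
  calc (a * b * a) * y * (a * b * a)⁻¹ = a * (b * (a * y * a⁻¹) * b⁻¹) * a⁻¹ := by group
    _ = a * ((b * z * b⁻¹) * (b * y * b⁻¹)) * a⁻¹ := by rw [e1]; group
    _ = a * (y⁻¹ * z * y) * a⁻¹ := by rw [e2, e3]
    _ = a * z * a⁻¹ := by rw [mul_assoc y⁻¹, h5]; group
    _ = z := e4

/-- Conjugation (C). -/
theorem conj_aux_C {G : Type*} [Group G] {a b y z : G} (h1 : y * a * y⁻¹ * a⁻¹ = z)
    (h2 : z * b * z⁻¹ * b⁻¹ = y⁻¹) (h3 : b * y = y * b) (h4 : a * z = z * a) (h5 : z * y = y * z) :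
    (a * b * a) * y * (a * b * a)⁻¹ = z⁻¹ := by
  have e0 : y * a = z * a * y := by rw [← h1]; group
  have e1 : a * y * a⁻¹ = z⁻¹ * y := by
    have : a * y = z⁻¹ * (y * a) := by rw [e0]; group
    rw [this]; group
  have e0' : z * b = y⁻¹ * b * z := by rw [← h2]; group
  have e2 : b * z⁻¹ * b⁻¹ = z⁻¹ * y⁻¹ := by
    have h6 : z⁻¹ * y⁻¹ * (b * z) = b := by
      calc z⁻¹ * y⁻¹ * (b * z) = z⁻¹ * (y⁻¹ * b * z) := by group
        _ = z⁻¹ * (z * b) := by rw [e0']
        _ = b := by group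
    calc b * z⁻¹ * b⁻¹ = (z⁻¹ * y⁻¹ * (b * z)) * z⁻¹ * b⁻¹ := by rw [h6]
      _ = _ := by group
  have e3 : b * y * b⁻¹ = y := by rw [h3]; group
  have e4 : a * z⁻¹ * a⁻¹ = z⁻¹ := by
    have : a * z⁻¹ = z⁻¹ * a := (show Commute a z from h4).inv_right
    rw [this]; group
  calc (a * b * a) * y * (a * b * a)⁻¹ = a * (b * (a * y * a⁻¹) * b⁻¹) * a⁻¹ := by group
    _ = a * ((b * z⁻¹ * b⁻¹) * (b * y * b⁻¹)) * a⁻¹ := by rw [e1]; group
    _ = a * (z⁻¹ * y⁻¹ * y) * a⁻¹ := by rw [e2, e3]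
    _ = a * z⁻¹ * a⁻¹ := by group
    _ = z⁻¹ := e4

/-- Conjugation (D). -/
theorem conj_aux_D {G : Type*} [Group G] {a b y z : G} (h1 : a * y = y * a)
    (h2 : y * b * y⁻¹ * b⁻¹ = z) (h3 : z * a * z⁻¹ * a⁻¹ = y⁻¹) :
    (a * b * a) * y * (a * b * a)⁻¹ = z⁻¹ := by
  have e1 : a * y * a⁻¹ = y := by rw [h1]; group
  have e2 : b * y * b⁻¹ = z⁻¹ * y := by
    have : y * b = z * (b * y) := by rw [← h2]; group
    have h6 : b * y = z⁻¹ * (y * b) := by rw [this]; group
    rw [h6]; group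
  have e3 : a * z⁻¹ * a⁻¹ = z⁻¹ * y⁻¹ := by
    have e0' : z * a = y⁻¹ * a * z := by rw [← h3]; group
    have h6 : z⁻¹ * y⁻¹ * (a * z) = a := by
      calc z⁻¹ * y⁻¹ * (a * z) = z⁻¹ * (y⁻¹ * a * z) := by group
        _ = z⁻¹ * (z * a) := by rw [e0']
        _ = a := by group
    calc a * z⁻¹ * a⁻¹ = (z⁻¹ * y⁻¹ * (a * z)) * z⁻¹ * a⁻¹ := by rw [h6]
      _ = _ := by group
  calc (a * b * a) * y * (a * b * a)⁻¹ = a * (b * (a * y * a⁻¹) * b⁻¹) * a⁻¹ := by group
    _ = a * (z⁻¹ * y) * a⁻¹ := by rw [e1, e2]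
    _ = (a * z⁻¹ * a⁻¹) * (a * y * a⁻¹) := by group
    _ = z⁻¹ * y⁻¹ * y := by rw [e3, e1]
    _ = z⁻¹ := by group

variable {i j k l : ι}

/-- `W_ij(t) x_ik(u) W_ij(t)⁻¹ = x_jk(-u/t)`. -/
theorem W_conj_ik (hij : i ≠ j) (hik : i ≠ k) (hjk : j ≠ k) {t : K} (ht : t ≠ 0) (u : K) :
    S.W i j t * S.x i k u * (S.W i j t)⁻¹ = S.x j k (-(t⁻¹ * u)) := by
  unfold W
  refine conj_aux_A (S.comm i j i k hij hik hij.symm hik _ _) ?_ ?_ ?_
  · rw [S.chev j i k hij.symm hik hjk]; congr 1; ring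
  · rw [S.chev i j k hij hjk hik, ← S.x_neg hik]; congr 1; field_simp
  · exact S.comm j k i k hjk hik hik.symm hjk _ _

/-- `W_ij(t) x_jk(u) W_ij(t)⁻¹ = x_ik(t u)`. -/
theorem W_conj_jk (hij : i ≠ j) (hik : i ≠ k) (hjk : j ≠ k) {t : K} (ht : t ≠ 0) (u : K) :
    S.W i j t * S.x j k u * (S.W i j t)⁻¹ = S.x i k (t * u) := by
  unfold W
  refine conj_aux_B (S.chev i j k hij hjk hik _ _) ?_ ?_ ?_ ?_
  · rw [S.chev j i k hij.symm hik hjk, ← S.x_neg hjk]; congr 1; field_simp
  · exact S.comm j i j k hij.symm hjk hij hjk _ _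
  · exact S.comm i j i k hij hik hij.symm hik _ _
  · exact S.comm i k j k hik hjk hjk.symm hik _ _

/-- `W_ij(t) x_ki(u) W_ij(t)⁻¹ = x_kj(-t u)`. -/
theorem W_conj_ki (hij : i ≠ j) (hik : i ≠ k) (hjk : j ≠ k) {t : K} (ht : t ≠ 0) (u : K) :
    S.W i j t * S.x k i u * (S.W i j t)⁻¹ = S.x k j (-(t * u)) := by
  unfold W
  rw [S.x_neg hjk.symm]
  refine (conj_aux_C (z := S.x k j (t * u)) ?_ ?_ ?_ ?_ ?_)
  · rw [S.chev k i j hik.symm hij hjk.symm]; congr 1; ring
  · rw [S.chev k j i hjk.symm hij.symm hik.symm, ← S.x_neg hik.symm]; congr 1; field_simp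
  · exact S.comm j i k i hij.symm hik.symm hik hij.symm _ _
  · exact S.comm i j k j hij hjk.symm hjk hij _ _
  · exact S.comm k j k i hjk.symm hik.symm hjk hik.symm _ _

/-- `W_ij(t) x_kj(u) W_ij(t)⁻¹ = x_ki(u/t)`. -/
theorem W_conj_kj (hij : i ≠ j) (hik : i ≠ k) (hjk : j ≠ k) {t : K} (ht : t ≠ 0) (u : K) :
    S.W i j t * S.x k j u * (S.W i j t)⁻¹ = S.x k i (t⁻¹ * u) := by
  unfold W
  have e : S.x k i (t⁻¹ * u) = (S.x k i (u * -t⁻¹))⁻¹ := by
    rw [S.x_inv hik.symm]; congr 1; ring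
  rw [e]
  refine conj_aux_D ?_ ?_ ?_
  · exact S.comm i j k j hij hjk.symm hjk hij _ _
  · rw [S.chev k j i hjk.symm hij.symm hik.symm]
  · rw [S.chev k i j hik.symm hij hjk.symm, ← S.x_neg hjk.symm]; congr 1; field_simp

/-- `W_ij(t)` commutes with `x_kl` for `k, l` outside `i, j`. -/
theorem W_comm (hij : i ≠ j) (hik : i ≠ k) (hil : i ≠ l) (hjk : j ≠ k) (hjl : j ≠ l) (hkl : k ≠ l)
    (t u : K) : S.W i j t * S.x k l u = S.x k l u * S.W i j t := by
  unfold W
  have h1 : ∀ s, S.x i j s * S.x k l u = S.x k l u * S.x i j s :=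
    fun s => S.comm i j k l hij hkl hjk hil _ _
  have h2 : ∀ s, S.x j i s * S.x k l u = S.x k l u * S.x j i s :=
    fun s => S.comm j i k l hij.symm hkl hik hjl _ _
  calc S.x i j t * S.x j i (-t⁻¹) * S.x i j t * S.x k l u
      = S.x i j t * S.x j i (-t⁻¹) * (S.x i j t * S.x k l u) := by group
    _ = S.x i j t * (S.x j i (-t⁻¹) * S.x k l u) * S.x i j t := by rw [h1]; group
    _ = (S.x i j t * S.x k l u) * S.x j i (-t⁻¹) * S.x i j t := by rw [h2]; group
    _ = _ := by rw [h1]; group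

/-- The rank-one relation from a third index. -/
theorem W_conj_self (hij : i ≠ j) (hik : i ≠ k) (hjk : j ≠ k) {t : K} (ht : t ≠ 0) (u : K) :
    S.W i j t * S.x i j u * (S.W i j t)⁻¹ = S.x j i (-(t⁻¹ ^ 2 * u)) := by
  have h0 : S.x i j u = S.x i k u * S.x k j 1 * (S.x i k u)⁻¹ * (S.x k j 1)⁻¹ := by
    rw [S.chev i k j hik hjk.symm hij, mul_one]
  have h1 := S.W_conj_ik hij hik hjk ht u
  have h2 := S.W_conj_kj hij hik hjk ht (1 : K)
  have hc := S.chev j k i hjk hik.symm hij.symm (-(t⁻¹ * u)) (t⁻¹ * 1)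
  have e : -(t⁻¹ * u) * (t⁻¹ * 1) = -(t⁻¹ ^ 2 * u) := by ring
  rw [e] at hc
  rw [← hc, ← h1, ← h2]
  conv_lhs => rw [h0]
  group

theorem R_of_third (h3 : ∀ i j : ι, i ≠ j → ∃ k, i ≠ k ∧ j ≠ k) : S.R := by
  intro i j hij t u ht
  obtain ⟨k, hik, hjk⟩ := h3 i j hij
  exact S.W_conj_self hij hik hjk ht u

theorem W_inv (hij : i ≠ j) (t : K) : (S.W i j t)⁻¹ = S.W i j (-t) := by
  unfold W
  rw [_root_.mul_inv_rev, _root_.mul_inv_rev, ← S.x_neg hij, ← S.x_neg hij.symm, inv_neg, neg_neg, mul_assoc]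

end Sys

/-! ### Generalities on closures -/

theorem conj_closure_mem {G : Type*} [Group G] {T : Set G} {H : Subgroup G} (g : G)
    (h : ∀ t ∈ T, g * t * g⁻¹ ∈ H) : ∀ y ∈ Subgroup.closure T, g * y * g⁻¹ ∈ H := by
  intro y hy
  induction hy using Subgroup.closure_induction with
  | mem x hx => exact h x hx
  | one => simp [H.one_mem]
  | mul x y _ _ hx hy =>
    have : g * (x * y) * g⁻¹ = (g * x * g⁻¹) * (g * y * g⁻¹) := by group
    rw [this]
    exact H.mul_mem hx hy
  | inv x _ hx =>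
    have : g * x⁻¹ * g⁻¹ = (g * x * g⁻¹)⁻¹ := by group
    rw [this]
    exact H.inv_mem hx

theorem normalizes_of_gens {G : Type*} [Group G] {T : Set G} {H : Subgroup G}
    (hT : ∀ g ∈ T, g⁻¹ ∈ T) (h : ∀ g ∈ T, ∀ y ∈ H, g * y * g⁻¹ ∈ H) :
    ∀ g ∈ Subgroup.closure T, ∀ y ∈ H, g * y * g⁻¹ ∈ H := by
  intro g hg
  induction hg using Subgroup.closure_induction_left with
  | one => intro y hy; simpa using hy
  | mul_left x hx g _ ih =>
    intro y hy
    have : x * g * y * (x * g)⁻¹ = x * (g * y * g⁻¹) * x⁻¹ := by group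
    rw [this]
    exact h x hx _ (ih y hy)
  | inv_mul_cancel x hx g _ ih =>
    intro y hy
    have : x⁻¹ * g * y * (x⁻¹ * g)⁻¹ = x⁻¹ * (g * y * g⁻¹) * x⁻¹⁻¹ := by group
    rw [this]
    exact h x⁻¹ (hT x hx) _ (ih y hy)

/-! ### Matrix identities in `SL₂` -/

open SteinbergRankOne

section SL2

variable {K : Type*} [Field K]

/-- Diagonal elements of `SL₂`. -/
def dM (s : Kˣ) : Matrix.SpecialLinearGroup (Fin 2) K :=
  ⟨!![(s : K), 0; 0, ((s⁻¹ : Kˣ) : K)], by simp [Matrix.det_fin_two]⟩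

theorem dM_coe (s : Kˣ) : ((dM s : Matrix.SpecialLinearGroup (Fin 2) K) : Matrix (Fin 2) (Fin 2) K)
    = !![(s : K), 0; 0, ((s⁻¹ : Kˣ) : K)] := rfl

/-- Weyl elements of `SL₂`. -/
def wM (t : K) : Matrix.SpecialLinearGroup (Fin 2) K := xM true t * xM false (-t⁻¹) * xM true t

theorem dM_mul (s r : Kˣ) : dM s * dM r = dM (s * r) := by
  apply Subtype.ext
  simp only [Matrix.SpecialLinearGroup.coe_mul, dM_coe]
  ext i j
  fin_cases i <;> fin_cases j <;> simp [Matrix.mul_apply, Fin.sum_univ_two, mul_comm]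

theorem dM_one : dM (1 : Kˣ) = 1 := by
  apply Subtype.ext
  simp only [dM_coe, Matrix.SpecialLinearGroup.coe_one]
  ext i j
  fin_cases i <;> fin_cases j <;> simp

theorem dM_eq (s : Kˣ) : dM s = wM (s : K) * wM (-1) := by
  apply Subtype.ext
  simp only [wM, Matrix.SpecialLinearGroup.coe_mul, dM_coe, xM_true, xM_false]
  ext i j
  fin_cases i <;> fin_cases j <;> simp [Matrix.mul_apply, Fin.sum_univ_two]
  all_goals (try field_simp)
  all_goals (try ring)

theorem id_conj_true (s : Kˣ) (u : K) : dM s * xM true u * (dM s)⁻¹ = xM true ((s : K) ^ 2 * u) := by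
  rw [mul_inv_eq_iff_eq_mul]
  apply Subtype.ext
  simp only [Matrix.SpecialLinearGroup.coe_mul, dM_coe, xM_true]
  ext i j
  fin_cases i <;> fin_cases j <;> simp [Matrix.mul_apply, Fin.sum_univ_two]
  all_goals (try field_simp)

theorem id_conj_false (u : K) : wM (1 : K) * xM false u * (wM (1 : K))⁻¹ = xM true (-u) := by
  rw [mul_inv_eq_iff_eq_mul]
  apply Subtype.ext
  simp only [wM, Matrix.SpecialLinearGroup.coe_mul, xM_true, xM_false]
  ext i j
  fin_cases i <;> fin_cases j <;> simp [Matrix.mul_apply, Fin.sum_univ_two]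
  all_goals (try ring)

theorem id_i (t : Kˣ) : xM true (t : K) * wM (-1) = xM false ((t⁻¹ : Kˣ) : K) * dM t * xM true (-((t⁻¹ : Kˣ) : K)) := by
  apply Subtype.ext
  simp only [wM, Matrix.SpecialLinearGroup.coe_mul, xM_true, xM_false, dM_coe]
  ext i j
  fin_cases i <;> fin_cases j <;> simp [Matrix.mul_apply, Fin.sum_univ_two]
  all_goals (try field_simp)
  all_goals (try ring)

theorem id_ii (t z : K) (y : Kˣ) (hy : (y : K) = 1 + t * z) :
    xM true t * xM false z = xM false (z * ((y⁻¹ : Kˣ) : K)) * dM y * xM true (t * ((y⁻¹ : Kˣ) : K)) := by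
  apply Subtype.ext
  simp only [Matrix.SpecialLinearGroup.coe_mul, xM_true, xM_false, dM_coe]
  have hy0 : (y : K) ≠ 0 := y.ne_zero
  ext i j
  fin_cases i <;> fin_cases j <;> simp [Matrix.mul_apply, Fin.sum_univ_two]
  all_goals (try field_simp)
  all_goals (try rw [hy])
  all_goals (try ring)

theorem id_iii (t : Kˣ) (r : Kˣ) (hr : (r : K) = -((t⁻¹ : Kˣ) : K)) :
    xM true (t : K) * xM false (-((t⁻¹ : Kˣ) : K)) = wM (-1) * dM r * xM true (-(t : K)) := by
  apply Subtype.ext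
  simp only [wM, Matrix.SpecialLinearGroup.coe_mul, xM_true, xM_false, dM_coe]
  have e : ((r⁻¹ : Kˣ) : K) = -(t : K) := by
    rw [Units.val_inv_eq_inv_val, hr]
    simp
  rw [e, hr]
  ext i j
  fin_cases i <;> fin_cases j <;> simp [Matrix.mul_apply, Fin.sum_univ_two]
  all_goals (try field_simp)
  all_goals (try ring)

end SL2

/-! ### The groups in the step -/

section Step

variable {ι K E : Type*} [Field K] [Group E] (S : Sys ι K E) (o a : ι)

/-- The root elements off the index `o`. -/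
def GammaG : Subgroup E := Subgroup.closure {g | ∃ j k u, j ≠ o ∧ k ≠ o ∧ j ≠ k ∧ g = S.x j k u}

/-- The column at `o`. -/
def AG : Subgroup E := Subgroup.closure {g | ∃ j u, j ≠ o ∧ g = S.x j o u}

/-- The row at `o`. -/
def ApG : Subgroup E := Subgroup.closure {g | ∃ j u, j ≠ o ∧ g = S.x o j u}

/-- The column at `o` off `a`. -/
def A1G : Subgroup E := Subgroup.closure {g | ∃ j u, j ≠ o ∧ j ≠ a ∧ g = S.x j o u}

/-- The row at `o` off `a`. -/
def Ap1G : Subgroup E := Subgroup.closure {g | ∃ j u, j ≠ o ∧ j ≠ a ∧ g = S.x o j u}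

/-- The column at `a` off `o`. -/
def CG : Subgroup E := Subgroup.closure {g | ∃ j u, j ≠ o ∧ j ≠ a ∧ g = S.x j a u}

variable {o a}

theorem gen_gamma {j k : ι} (hj : j ≠ o) (hk : k ≠ o) (hjk : j ≠ k) (u : K) : S.x j k u ∈ GammaG S o :=
  Subgroup.subset_closure ⟨j, k, u, hj, hk, hjk, rfl⟩

theorem gen_col {j : ι} (hj : j ≠ o) (u : K) : S.x j o u ∈ AG S o :=
  Subgroup.subset_closure ⟨j, u, hj, rfl⟩

theorem gen_row {j : ι} (hj : j ≠ o) (u : K) : S.x o j u ∈ ApG S o :=
  Subgroup.subset_closure ⟨j, u, hj, rfl⟩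

theorem gen_col1 {j : ι} (hj : j ≠ o) (hja : j ≠ a) (u : K) : S.x j o u ∈ A1G S o a :=
  Subgroup.subset_closure ⟨j, u, hj, hja, rfl⟩

theorem gen_row1 {j : ι} (hj : j ≠ o) (hja : j ≠ a) (u : K) : S.x o j u ∈ Ap1G S o a :=
  Subgroup.subset_closure ⟨j, u, hj, hja, rfl⟩

theorem gen_c {j : ι} (hj : j ≠ o) (hja : j ≠ a) (u : K) : S.x j a u ∈ CG S o a :=
  Subgroup.subset_closure ⟨j, u, hj, hja, rfl⟩

theorem A1_le : A1G S o a ≤ AG S o := by
  refine (Subgroup.closure_le _).mpr ?_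
  rintro _ ⟨j, u, hj, -, rfl⟩
  exact gen_col S hj u

theorem C_le (hoa : o ≠ a) : CG S o a ≤ GammaG S o := by
  refine (Subgroup.closure_le _).mpr ?_
  rintro _ ⟨j, u, hj, hja, rfl⟩
  exact gen_gamma S hj hoa.symm hja u

theorem Gamma_inv_gen : ∀ g ∈ {g | ∃ j k u, j ≠ o ∧ k ≠ o ∧ j ≠ k ∧ g = S.x j k u}, g⁻¹ ∈ {g | ∃ j k u, j ≠ o ∧ k ≠ o ∧ j ≠ k ∧ g = S.x j k u} := by
  rintro _ ⟨j, k, u, hj, hk, hjk, rfl⟩
  exact ⟨j, k, -u, hj, hk, hjk, (S.x_neg hjk u).symm⟩

/-- `Γ` normalises the column. -/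
theorem gamma_norm_col {g b : E} (hg : g ∈ GammaG S o) (hb : b ∈ AG S o) : g * b * g⁻¹ ∈ AG S o := by
  refine normalizes_of_gens (Gamma_inv_gen S) ?_ g hg b hb
  rintro _ ⟨j, k, u, hj, hk, hjk, rfl⟩ y hy
  refine conj_closure_mem _ ?_ y hy
  rintro _ ⟨i, v, hi, rfl⟩
  by_cases hki : k = i
  · subst hki
    have h := S.chev j k o hjk hk.symm.symm hj u v
    have e : S.x j k u * S.x k o v * (S.x j k u)⁻¹ = S.x j o (u * v) * S.x k o v := by
      rw [← h]; group
    rw [e]
    exact (AG S o).mul_mem (gen_col S hj _) (gen_col S hi _)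
  · have h := S.comm j k i o hjk hi hki hj u v
    rw [h]
    simpa using gen_col S hi v

/-- `Γ` normalises the row. -/
theorem gamma_norm_row {g b : E} (hg : g ∈ GammaG S o) (hb : b ∈ ApG S o) : g * b * g⁻¹ ∈ ApG S o := by
  refine normalizes_of_gens (Gamma_inv_gen S) ?_ g hg b hb
  rintro _ ⟨j, k, u, hj, hk, hjk, rfl⟩ y hy
  refine conj_closure_mem _ ?_ y hy
  rintro _ ⟨i, v, hi, rfl⟩
  by_cases hji : i = j
  · subst hji
    have h := S.chev o i k hj.symm hjk hk.symm v u
    have e0 : S.x i k u * S.x o i v = (S.x o k (v * u))⁻¹ * S.x o i v * S.x i k u := by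
      rw [← h]; group
    have e : S.x i k u * S.x o i v * (S.x i k u)⁻¹ = (S.x o k (v * u))⁻¹ * S.x o i v := by
      rw [e0]; group
    rw [e]
    exact (ApG S o).mul_mem ((ApG S o).inv_mem (gen_row S hk _)) (gen_row S hi _)
  · have h := S.comm o i j k hi.symm hjk hji hk.symm v u
    rw [← h]
    simpa using gen_row S hi v

variable (o) in
/-- The stabiliser of the `o`-th basis vector, `row · Γ`. -/
def PG : Subgroup E where
  carrier := {p | ∃ c ∈ ApG S o, ∃ g ∈ GammaG S o, p = c * g}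
  mul_mem' := by
    rintro _ _ ⟨c, hc, g, hg, rfl⟩ ⟨c', hc', g', hg', rfl⟩
    refine ⟨c * (g * c' * g⁻¹), (ApG S o).mul_mem hc (gamma_norm_row S hg hc'), g * g', (GammaG S o).mul_mem hg hg', by group⟩
  one_mem' := ⟨1, one_mem _, 1, one_mem _, by simp⟩
  inv_mem' := by
    rintro _ ⟨c, hc, g, hg, rfl⟩
    refine ⟨g⁻¹ * c⁻¹ * g⁻¹⁻¹, gamma_norm_row S ((GammaG S o).inv_mem hg) ((ApG S o).inv_mem hc), g⁻¹, (GammaG S o).inv_mem hg, by group⟩

theorem gamma_le_P : GammaG S o ≤ PG S o := fun g hg => ⟨1, one_mem _, g, hg, by simp⟩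

theorem row_le_P : ApG S o ≤ PG S o := fun g hg => ⟨g, hg, 1, one_mem _, by simp⟩

theorem mem_P_iff {p : E} : p ∈ PG S o ↔ ∃ c ∈ ApG S o, ∃ g ∈ GammaG S o, p = c * g := Iff.rfl

/-- Decomposition of the row. -/
theorem comm_oa_row1 (f : K) {c : E} (hc : c ∈ Ap1G S o a) (hoa : o ≠ a) :
    S.x o a f * c = c * S.x o a f := by
  have : Ap1G S o a ≤ Subgroup.centralizer {S.x o a f} := by
    refine (Subgroup.closure_le _).mpr ?_
    rintro _ ⟨j, u, hj, hja, rfl⟩
    rw [SetLike.mem_coe, Subgroup.mem_centralizer_iff]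
    rintro _ rfl
    exact S.comm o a o j hoa hj.symm hoa.symm hj.symm _ _
  have h := this hc
  rw [Subgroup.mem_centralizer_iff] at h
  exact h _ rfl

theorem row_decomp (hoa : o ≠ a) {c : E} (hc : c ∈ ApG S o) :
    ∃ f : K, ∃ c₁ ∈ Ap1G S o a, c = S.x o a f * c₁ := by
  induction hc using Subgroup.closure_induction with
  | mem x hx =>
    obtain ⟨j, u, hj, rfl⟩ := hx
    by_cases hja : j = a
    · subst hja
      exact ⟨u, 1, one_mem _, by simp⟩
    · exact ⟨0, _, gen_row1 S hj hja u, by rw [S.x_zero hoa, one_mul]⟩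
  | one => exact ⟨0, 1, one_mem _, by rw [S.x_zero hoa, one_mul]⟩
  | mul x y _ _ hx hy =>
    obtain ⟨f, c, hc, rfl⟩ := hx
    obtain ⟨f', c', hc', rfl⟩ := hy
    refine ⟨f + f', c * c', mul_mem hc hc', ?_⟩
    rw [← S.add o a hoa]
    calc S.x o a f * c * (S.x o a f' * c') = S.x o a f * (c * S.x o a f') * c' := by group
      _ = S.x o a f * (S.x o a f' * c) * c' := by rw [comm_oa_row1 S f' hc hoa]
      _ = _ := by group
  | inv x _ hx =>
    obtain ⟨f, c, hc, rfl⟩ := hx
    refine ⟨-f, c⁻¹, inv_mem hc, ?_⟩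
    rw [_root_.mul_inv_rev, S.x_neg hoa]
    exact ((show Commute (S.x o a f) c⁻¹ from comm_oa_row1 S f (inv_mem hc) hoa).inv_left).eq.symm

/-- Decomposition of the column. -/
theorem comm_ao_col1 (f : K) {c : E} (hc : c ∈ A1G S o a) (hoa : o ≠ a) :
    S.x a o f * c = c * S.x a o f := by
  have : A1G S o a ≤ Subgroup.centralizer {S.x a o f} := by
    refine (Subgroup.closure_le _).mpr ?_
    rintro _ ⟨j, u, hj, hja, rfl⟩
    rw [SetLike.mem_coe, Subgroup.mem_centralizer_iff]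
    rintro _ rfl
    exact S.comm a o j o hoa.symm hj hj.symm hoa.symm _ _
  have h := this hc
  rw [Subgroup.mem_centralizer_iff] at h
  exact h _ rfl

theorem col_decomp (hoa : o ≠ a) {b : E} (hb : b ∈ AG S o) :
    ∃ z : K, ∃ c ∈ A1G S o a, b = c * S.x a o z := by
  induction hb using Subgroup.closure_induction with
  | mem x hx =>
    obtain ⟨j, u, hj, rfl⟩ := hx
    by_cases hja : j = a
    · subst hja
      exact ⟨u, 1, one_mem _, by simp⟩
    · exact ⟨0, _, gen_col1 S hj hja u, by rw [S.x_zero hoa.symm, mul_one]⟩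
  | one => exact ⟨0, 1, one_mem _, by rw [S.x_zero hoa.symm, mul_one]⟩
  | mul x y _ _ hx hy =>
    obtain ⟨f, c, hc, rfl⟩ := hx
    obtain ⟨f', c', hc', rfl⟩ := hy
    refine ⟨f + f', c * c', mul_mem hc hc', ?_⟩
    rw [← S.add a o hoa.symm]
    calc c * S.x a o f * (c' * S.x a o f') = c * (S.x a o f * c') * S.x a o f' := by group
      _ = c * (c' * S.x a o f) * S.x a o f' := by rw [comm_ao_col1 S f hc' hoa]
      _ = _ := by group
  | inv x _ hx =>
    obtain ⟨f, c, hc, rfl⟩ := hx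
    refine ⟨-f, c⁻¹, inv_mem hc, ?_⟩
    rw [_root_.mul_inv_rev, S.x_neg hoa.symm]
    exact ((show Commute (S.x a o f) c⁻¹ from comm_ao_col1 S f (inv_mem hc) hoa).inv_left).eq

/-- `C` commutes with `A1`. -/
theorem comm_c_col1 {e c : E} (he : e ∈ CG S o a) (hc : c ∈ A1G S o a) : e * c = c * e := by
  have : A1G S o a ≤ Subgroup.centralizer (CG S o a : Set E) := by
    refine (Subgroup.closure_le _).mpr ?_
    rintro _ ⟨j, u, hj, hja, rfl⟩
    rw [SetLike.mem_coe, Subgroup.mem_centralizer_iff]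
    intro y hy
    have : CG S o a ≤ Subgroup.centralizer {S.x j o u} := by
      refine (Subgroup.closure_le _).mpr ?_
      rintro _ ⟨i, v, hi, hia, rfl⟩
      rw [SetLike.mem_coe, Subgroup.mem_centralizer_iff]
      rintro _ rfl
      exact S.comm j o i a hj hia hi.symm hja.symm.symm _ _
    have h := this hy
    rw [Subgroup.mem_centralizer_iff] at h
    exact (h _ rfl).symm
  have h := this hc
  rw [Subgroup.mem_centralizer_iff] at h
  exact h _ he

/-- `C` commutes with `x_oa`. -/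
theorem comm_c_oa (hoa : o ≠ a) (t : K) {e : E} (he : e ∈ CG S o a) : e * S.x o a t = S.x o a t * e := by
  have : CG S o a ≤ Subgroup.centralizer {S.x o a t} := by
    refine (Subgroup.closure_le _).mpr ?_
    rintro _ ⟨i, v, hi, hia, rfl⟩
    rw [SetLike.mem_coe, Subgroup.mem_centralizer_iff]
    rintro _ rfl
    exact S.comm o a i a hoa hia (Ne.symm hia) hoa _ _
  have h := this he
  rw [Subgroup.mem_centralizer_iff] at h
  exact (h _ rfl).symm

/-- Moving `x_oa` past `A1`. -/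
theorem oa_past_col1 (hoa : o ≠ a) (t : K) {c : E} (hc : c ∈ A1G S o a) :
    ∃ e ∈ CG S o a, S.x o a t * c = e * c * S.x o a t := by
  induction hc using Subgroup.closure_induction with
  | mem x hx =>
    obtain ⟨j, u, hj, hja, rfl⟩ := hx
    have h := S.chev j o a hj hoa hja u t
    refine ⟨(S.x j a (u * t))⁻¹, inv_mem (gen_c S hj hja _), ?_⟩
    rw [← h]
    group
  | one => exact ⟨1, one_mem _, by simp⟩
  | mul x y hx' hy' hx hy =>
    obtain ⟨e, he, h1⟩ := hx
    obtain ⟨e', he', h2⟩ := hy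
    refine ⟨e * e', mul_mem he he', ?_⟩
    calc S.x o a t * (x * y) = (S.x o a t * x) * y := by group
      _ = e * x * (S.x o a t * y) := by rw [h1]; group
      _ = e * (x * e') * (y * S.x o a t) := by rw [h2]; group
      _ = e * (e' * x) * (y * S.x o a t) := by rw [comm_c_col1 S he' hx']
      _ = _ := by group
  | inv x hx' hx =>
    obtain ⟨e, he, h1⟩ := hx
    refine ⟨e⁻¹, inv_mem he, ?_⟩
    have h2 := comm_c_col1 S he hx'
    have h3 := comm_c_oa S hoa t he
    -- `x⁻¹ w x = e w`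
    have h4 : x⁻¹ * S.x o a t * x = e * S.x o a t := by
      calc x⁻¹ * S.x o a t * x = x⁻¹ * (S.x o a t * x) := by group
        _ = x⁻¹ * (e * x * S.x o a t) := by rw [h1]
        _ = x⁻¹ * (x * e * S.x o a t) := by rw [h2]
        _ = _ := by group
    have h5 : x⁻¹ * S.x o a t = e * S.x o a t * x⁻¹ := by
      rw [← h4]; group
    have h6 : e⁻¹ * x⁻¹ = x⁻¹ * e⁻¹ := by
      have := (show Commute e x from h2).inv_inv
      exact this.eq
    calc S.x o a t * x⁻¹ = e⁻¹ * (e * S.x o a t * x⁻¹) := by group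
      _ = e⁻¹ * (x⁻¹ * S.x o a t) := by rw [h5]
      _ = _ := by group

/-- The context of the step. -/
structure Ctx (S : Sys ι K E) (o a : ι) where
  hoa : o ≠ a
  ψ : Matrix.SpecialLinearGroup (Fin 2) K →* E
  h1 : ∀ t, ψ (xM true t) = S.x o a t
  h2 : ∀ t, ψ (xM false t) = S.x a o t

namespace Ctx

variable {S} (C : Ctx S o a)

/-- The diagonal elements. -/
def d (s : Kˣ) : E := C.ψ (dM s)

/-- The Weyl element exchanging `e_o` and `e_a`. -/
def τ (_ : Ctx S o a) : E := S.W o a (-1)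

theorem psi_w (t : K) : C.ψ (wM t) = S.W o a t := by
  simp only [wM, map_mul, C.h1, C.h2, Sys.W]

theorem d_mul (s r : Kˣ) : C.d s * C.d r = C.d (s * r) := by
  simp only [d, ← map_mul, dM_mul]

theorem d_one : C.d 1 = 1 := by
  simp only [d, dM_one, map_one]

theorem d_inv (s : Kˣ) : (C.d s)⁻¹ = C.d s⁻¹ := by
  rw [inv_eq_iff_mul_eq_one, d_mul, mul_inv_cancel, d_one]

theorem d_eq (s : Kˣ) : C.d s = S.W o a (s : K) * S.W o a (-1) := by
  rw [d, dM_eq, map_mul, psi_w, psi_w]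

theorem d_conj_gen (s : Kˣ) {j k : ι} (hj : j ≠ o) (hk : k ≠ o) (hjk : j ≠ k) (u : K) :
    ∃ v, C.d s * S.x j k u * (C.d s)⁻¹ = S.x j k v := by
  have hoa := C.hoa
  have hs : (s : K) ≠ 0 := s.ne_zero
  have hm : (-1 : K) ≠ 0 := by simp
  have e : C.d s * S.x j k u * (C.d s)⁻¹
      = S.W o a (s : K) * (S.W o a (-1) * S.x j k u * (S.W o a (-1))⁻¹) * (S.W o a (s : K))⁻¹ := by
    rw [d_eq]; group
  rw [e]
  by_cases hja : j = a
  · subst hja
    rw [S.W_conj_jk hoa hk.symm hjk hm, S.W_conj_ik hoa hk.symm hjk hs]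
    exact ⟨_, rfl⟩
  · by_cases hka : k = a
    · subst hka
      rw [S.W_conj_kj hoa hj.symm (Ne.symm hjk) hm, S.W_conj_ki hoa hj.symm (Ne.symm hjk) hs]
      exact ⟨_, rfl⟩
    · refine ⟨u, ?_⟩
      have h1 : ∀ t : K, S.W o a t * S.x j k u = S.x j k u * S.W o a t := fun t =>
        S.W_comm hoa hj.symm hk.symm (Ne.symm hja) (Ne.symm hka) hjk t u
      rw [h1]
      rw [mul_inv_cancel_right, h1, mul_inv_cancel_right]

theorem d_conj_rowgen (s : Kˣ) {j : ι} (hj : j ≠ o) (u : K) :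
    ∃ v, C.d s * S.x o j u * (C.d s)⁻¹ = S.x o j v := by
  have hoa := C.hoa
  have hs : (s : K) ≠ 0 := s.ne_zero
  have hm : (-1 : K) ≠ 0 := by simp
  by_cases hja : j = a
  · subst hja
    refine ⟨(s : K) ^ 2 * u, ?_⟩
    rw [← C.h1, ← C.h1, ← id_conj_true, d]
    simp only [map_mul, map_inv]
  · have e : C.d s * S.x o j u * (C.d s)⁻¹
        = S.W o a (s : K) * (S.W o a (-1) * S.x o j u * (S.W o a (-1))⁻¹) * (S.W o a (s : K))⁻¹ := by
      rw [d_eq]; group
    rw [e, S.W_conj_ik hoa hj.symm (Ne.symm hja) hm, S.W_conj_jk hoa hj.symm (Ne.symm hja) hs]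
    exact ⟨_, rfl⟩

theorem d_conj_gamma (s : Kˣ) {g : E} (hg : g ∈ GammaG S o) : C.d s * g * (C.d s)⁻¹ ∈ GammaG S o := by
  refine conj_closure_mem _ ?_ g hg
  rintro _ ⟨j, k, u, hj, hk, hjk, rfl⟩
  obtain ⟨v, hv⟩ := C.d_conj_gen s hj hk hjk u
  rw [hv]
  exact gen_gamma S hj hk hjk v

theorem d_conj_row (s : Kˣ) {g : E} (hg : g ∈ ApG S o) : C.d s * g * (C.d s)⁻¹ ∈ ApG S o := by
  refine conj_closure_mem _ ?_ g hg
  rintro _ ⟨j, u, hj, rfl⟩
  obtain ⟨v, hv⟩ := C.d_conj_rowgen s hj u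
  rw [hv]
  exact gen_row S hj v

theorem d_conj_P (s : Kˣ) {p : E} (hp : p ∈ PG S o) : C.d s * p * (C.d s)⁻¹ ∈ PG S o := by
  obtain ⟨c, hc, g, hg, rfl⟩ := hp
  have e : C.d s * (c * g) * (C.d s)⁻¹ = (C.d s * c * (C.d s)⁻¹) * (C.d s * g * (C.d s)⁻¹) := by group
  rw [e]
  exact ⟨_, C.d_conj_row s hc, _, C.d_conj_gamma s hg, rfl⟩

/-- `p d = d p'`. -/
theorem P_mul_d (s : Kˣ) {p : E} (hp : p ∈ PG S o) : ∃ p' ∈ PG S o, p * C.d s = C.d s * p' := by
  refine ⟨C.d s⁻¹ * p * (C.d s⁻¹)⁻¹, C.d_conj_P s⁻¹ hp, ?_⟩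
  rw [← C.d_inv, inv_inv]
  group

theorem τ_inv : (C.τ)⁻¹ = S.W o a 1 := by
  rw [τ, S.W_inv C.hoa, neg_neg]

theorem τ_eq : C.τ = (S.W o a 1)⁻¹ := by
  rw [← τ_inv, inv_inv]

/-- `τ⁻¹ A τ ≤ P`. -/
theorem τ_conj_col {b : E} (hb : b ∈ AG S o) : (C.τ)⁻¹ * b * C.τ ∈ PG S o := by
  have hoa := C.hoa
  have h1 : (1 : K) ≠ 0 := one_ne_zero
  rw [τ_inv, τ_eq]
  refine conj_closure_mem _ ?_ b hb
  rintro _ ⟨j, u, hj, rfl⟩
  by_cases hja : j = a
  · subst hja
    rw [← C.h2, ← C.psi_w, ← map_inv, ← map_mul, ← map_mul, id_conj_false, C.h1]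
    exact row_le_P S (gen_row S hoa.symm _)
  · rw [S.W_conj_ki hoa hj.symm (Ne.symm hja) h1]
    exact gamma_le_P S (gen_gamma S hj hoa.symm hja _)

/-- `τ⁻¹ A'₁ τ ≤ Γ`. -/
theorem τ_conj_row1 {c : E} (hc : c ∈ Ap1G S o a) : (C.τ)⁻¹ * c * C.τ ∈ GammaG S o := by
  have hoa := C.hoa
  have h1 : (1 : K) ≠ 0 := one_ne_zero
  rw [τ_inv, τ_eq]
  refine conj_closure_mem _ ?_ c hc
  rintro _ ⟨j, u, hj, hja, rfl⟩
  rw [S.W_conj_ik hoa hj.symm (Ne.symm hja) h1]
  exact gen_gamma S hoa.symm hj (Ne.symm hja) _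

/-- `b τ d = τ d p`. -/
theorem col_mul_τd (s : Kˣ) {b : E} (hb : b ∈ AG S o) :
    ∃ p ∈ PG S o, b * C.τ * C.d s = C.τ * C.d s * p := by
  obtain ⟨p, hp, h⟩ := C.P_mul_d s (C.τ_conj_col hb)
  refine ⟨p, hp, ?_⟩
  calc b * C.τ * C.d s = C.τ * ((C.τ)⁻¹ * b * C.τ * C.d s) := by group
    _ = _ := by rw [h]; group

/-- `c τ d = τ d p`. -/
theorem row1_mul_τd (s : Kˣ) {c : E} (hc : c ∈ Ap1G S o a) :
    ∃ p ∈ PG S o, c * C.τ * C.d s = C.τ * C.d s * p := by
  obtain ⟨p, hp, h⟩ := C.P_mul_d s (gamma_le_P S (C.τ_conj_row1 hc))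
  refine ⟨p, hp, ?_⟩
  calc c * C.τ * C.d s = C.τ * ((C.τ)⁻¹ * c * C.τ * C.d s) := by group
    _ = _ := by rw [h]; group

/-- The normal forms. -/
def InT (g : E) : Prop :=
  (∃ b ∈ AG S o, ∃ s : Kˣ, ∃ p ∈ PG S o, g = b * C.d s * p) ∨
  (∃ γ ∈ GammaG S o, ∃ s : Kˣ, ∃ p ∈ PG S o, g = γ * C.τ * C.d s * p)

theorem inT_one : C.InT 1 :=
  Or.inl ⟨1, one_mem _, 1, 1, one_mem _, by rw [C.d_one]; simp⟩

theorem inT_gamma {γ y : E} (hγ : γ ∈ GammaG S o) (hy : C.InT y) : C.InT (γ * y) := by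
  rcases hy with ⟨b, hb, s, p, hp, rfl⟩ | ⟨γ', hγ', s, p, hp, rfl⟩
  · obtain ⟨p', hp', h⟩ := C.P_mul_d s (gamma_le_P S hγ)
    refine Or.inl ⟨γ * b * γ⁻¹, gamma_norm_col S hγ hb, s, p' * p, mul_mem hp' hp, ?_⟩
    calc γ * (b * C.d s * p) = (γ * b * γ⁻¹) * (γ * C.d s) * p := by group
      _ = _ := by rw [h]; group
  · refine Or.inr ⟨γ * γ', mul_mem hγ hγ', s, p, hp, by group⟩

theorem inT_col {b' y : E} (hb' : b' ∈ AG S o) (hy : C.InT y) : C.InT (b' * y) := by
  rcases hy with ⟨b, hb, s, p, hp, rfl⟩ | ⟨γ, hγ, s, p, hp, rfl⟩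
  · exact Or.inl ⟨b' * b, mul_mem hb' hb, s, p, hp, by group⟩
  · have h1 : γ⁻¹ * b' * γ ∈ AG S o := by
      have := gamma_norm_col S (inv_mem hγ) hb'
      simpa using this
    obtain ⟨p', hp', h⟩ := C.col_mul_τd s h1
    refine Or.inr ⟨γ, hγ, s, p' * p, mul_mem hp' hp, ?_⟩
    calc b' * (γ * C.τ * C.d s * p) = γ * ((γ⁻¹ * b' * γ) * C.τ * C.d s) * p := by group
      _ = _ := by rw [h]; group

/-- The `SL₂`-level identities in `E`. -/
theorem oa_mul_τ (t : Kˣ) : S.x o a (t : K) * C.τ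
    = S.x a o ((t⁻¹ : Kˣ) : K) * C.d t * S.x o a (-((t⁻¹ : Kˣ) : K)) := by
  rw [τ, ← C.psi_w, ← C.h1, ← C.h1, ← C.h2, d, ← map_mul, ← map_mul, ← map_mul, id_i]

theorem oa_mul_ao (t z : K) (y : Kˣ) (hy : (y : K) = 1 + t * z) :
    S.x o a t * S.x a o z = S.x a o (z * ((y⁻¹ : Kˣ) : K)) * C.d y * S.x o a (t * ((y⁻¹ : Kˣ) : K)) := by
  rw [← C.h1, ← C.h1, ← C.h2, ← C.h2, d, ← map_mul, ← map_mul, ← map_mul, id_ii t z y hy]

theorem oa_mul_ao' (t r : Kˣ) (hr : (r : K) = -((t⁻¹ : Kˣ) : K)) :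
    S.x o a (t : K) * S.x a o (-((t⁻¹ : Kˣ) : K)) = C.τ * C.d r * S.x o a (-(t : K)) := by
  rw [τ, ← C.psi_w, ← C.h1, ← C.h1, ← C.h2, d, ← map_mul, ← map_mul, ← map_mul, id_iii t r hr]

include C in
theorem oa_mem_P (t : K) : S.x o a t ∈ PG S o := row_le_P S (gen_row S C.hoa.symm t)

/-- Closure under `x_oa`. -/
theorem inT_oa (t : K) {y : E} (hy : C.InT y) : C.InT (S.x o a t * y) := by
  have hoa := C.hoa
  rcases hy with ⟨b, hb, s, p, hp, rfl⟩ | ⟨γ, hγ, s, p, hp, rfl⟩
  · obtain ⟨z, c, hc, rfl⟩ := col_decomp S hoa hb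
    obtain ⟨e, he, h⟩ := oa_past_col1 S hoa t hc
    have hcol : c ∈ AG S o := A1_le S hc
    have key : C.InT (c * (S.x o a t * S.x a o z) * C.d s * p) := by
      by_cases hy0 : 1 + t * z = 0
      · -- the exceptional cell
        have ht : t ≠ 0 := by
          rintro rfl
          simp at hy0
        let t' : Kˣ := Units.mk0 t ht
        let r : Kˣ := Units.mk0 (-t⁻¹) (neg_ne_zero.mpr (inv_ne_zero ht))
        have hz : z = -((t'⁻¹ : Kˣ) : K) := by
          simp only [t', Units.val_inv_eq_inv_val, Units.val_mk0]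
          field_simp
          linear_combination hy0
        have e1 := C.oa_mul_ao' t' r (by simp [r, t'])
        have e1' : S.x o a t * S.x a o z = C.τ * C.d r * S.x o a (-t) := by
          rw [hz]
          exact e1
        obtain ⟨p1, hp1, h1⟩ := C.P_mul_d s (C.oa_mem_P (-t))
        obtain ⟨p2, hp2, h2⟩ := C.col_mul_τd (r * s) hcol
        refine Or.inr ⟨1, one_mem _, r * s, p2 * (p1 * p), mul_mem hp2 (mul_mem hp1 hp), ?_⟩
        rw [e1']
        calc c * (C.τ * C.d r * S.x o a (-t)) * C.d s * p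
            = c * C.τ * C.d r * (S.x o a (-t) * C.d s) * p := by group
          _ = c * C.τ * (C.d r * C.d s) * p1 * p := by rw [h1]; group
          _ = (c * C.τ * C.d (r * s)) * p1 * p := by rw [d_mul]
          _ = _ := by rw [h2]; group
      · let y' : Kˣ := Units.mk0 _ hy0
        have e1 := C.oa_mul_ao t z y' (by simp [y'])
        obtain ⟨p1, hp1, h1⟩ := C.P_mul_d s (C.oa_mem_P (t * ((y'⁻¹ : Kˣ) : K)))
        refine Or.inl ⟨c * S.x a o (z * ((y'⁻¹ : Kˣ) : K)), mul_mem hcol (gen_col S hoa.symm _), y' * s, p1 * p, mul_mem hp1 hp, ?_⟩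
        rw [e1, ← d_mul]
        calc c * (S.x a o (z * ((y'⁻¹ : Kˣ) : K)) * C.d y' * S.x o a (t * ((y'⁻¹ : Kˣ) : K))) * C.d s * p
            = c * S.x a o (z * ((y'⁻¹ : Kˣ) : K)) * C.d y' * (S.x o a (t * ((y'⁻¹ : Kˣ) : K)) * C.d s) * p := by group
          _ = _ := by rw [h1]; group
    have he' : e ∈ GammaG S o := C_le S hoa he
    have := C.inT_gamma he' key
    convert this using 1
    calc S.x o a t * (c * S.x a o z * C.d s * p) = (S.x o a t * c) * S.x a o z * C.d s * p := by group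
      _ = _ := by rw [h]; group
  · -- the second cell
    have h1 : γ⁻¹ * S.x o a t * γ ∈ ApG S o := by
      have := gamma_norm_row S (inv_mem hγ) (gen_row S hoa.symm t)
      simpa using this
    obtain ⟨f, c, hc, hfc⟩ := row_decomp S hoa h1
    obtain ⟨p1, hp1, h2⟩ := C.row1_mul_τd s hc
    have e0 : S.x o a t * (γ * C.τ * C.d s * p) = γ * (S.x o a f * (C.τ * C.d s * p1 * p)) := by
      calc S.x o a t * (γ * C.τ * C.d s * p) = γ * (γ⁻¹ * S.x o a t * γ) * C.τ * C.d s * p := by group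
        _ = γ * S.x o a f * (c * C.τ * C.d s) * p := by rw [hfc]; group
        _ = _ := by rw [h2]; group
    rw [e0]
    refine C.inT_gamma hγ ?_
    by_cases hf : f = 0
    · rw [hf, S.x_zero hoa, one_mul]
      exact Or.inr ⟨1, one_mem _, s, p1 * p, mul_mem hp1 hp, by group⟩
    · let f' : Kˣ := Units.mk0 f hf
      have e1 := C.oa_mul_τ f'
      have e2 : S.x o a f * C.τ = S.x a o ((f'⁻¹ : Kˣ) : K) * C.d f' * S.x o a (-((f'⁻¹ : Kˣ) : K)) := e1
      obtain ⟨p3, hp3, h3⟩ := C.P_mul_d s (C.oa_mem_P (-((f'⁻¹ : Kˣ) : K)))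
      refine Or.inl ⟨S.x a o ((f'⁻¹ : Kˣ) : K), gen_col S hoa.symm _, f' * s, p3 * (p1 * p), mul_mem hp3 (mul_mem hp1 hp), ?_⟩
      rw [← d_mul]
      calc S.x o a f * (C.τ * C.d s * p1 * p) = (S.x o a f * C.τ) * C.d s * p1 * p := by group
        _ = S.x a o ((f'⁻¹ : Kˣ) : K) * C.d f' * (S.x o a (-((f'⁻¹ : Kˣ) : K)) * C.d s) * p1 * p := by rw [e2]; group
        _ = _ := by rw [h3]; group

/-- Closure under the generators. -/
theorem inT_gen {i j : ι} (hij : i ≠ j) (t : K) {y : E} (hy : C.InT y) : C.InT (S.x i j t * y) := by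
  have hoa := C.hoa
  by_cases hi : i = o
  · subst hi
    by_cases hja : j = a
    · subst hja
      exact C.inT_oa t hy
    · -- `x_oj(t) = [x_oa(t), x_aj(1)]`
      have h := S.chev i a j hoa (Ne.symm hja) hij t 1
      rw [mul_one] at h
      rw [← h]
      have h1 : C.InT (S.x a j (-1) * y) := C.inT_gamma (gen_gamma S hoa.symm hij.symm.symm.symm (Ne.symm hja) _) hy
      have h2 := C.inT_oa (-t) h1
      have h3 : C.InT (S.x a j 1 * (S.x i a (-t) * (S.x a j (-1) * y))) :=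
        C.inT_gamma (gen_gamma S hoa.symm hij.symm.symm.symm (Ne.symm hja) _) h2
      have h4 := C.inT_oa t h3
      convert h4 using 1
      rw [S.x_neg hoa, S.x_neg (Ne.symm hja)]
      group
  · by_cases hj : j = o
    · subst hj
      exact C.inT_col (gen_col S hi t) hy
    · exact C.inT_gamma (gen_gamma S hi hj hij t) hy

/-- Every element has a normal form. -/
theorem inT_all (hgen : Subgroup.closure {g | ∃ i j t, i ≠ j ∧ g = S.x i j t} = ⊤) (g : E) : C.InT g := by
  have hg : g ∈ Subgroup.closure {g | ∃ i j t, i ≠ j ∧ g = S.x i j t} := by rw [hgen]; trivial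
  induction hg using Subgroup.closure_induction_left with
  | one => exact C.inT_one
  | mul_left x hx y _ ih =>
    obtain ⟨i, j, t, hij, rfl⟩ := hx
    exact C.inT_gen hij t ih
  | inv_mul_cancel x hx y _ ih =>
    obtain ⟨i, j, t, hij, rfl⟩ := hx
    rw [S.x_inv hij]
    exact C.inT_gen hij _ ih

end Ctx

end Step

/-! ### The matrix side -/

section MatrixSide

variable {ι K E : Type*} [Field K] [Group E] [Fintype ι] [DecidableEq ι]

/-- Matrices whose `o`-th row is that of the identity. -/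
def RowFix (K : Type*) [Field K] (o : ι) : Subgroup (Matrix.SpecialLinearGroup ι K) where
  carrier := {M | ∀ j, (M : Matrix ι ι K) o j = (1 : Matrix ι ι K) o j}
  mul_mem' := by
    intro M M' hM hM' j
    have hM1 : ∀ j, (M : Matrix ι ι K) o j = (1 : Matrix ι ι K) o j := hM
    rw [Matrix.SpecialLinearGroup.coe_mul, Matrix.mul_apply]
    simp_rw [hM1]
    rw [← Matrix.mul_apply, one_mul]
    exact hM' j
  one_mem' := fun j => rfl
  inv_mem' := by
    intro M hM j
    have hM1 : ∀ j, (M : Matrix ι ι K) o j = (1 : Matrix ι ι K) o j := hM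
    have h : ((M * M⁻¹ : Matrix.SpecialLinearGroup ι K) : Matrix ι ι K) o j = (1 : Matrix ι ι K) o j := by
      rw [mul_inv_cancel]; rfl
    rw [Matrix.SpecialLinearGroup.coe_mul, Matrix.mul_apply] at h
    simp_rw [hM1] at h
    rw [← Matrix.mul_apply, one_mul] at h
    exact h

/-- Matrices whose `o`-th column is that of the identity. -/
def ColFix (K : Type*) [Field K] (o : ι) : Subgroup (Matrix.SpecialLinearGroup ι K) where
  carrier := {M | ∀ i, (M : Matrix ι ι K) i o = (1 : Matrix ι ι K) i o}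
  mul_mem' := by
    intro M M' hM hM' i
    have hM1 : ∀ i, (M' : Matrix ι ι K) i o = (1 : Matrix ι ι K) i o := hM'
    rw [Matrix.SpecialLinearGroup.coe_mul, Matrix.mul_apply]
    simp_rw [hM1]
    rw [← Matrix.mul_apply, mul_one]
    exact hM i
  one_mem' := fun j => rfl
  inv_mem' := by
    intro M hM i
    have hM1 : ∀ i, (M : Matrix ι ι K) i o = (1 : Matrix ι ι K) i o := hM
    have h : ((M⁻¹ * M : Matrix.SpecialLinearGroup ι K) : Matrix ι ι K) i o = (1 : Matrix ι ι K) i o := by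
      rw [inv_mul_cancel]; rfl
    rw [Matrix.SpecialLinearGroup.coe_mul, Matrix.mul_apply] at h
    simp_rw [hM1] at h
    rw [← Matrix.mul_apply, mul_one] at h
    exact h

theorem rowfix_mul_apply {o : ι} {M M' : Matrix.SpecialLinearGroup ι K} (hM : M ∈ RowFix K o) (j : ι) :
    ((M * M' : Matrix.SpecialLinearGroup ι K) : Matrix ι ι K) o j = (M' : Matrix ι ι K) o j := by
  rw [Matrix.SpecialLinearGroup.coe_mul, Matrix.mul_apply]
  have hM' : ∀ j, (M : Matrix ι ι K) o j = (1 : Matrix ι ι K) o j := hM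
  simp_rw [hM']
  rw [← Matrix.mul_apply, one_mul]

theorem mul_colfix_apply {o : ι} {M M' : Matrix.SpecialLinearGroup ι K} (hM : M' ∈ ColFix K o) (i : ι) :
    ((M * M' : Matrix.SpecialLinearGroup ι K) : Matrix ι ι K) i o = (M : Matrix ι ι K) i o := by
  rw [Matrix.SpecialLinearGroup.coe_mul, Matrix.mul_apply]
  have hM' : ∀ i, (M' : Matrix ι ι K) i o = (1 : Matrix ι ι K) i o := hM
  simp_rw [hM']
  rw [← Matrix.mul_apply, mul_one]

theorem tv_rowfix {o i j : ι} (hij : i ≠ j) (hi : i ≠ o) (t : K) :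
    Matrix.SpecialLinearGroup.transvection hij t ∈ RowFix K o := by
  intro m
  rw [Matrix.SpecialLinearGroup.transvection_coe, Matrix.add_apply]
  simp [Matrix.single_apply, hi, Ne.symm hi]

theorem tv_colfix {o i j : ι} (hij : i ≠ j) (hj : j ≠ o) (t : K) :
    Matrix.SpecialLinearGroup.transvection hij t ∈ ColFix K o := by
  intro m
  rw [Matrix.SpecialLinearGroup.transvection_coe, Matrix.add_apply]
  simp [Matrix.single_apply, hj, Ne.symm hj]

variable (S : Sys ι K E) (π : E →* Matrix.SpecialLinearGroup ι K)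
  (hπ : ∀ i j (h : i ≠ j) t, π (S.x i j t) = Matrix.SpecialLinearGroup.transvection h t)

include hπ

theorem gamma_rowfix {o : ι} {g : E} (hg : g ∈ GammaG S o) : π g ∈ RowFix K o := by
  have : GammaG S o ≤ (RowFix K o).comap π := by
    refine (Subgroup.closure_le _).mpr ?_
    rintro _ ⟨j, k, u, hj, hk, hjk, rfl⟩
    rw [SetLike.mem_coe, Subgroup.mem_comap, hπ j k hjk]
    exact tv_rowfix hjk hj u
  exact this hg

theorem gamma_colfix {o : ι} {g : E} (hg : g ∈ GammaG S o) : π g ∈ ColFix K o := by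
  have : GammaG S o ≤ (ColFix K o).comap π := by
    refine (Subgroup.closure_le _).mpr ?_
    rintro _ ⟨j, k, u, hj, hk, hjk, rfl⟩
    rw [SetLike.mem_coe, Subgroup.mem_comap, hπ j k hjk]
    exact tv_colfix hjk hk u
  exact this hg

theorem col_rowfix {o : ι} {g : E} (hg : g ∈ AG S o) : π g ∈ RowFix K o := by
  have : AG S o ≤ (RowFix K o).comap π := by
    refine (Subgroup.closure_le _).mpr ?_
    rintro _ ⟨j, u, hj, rfl⟩
    rw [SetLike.mem_coe, Subgroup.mem_comap, hπ j o hj]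
    exact tv_rowfix hj hj u
  exact this hg

theorem row_colfix {o : ι} {g : E} (hg : g ∈ ApG S o) : π g ∈ ColFix K o := by
  have : ApG S o ≤ (ColFix K o).comap π := by
    refine (Subgroup.closure_le _).mpr ?_
    rintro _ ⟨j, u, hj, rfl⟩
    rw [SetLike.mem_coe, Subgroup.mem_comap, hπ o j (Ne.symm hj)]
    exact tv_colfix (Ne.symm hj) hj u
  exact this hg

theorem P_colfix {o : ι} {g : E} (hg : g ∈ PG S o) : π g ∈ ColFix K o := by
  obtain ⟨c, hc, g', hg', rfl⟩ := hg
  rw [map_mul]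
  exact mul_mem (row_colfix S π hπ hc) (gamma_colfix S π hπ hg')

omit hπ

theorem hom_ext_single {J N M : Type*} [Fintype J] [DecidableEq J] [Monoid N] [Monoid M]
    (f g : (J → N) →* M) (h : ∀ i y, f (Pi.mulSingle i y) = g (Pi.mulSingle i y)) : f = g := by
  apply (MonoidHom.noncommPiCoprodEquiv (N := fun _ : J => N) (M := M)).symm.injective
  apply Subtype.ext
  funext i
  ext y
  exact h i y

include hπ

/-- Injectivity of a product of commuting root groups. -/
theorem param_inj {J : Type*} [Fintype J] [DecidableEq J] (p q : J → ι) (hpq : ∀ i j, q i ≠ p j)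
    (hinj : ∀ i j, p i = p j → q i = q j → i = j) {b : E}
    (hb : b ∈ Subgroup.closure {g | ∃ j u, g = S.x (p j) (q j) u})
    (h0 : ∀ j, (π b : Matrix ι ι K) (p j) (q j) = 0) : b = 1 := by
  have hne : ∀ j, p j ≠ q j := fun j => (hpq j j).symm
  let φ : ∀ j : J, Multiplicative K →* E := fun j =>
    { toFun := fun t => S.x (p j) (q j) (Multiplicative.toAdd t)
      map_one' := S.x_zero (hne j)
      map_mul' := fun s t => (S.add _ _ (hne j) _ _).symm }
  have hcomm : Pairwise fun i j => ∀ x y, Commute (φ i x) (φ j y) := by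
    intro i j _ x y
    exact S.comm _ _ _ _ (hne i) (hne j) (hpq i j) (hpq j i).symm _ _
  let A : (J → Multiplicative K) →* E := MonoidHom.noncommPiCoprod φ hcomm
  have hA : ∀ j y, A (Pi.mulSingle j y) = S.x (p j) (q j) (Multiplicative.toAdd y) := fun j y =>
    MonoidHom.noncommPiCoprod_mulSingle φ j y
  have hrange : b ∈ A.range := by
    have : Subgroup.closure {g | ∃ j u, g = S.x (p j) (q j) u} ≤ A.range := by
      refine (Subgroup.closure_le _).mpr ?_
      rintro _ ⟨j, u, rfl⟩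
      exact ⟨Pi.mulSingle j (Multiplicative.ofAdd u), hA j _⟩
    exact this hb
  obtain ⟨z, rfl⟩ := hrange
  -- the explicit matrix
  let β : (J → Multiplicative K) →* Matrix ι ι K :=
    { toFun := fun z => 1 + ∑ j, Matrix.single (p j) (q j) (Multiplicative.toAdd (z j))
      map_one' := by simp
      map_mul' := by
        intro z z'
        have e0 : (∑ j, Matrix.single (p j) (q j) (Multiplicative.toAdd (z j))) *
            (∑ j, Matrix.single (p j) (q j) (Multiplicative.toAdd (z' j))) = 0 := by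
          rw [Finset.sum_mul_sum]
          refine Finset.sum_eq_zero fun i _ => Finset.sum_eq_zero fun j _ => ?_
          exact Matrix.single_mul_single_of_ne _ _ _ _ (hpq i j) _
        simp only [Pi.mul_apply, toAdd_mul, Matrix.single_add, Finset.sum_add_distrib]
        rw [mul_add, add_mul, add_mul, e0]
        simp only [one_mul, mul_one, add_zero, add_assoc] }
  let coeH : Matrix.SpecialLinearGroup ι K →* Matrix ι ι K :=
    { toFun := fun M => (M : Matrix ι ι K)
      map_one' := rfl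
      map_mul' := fun _ _ => rfl }
  have heq : (coeH.comp π).comp A = β := by
    apply hom_ext_single
    intro i y
    change ((π (A (Pi.mulSingle i y)) : Matrix.SpecialLinearGroup ι K) : Matrix ι ι K) = 1 + ∑ j, Matrix.single (p j) (q j) (Multiplicative.toAdd ((Pi.mulSingle i y : J → Multiplicative K) j))
    rw [hA, hπ _ _ (hne i), Matrix.SpecialLinearGroup.transvection_coe, Finset.sum_eq_single i]
    · simp
    · intro j _ hj
      simp [Pi.mulSingle_eq_of_ne hj]
    · simp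
  have hz : z = 1 := by
    funext i
    have h1 := h0 i
    have h2 : ((π (A z) : Matrix.SpecialLinearGroup ι K) : Matrix ι ι K) = 1 + ∑ j, Matrix.single (p j) (q j) (Multiplicative.toAdd (z j)) :=
      DFunLike.congr_fun heq z
    rw [h2, Matrix.add_apply, Matrix.one_apply_ne (hne i), zero_add, Matrix.sum_apply, Finset.sum_eq_single i] at h1
    · simpa using h1
    · intro j _ hj
      rw [Matrix.single_apply_of_ne]
      rintro ⟨h3, h4⟩
      exact hj (hinj j i h3 h4)
    · simp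
  rw [hz, map_one]

theorem col_eq_one {o : ι} {b : E} (hb : b ∈ AG S o) (h0 : ∀ j, j ≠ o → (π b : Matrix ι ι K) j o = 0) : b = 1 := by
  refine param_inj S π hπ (J := {j : ι // j ≠ o}) (fun j => j.1) (fun _ => o) (fun i j => j.2.symm) ?_ ?_ (fun j => h0 j.1 j.2)
  · intro i j h _
    exact Subtype.ext h
  · refine Subgroup.closure_mono ?_ hb
    rintro _ ⟨j, u, hj, rfl⟩
    exact ⟨⟨j, hj⟩, u, rfl⟩

theorem row_eq_one {o : ι} {b : E} (hb : b ∈ ApG S o) (h0 : ∀ j, j ≠ o → (π b : Matrix ι ι K) o j = 0) : b = 1 := by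
  refine param_inj S π hπ (J := {j : ι // j ≠ o}) (fun _ => o) (fun j => j.1) (fun i j => i.2) ?_ ?_ (fun j => h0 j.1 j.2)
  · intro i j _ h
    exact Subtype.ext h
  · refine Subgroup.closure_mono ?_ hb
    rintro _ ⟨j, u, hj, rfl⟩
    exact ⟨⟨j, hj⟩, u, rfl⟩

omit hπ in
theorem tv_mul_apply {i j : ι} (c : K) (Y : Matrix ι ι K) (p m : ι) :
    ((1 + Matrix.single i j c) * Y) p m = Y p m + (if p = i then c * Y j m else 0) := by
  by_cases h : p = i
  · subst h
    have := Matrix.transvection_mul_apply_same p j m c Y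
    simpa [Matrix.transvection] using this
  · have := Matrix.transvection_mul_apply_of_ne i j p m h c Y
    simpa [Matrix.transvection, h] using this

namespace Ctx

variable {S} {o a : ι} (C : Ctx S o a)

theorem pi_W (t : K) : π (S.W o a t) = Matrix.SpecialLinearGroup.transvection C.hoa t *
    Matrix.SpecialLinearGroup.transvection C.hoa.symm (-t⁻¹) * Matrix.SpecialLinearGroup.transvection C.hoa t := by
  rw [Sys.W, map_mul, map_mul, hπ _ _ C.hoa, hπ _ _ C.hoa.symm]

theorem pi_d (s : Kˣ) : π (C.d s) = Matrix.SpecialLinearGroup.diag2n C.hoa (s : K) s.ne_zero := by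
  rw [C.d_eq, map_mul, C.pi_W π hπ, C.pi_W π hπ, Cfsg.Agent.Lib.Classical.diag2n_decompose C.hoa (s : K) s.ne_zero]
  simp only [inv_neg, inv_one, neg_neg, mul_assoc]

theorem pi_d_apply (s : Kˣ) (i : ι) :
    ((π (C.d s) : Matrix.SpecialLinearGroup ι K) : Matrix ι ι K) i o = if i = o then (s : K) else 0 := by
  rw [C.pi_d π hπ, Matrix.SpecialLinearGroup.diag2n_coe, Matrix.diagonal_apply]
  by_cases h : i = o
  · simp [h]
  · simp [h]

theorem pi_τ_apply : ((π C.τ : Matrix.SpecialLinearGroup ι K) : Matrix ι ι K) o o = 0 := by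
  have hoa := C.hoa
  rw [τ, C.pi_W π hπ]
  simp only [Matrix.SpecialLinearGroup.coe_mul, Matrix.SpecialLinearGroup.transvection_coe]
  rw [mul_assoc, tv_mul_apply, tv_mul_apply, tv_mul_apply]
  simp [hoa, hoa.symm, Matrix.single_apply, tv_mul_apply]

include C in
/-- The step: the kernel of `π` is trivial. -/
theorem inj (hgen : Subgroup.closure {g | ∃ i j t, i ≠ j ∧ g = S.x i j t} = ⊤)
    (hΓ : ∀ g ∈ GammaG S o, π g = 1 → g = 1) (g : E) (hg : π g = 1) : g = 1 := by
  have hone : ∀ i j, ((π g : Matrix.SpecialLinearGroup ι K) : Matrix ι ι K) i j = (1 : Matrix ι ι K) i j := by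
    intro i j
    rw [hg]
    rfl
  rcases C.inT_all hgen g with ⟨b, hb, s, p, hp, rfl⟩ | ⟨γ, hγ, s, p, hp, rfl⟩
  · have hP := P_colfix S π hπ hp
    have hb' := col_rowfix S π hπ hb
    have E1 : ∀ i, ((π (b * C.d s * p) : Matrix.SpecialLinearGroup ι K) : Matrix ι ι K) i o
        = ((π b : Matrix.SpecialLinearGroup ι K) : Matrix ι ι K) i o * (s : K) := by
      intro i
      rw [map_mul, mul_colfix_apply hP, map_mul, Matrix.SpecialLinearGroup.coe_mul, Matrix.mul_apply,
        Finset.sum_eq_single o]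
      · rw [C.pi_d_apply π hπ, if_pos rfl]
      · intro k _ hk
        rw [C.pi_d_apply π hπ, if_neg hk, mul_zero]
      · simp
    have hs : (s : K) = 1 := by
      have h1 := E1 o
      rw [hone, Matrix.one_apply_eq, hb' o, Matrix.one_apply_eq, one_mul] at h1
      exact h1.symm
    have hs' : s = 1 := Units.ext hs
    have hb1 : b = 1 := by
      refine col_eq_one S π hπ hb ?_
      intro j hj
      have h1 := E1 j
      rw [hone, Matrix.one_apply_ne hj, hs, mul_one] at h1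
      exact h1.symm
    subst hb1
    subst hs'
    rw [C.d_one, one_mul, one_mul] at hg ⊢
    obtain ⟨c, hc, g', hg', rfl⟩ := hp
    rw [map_mul] at hg
    have h2 : π c = π g'⁻¹ := by
      rw [map_inv]
      exact eq_inv_of_mul_eq_one_left hg
    have hc1 : c = 1 := by
      refine row_eq_one S π hπ hc ?_
      intro j hj
      rw [h2]
      have := gamma_rowfix S π hπ (inv_mem hg') j
      rw [this, Matrix.one_apply_ne (Ne.symm hj)]
    subst hc1
    rw [map_one, one_mul] at hg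
    rw [one_mul]
    exact hΓ g' hg' hg
  · exfalso
    have hP := P_colfix S π hπ hp
    have hγ' := gamma_rowfix S π hπ hγ
    have h1 := hone o o
    rw [map_mul, mul_colfix_apply hP, map_mul, map_mul, mul_assoc, rowfix_mul_apply hγ',
      Matrix.SpecialLinearGroup.coe_mul, Matrix.mul_apply, Finset.sum_eq_single o, C.pi_τ_apply π hπ, zero_mul,
      Matrix.one_apply_eq] at h1
    · exact zero_ne_one h1
    · intro k _ hk
      rw [C.pi_d_apply π hπ, if_neg hk, mul_zero]
    · simp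

end Ctx

end MatrixSide

/-! ### The canonical system on `SL` -/

section Canonical

variable {ι K : Type*} [Field K] [Fintype ι] [DecidableEq ι]

theorem tv_comm {i j k l : ι} (hij : i ≠ j) (hkl : k ≠ l) (hjk : j ≠ k) (hil : i ≠ l) (t u : K) :
    Matrix.SpecialLinearGroup.transvection hij t * Matrix.SpecialLinearGroup.transvection hkl u =
      Matrix.SpecialLinearGroup.transvection hkl u * Matrix.SpecialLinearGroup.transvection hij t := by
  apply Subtype.ext
  simp only [Matrix.SpecialLinearGroup.coe_mul, Matrix.SpecialLinearGroup.transvection_coe]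
  have e1 : (Matrix.single i j t : Matrix ι ι K) * Matrix.single k l u = 0 :=
    Matrix.single_mul_single_of_ne _ _ _ _ hjk _
  have e2 : (Matrix.single k l u : Matrix ι ι K) * Matrix.single i j t = 0 :=
    Matrix.single_mul_single_of_ne _ _ _ _ (Ne.symm hil) _
  simp only [mul_add, add_mul, mul_one, one_mul, e1, e2, add_zero]
  abel

/-- The canonical system. -/
noncomputable def tvS (ι K : Type*) [Field K] [Fintype ι] [DecidableEq ι] : Sys ι K (Matrix.SpecialLinearGroup ι K) where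
  x i j t := if h : i ≠ j then Matrix.SpecialLinearGroup.transvection h t else 1
  add := by
    intro i j h t u
    simp only [dif_pos h]
    exact (Matrix.SpecialLinearGroup.transvection_add h t u).symm
  comm := by
    intro i j k l hij hkl hjk hil t u
    simp only [dif_pos hij, dif_pos hkl]
    exact tv_comm hij hkl hjk hil t u
  chev := by
    intro i j l hij hjl hil t u
    simp only [dif_pos hij, dif_pos hjl, dif_pos hil]
    have := Cfsg.Agent.Lib.Classical.commutator_transvection_transvection hij hjl hil t u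
    rwa [commutatorElement_def] at this

theorem tvS_x {i j : ι} (h : i ≠ j) (t : K) :
    (tvS ι K).x i j t = Matrix.SpecialLinearGroup.transvection h t := dif_pos h

end Canonical

/-! ### The graph of a system -/

section Graph

variable {ι K E : Type*} [Field K] [Group E] [Fintype ι] [DecidableEq ι]

/-- The subgroup of the product generated by the graph of the system. -/
def GraphG (S : Sys ι K E) : Subgroup (E × Matrix.SpecialLinearGroup ι K) :=
  Subgroup.closure {g | ∃ i j t, i ≠ j ∧ g = (S.x i j t, (tvS ι K).x i j t)}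

/-- The system on the graph. -/
noncomputable def graphS (S : Sys ι K E) : Sys ι K (GraphG S) where
  x i j t := if h : i ≠ j then ⟨(S.x i j t, (tvS ι K).x i j t), Subgroup.subset_closure ⟨i, j, t, h, rfl⟩⟩ else 1
  add := by
    intro i j h t u
    simp only [dif_pos h]
    apply Subtype.ext
    apply Prod.ext
    · exact S.add i j h t u
    · exact (tvS ι K).add i j h t u
  comm := by
    intro i j k l hij hkl hjk hil t u
    simp only [dif_pos hij, dif_pos hkl]
    apply Subtype.ext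
    apply Prod.ext
    · exact S.comm i j k l hij hkl hjk hil t u
    · exact (tvS ι K).comm i j k l hij hkl hjk hil t u
  chev := by
    intro i j l hij hjl hil t u
    simp only [dif_pos hij, dif_pos hjl, dif_pos hil]
    apply Subtype.ext
    apply Prod.ext
    · exact S.chev i j l hij hjl hil t u
    · exact (tvS ι K).chev i j l hij hjl hil t u

theorem graphS_x (S : Sys ι K E) {i j : ι} (h : i ≠ j) (t : K) :
    (graphS S).x i j t = ⟨(S.x i j t, (tvS ι K).x i j t), Subgroup.subset_closure ⟨i, j, t, h, rfl⟩⟩ := dif_pos h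

/-- Projection to `SL`. -/
def graphπ (S : Sys ι K E) : GraphG S →* Matrix.SpecialLinearGroup ι K :=
  (MonoidHom.snd _ _).comp (GraphG S).subtype

/-- Projection to `E`. -/
def graphFst (S : Sys ι K E) : GraphG S →* E :=
  (MonoidHom.fst _ _).comp (GraphG S).subtype

theorem graphπ_x (S : Sys ι K E) (i j : ι) (h : i ≠ j) (t : K) :
    graphπ S ((graphS S).x i j t) = Matrix.SpecialLinearGroup.transvection h t := by
  rw [graphS_x S h]
  exact tvS_x h t

theorem graph_gen (S : Sys ι K E) :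
    Subgroup.closure {g | ∃ i j t, i ≠ j ∧ g = (graphS S).x i j t} = ⊤ := by
  have h0 : Subgroup.closure (((↑) : GraphG S → E × Matrix.SpecialLinearGroup ι K) ⁻¹' {g | ∃ i j t, i ≠ j ∧ g = (S.x i j t, (tvS ι K).x i j t)}) = ⊤ :=
    Subgroup.closure_closure_coe_preimage (k := {g | ∃ i j t, i ≠ j ∧ g = (S.x i j t, (tvS ι K).x i j t)})
  rw [eq_top_iff, ← h0]
  apply Subgroup.closure_mono
  rintro ⟨g, hg⟩ ⟨i, j, t, h, hgg⟩
  refine ⟨i, j, t, h, ?_⟩
  rw [graphS_x S h]
  exact Subtype.ext hgg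

theorem graphπ_surj (S : Sys ι K E) : Function.Surjective (graphπ S) := by
  intro M
  refine Cfsg.Agent.Lib.Classical.sl_transvection_induction (fun M => ∃ g, graphπ S g = M) ?_ ⟨1, map_one _⟩ ?_ M
  · intro i j h a
    exact ⟨_, graphπ_x S i j h a⟩
  · rintro A B ⟨g, rfl⟩ ⟨g', rfl⟩
    exact ⟨g * g', map_mul _ _ _⟩

end Graph

/-! ### Restriction along an injection -/

/-- Restriction of a system. -/
def Sys.comap {ι ι' K E : Type*} [Field K] [Group E] (S : Sys ι K E) (e : ι' → ι) (he : Function.Injective e) : Sys ι' K E where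
  x i j t := S.x (e i) (e j) t
  add := fun i j h t u => S.add _ _ (he.ne h) t u
  comm := fun i j k l hij hkl hjk hil t u => S.comm _ _ _ _ (he.ne hij) (he.ne hkl) (he.ne hjk) (he.ne hil) t u
  chev := fun i j l hij hjl hil t u => S.chev _ _ _ (he.ne hij) (he.ne hjl) (he.ne hil) t u

theorem Sys.R_comap {ι ι' K E : Type*} [Field K] [Group E] (S : Sys ι K E) (e : ι' → ι) (he : Function.Injective e)
    (hR : S.R) : (S.comap e he).R := fun i j h t u ht => hR _ _ (he.ne h) t u ht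

/-! ### The rank-one input -/

theorem exists_ctx {ι K E : Type*} [Field K] [Finite K] [Group E] (S : Sys ι K E) (hR : S.R) {o a : ι} (hoa : o ≠ a) :
    Nonempty (Ctx S o a) := by
  classical
  obtain ⟨e, he1, he2⟩ := presentation (K := K)
  let f : Bool × K → E := fun p => if p.1 then S.x o a p.2 else S.x a o p.2
  have hrel : ∀ r ∈ rels K, FreeGroup.lift f r = 1 := by
    rintro r (⟨b, t, u, rfl⟩ | ⟨b, t, u, ht, rfl⟩)
    · simp only [map_mul, map_inv, FreeGroup.lift_apply_of, f]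
      cases b
      · simp only [Bool.false_eq_true, if_false]
        rw [S.add a o hoa.symm]
        group
      · simp only [if_true]
        rw [S.add o a hoa]
        group
    · simp only [map_mul, map_inv, FreeGroup.lift_apply_of, f]
      cases b
      · have h := hR a o hoa.symm t u ht
        simp only [Sys.W] at h
        simp only [Bool.false_eq_true, if_false, Bool.not_false, if_true]
        rw [h]
        group
      · have h := hR o a hoa t u ht
        simp only [Sys.W] at h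
        simp only [if_true, Bool.not_true, Bool.false_eq_true, if_false]
        rw [h]
        group
  let ρ : PresentedGroup (rels K) →* E := PresentedGroup.toGroup hrel
  have hρ : ∀ p, ρ (PresentedGroup.of p) = f p := fun p => PresentedGroup.toGroup.of hrel
  refine ⟨⟨hoa, ρ.comp e.symm.toMonoidHom, ?_, ?_⟩⟩
  · intro t
    have h : e (PresentedGroup.of (true, t)) = xM true t := Subtype.ext (he1 t)
    change ρ (e.symm (xM true t)) = _
    rw [← h, MulEquiv.symm_apply_apply, hρ]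
    rfl
  · intro t
    have h : e (PresentedGroup.of (false, t)) = xM false t := Subtype.ext (he2 t)
    change ρ (e.symm (xM false t)) = _
    rw [← h, MulEquiv.symm_apply_apply, hρ]
    rfl

/-! ### The induction -/

section Induction

universe u

variable {K : Type u} [Field K] [Finite K]

/-- The statement of the universal property. -/
def Univ (K : Type u) [Field K] (n : ℕ) : Prop :=
  ∀ (E : Type u) [Group E] (S : Sys (Fin n) K E), S.R →
    ∃ f : Matrix.SpecialLinearGroup (Fin n) K →* E,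
      ∀ i j (h : i ≠ j) t, f (Matrix.SpecialLinearGroup.transvection h t) = S.x i j t

theorem univ_two : Univ K 2 := by
  intro E _ S hR
  obtain ⟨C⟩ := exists_ctx S hR (o := 0) (a := 1) (by decide)
  refine ⟨C.ψ, ?_⟩
  intro i j h t
  have e1 : Matrix.SpecialLinearGroup.transvection (i := (0 : Fin 2)) (j := 1) (by decide) t = xM true t := by
    apply Subtype.ext
    rw [Matrix.SpecialLinearGroup.transvection_coe, xM_true]
    ext a b
    fin_cases a <;> fin_cases b <;> simp [Matrix.single_apply]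
  have e2 : Matrix.SpecialLinearGroup.transvection (i := (1 : Fin 2)) (j := 0) (by decide) t = xM false t := by
    apply Subtype.ext
    rw [Matrix.SpecialLinearGroup.transvection_coe, xM_false]
    ext a b
    fin_cases a <;> fin_cases b <;> simp [Matrix.single_apply]
  fin_cases i <;> fin_cases j
  · exact absurd rfl h
  · change C.ψ (Matrix.SpecialLinearGroup.transvection (i := (0 : Fin 2)) (j := 1) (by decide) t) = S.x 0 1 t
    rw [e1, C.h1]
  · change C.ψ (Matrix.SpecialLinearGroup.transvection (i := (1 : Fin 2)) (j := 0) (by decide) t) = S.x 1 0 t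
    rw [e2, C.h2]
  · exact absurd rfl h

theorem third_index {n : ℕ} (hn : 3 ≤ n) (i j : Fin n) : ∃ k, i ≠ k ∧ j ≠ k := by
  by_contra hcon
  push Not at hcon
  have h1 : (Finset.univ : Finset (Fin n)) ⊆ {i, j} := by
    intro k _
    by_cases hk : i = k
    · simp [hk]
    · simp [hcon k hk]
  have h2 := Finset.card_le_card h1
  have h3 : ({i, j} : Finset (Fin n)).card ≤ 2 := Finset.card_le_two
  simp only [Finset.card_univ, Fintype.card_fin] at h2
  omega

theorem univ_succ {n : ℕ} (hn : 2 ≤ n) (ih : Univ K n) : Univ K (n + 1) := by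
  intro E _ S _
  classical
  -- the graph
  let S' := graphS S
  have hR' : S'.R := S'.R_of_third (fun i j _ => third_index (by omega) i j)
  have hlast : Fin.last n ≠ 0 := by
    intro h
    have := congrArg Fin.val h
    simp at this
    omega
  obtain ⟨C⟩ := exists_ctx S' hR' hlast
  -- the restriction
  let S'' := S'.comap (Fin.castSucc : Fin n → Fin (n + 1)) (Fin.castSucc_injective n)
  obtain ⟨lam, hlam⟩ := ih _ S'' (S'.R_comap _ _ hR')
  have hπ := graphπ_x S
  -- the submatrix property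
  have hsub : ∀ γ : Matrix.SpecialLinearGroup (Fin n) K,
      graphπ S (lam γ) ∈ RowFix K (Fin.last n) ∧ graphπ S (lam γ) ∈ ColFix K (Fin.last n) ∧
      ((graphπ S (lam γ) : Matrix.SpecialLinearGroup (Fin (n + 1)) K) : Matrix (Fin (n + 1)) (Fin (n + 1)) K).submatrix Fin.castSucc Fin.castSucc
        = (γ : Matrix (Fin n) (Fin n) K) := by
    intro γ
    refine Cfsg.Agent.Lib.Classical.sl_transvection_induction (fun γ => graphπ S (lam γ) ∈ RowFix K (Fin.last n) ∧ graphπ S (lam γ) ∈ ColFix K (Fin.last n) ∧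
      ((graphπ S (lam γ) : Matrix.SpecialLinearGroup (Fin (n + 1)) K) : Matrix (Fin (n + 1)) (Fin (n + 1)) K).submatrix Fin.castSucc Fin.castSucc
        = (γ : Matrix (Fin n) (Fin n) K)) ?_ ?_ ?_ γ
    · intro i j h t
      have h' : (Fin.castSucc i : Fin (n + 1)) ≠ Fin.castSucc j := (Fin.castSucc_injective n).ne h
      have e : graphπ S (lam (Matrix.SpecialLinearGroup.transvection h t)) = Matrix.SpecialLinearGroup.transvection h' t := by
        rw [hlam]
        exact hπ _ _ h' t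
      rw [e]
      refine ⟨tv_rowfix h' (Fin.castSucc_ne_last i) t, tv_colfix h' (Fin.castSucc_ne_last j) t, ?_⟩
      rw [Matrix.SpecialLinearGroup.transvection_coe, Matrix.SpecialLinearGroup.transvection_coe]
      ext a b
      simp [Matrix.single_apply, Matrix.one_apply, Fin.castSucc_inj]
    · rw [map_one, map_one]
      refine ⟨one_mem _, one_mem _, ?_⟩
      ext a b
      simp [Matrix.one_apply, Fin.castSucc_inj]
    · rintro A B ⟨h1, h2, h3⟩ ⟨h4, h5, h6⟩
      rw [map_mul, map_mul]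
      refine ⟨mul_mem h1 h4, mul_mem h2 h5, ?_⟩
      rw [Matrix.SpecialLinearGroup.coe_mul, Matrix.SpecialLinearGroup.coe_mul, ← h3, ← h6]
      ext a b
      simp only [Matrix.submatrix_apply, Matrix.mul_apply]
      rw [Fin.sum_univ_castSucc]
      have : ((graphπ S (lam A) : Matrix.SpecialLinearGroup (Fin (n + 1)) K) : Matrix (Fin (n + 1)) (Fin (n + 1)) K) (Fin.castSucc a) (Fin.last n) = 0 := by
        rw [h2 (Fin.castSucc a), Matrix.one_apply_ne (Fin.castSucc_ne_last a)]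
      rw [this, zero_mul, add_zero]
  have hΓ : ∀ g ∈ GammaG S' (Fin.last n), graphπ S g = 1 → g = 1 := by
    intro g hg hg1
    have hr : GammaG S' (Fin.last n) ≤ lam.range := by
      refine (Subgroup.closure_le _).mpr ?_
      rintro _ ⟨j, k, u, hj, hk, hjk, rfl⟩
      obtain ⟨j', rfl⟩ := Fin.exists_castSucc_eq.mpr hj
      obtain ⟨k', rfl⟩ := Fin.exists_castSucc_eq.mpr hk
      have h' : j' ≠ k' := fun h => hjk (by rw [h])
      exact ⟨Matrix.SpecialLinearGroup.transvection h' u, hlam _ _ h' u⟩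
    obtain ⟨γ, rfl⟩ := hr hg
    have h3 := (hsub γ).2.2
    rw [hg1] at h3
    have : γ = 1 := by
      apply Subtype.ext
      rw [← h3]
      ext a b
      simp [Matrix.one_apply, Fin.castSucc_inj]
    rw [this, map_one]
  have hinj : Function.Injective (graphπ S) := by
    rw [injective_iff_map_eq_one]
    exact C.inj (graphπ S) hπ (graph_gen S) hΓ
  let e : GraphG S ≃* Matrix.SpecialLinearGroup (Fin (n + 1)) K := MulEquiv.ofBijective (graphπ S) ⟨hinj, graphπ_surj S⟩
  refine ⟨(graphFst S).comp e.symm.toMonoidHom, ?_⟩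
  intro i j h t
  have h1 : e (S'.x i j t) = Matrix.SpecialLinearGroup.transvection h t := hπ i j h t
  change graphFst S (e.symm (Matrix.SpecialLinearGroup.transvection h t)) = _
  rw [← h1, MulEquiv.symm_apply_apply]
  change graphFst S ((graphS S).x i j t) = _
  rw [graphS_x S h]
  rfl

theorem univ_all {n : ℕ} (hn : 2 ≤ n) : Univ K n := by
  induction n, hn using Nat.le_induction with
  | base => exact univ_two
  | succ n hn ih => exact univ_succ hn ih

end Induction

/-! ### The presentation -/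

section Final

universe u

variable {K : Type u} [Field K] [Finite K] {n : ℕ}

/-- The index set. -/
abbrev Idx (n : ℕ) := {ij : Fin n × Fin n // ij.1 ≠ ij.2}

/-- The relators. -/
def relsN (K : Type u) [Field K] (n : ℕ) : Set (FreeGroup (Idx n × K)) :=
  {g : FreeGroup (Idx n × K) | ∃ (a : Idx n) (t u : K),
      g = FreeGroup.of (a, t) * FreeGroup.of (a, u) * (FreeGroup.of (a, t + u))⁻¹} ∪
    {g | ∃ (a b : Idx n) (t u : K), a.1.1 ≠ b.1.2 ∧ a.1.2 ≠ b.1.1 ∧
      g = FreeGroup.of (a, t) * FreeGroup.of (b, u) * (FreeGroup.of (a, t))⁻¹ * (FreeGroup.of (b, u))⁻¹} ∪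
    {g | ∃ (a b : Idx n) (h : a.1.1 ≠ b.1.2) (t u : K), a.1.2 = b.1.1 ∧
      g = FreeGroup.of (a, t) * FreeGroup.of (b, u) * (FreeGroup.of (a, t))⁻¹ * (FreeGroup.of (b, u))⁻¹ *
        (FreeGroup.of (⟨(a.1.1, b.1.2), h⟩, t * u))⁻¹}

omit [Finite K] in
theorem mk_rel {r : FreeGroup (Idx n × K)} (hr : r ∈ relsN K n) : PresentedGroup.mk (relsN K n) r = 1 :=
  (QuotientGroup.eq_one_iff r).mpr (Subgroup.subset_normalClosure hr)

/-- The system of the presentation. -/
noncomputable def presS (K : Type u) [Field K] (n : ℕ) : Sys (Fin n) K (PresentedGroup (relsN K n)) where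
  x i j t := if h : i ≠ j then PresentedGroup.of (⟨(i, j), h⟩, t) else 1
  add := by
    intro i j h t u
    simp only [dif_pos h]
    have h1 := mk_rel (K := K) (n := n) (Or.inl (Or.inl ⟨⟨(i, j), h⟩, t, u, rfl⟩))
    simp only [map_mul, map_inv] at h1
    exact mul_inv_eq_one.mp h1
  comm := by
    intro i j k l hij hkl hjk hil t u
    simp only [dif_pos hij, dif_pos hkl]
    have h1 := mk_rel (K := K) (n := n) (Or.inl (Or.inr ⟨⟨(i, j), hij⟩, ⟨(k, l), hkl⟩, t, u, hil, hjk, rfl⟩))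
    simp only [map_mul, map_inv] at h1
    have h2 := mul_inv_eq_one.mp h1
    exact mul_inv_eq_iff_eq_mul.mp h2
  chev := by
    intro i j l hij hjl hil t u
    simp only [dif_pos hij, dif_pos hjl, dif_pos hil]
    have h1 := mk_rel (K := K) (n := n) (Or.inr ⟨⟨(i, j), hij⟩, ⟨(j, l), hjl⟩, hil, t, u, rfl, rfl⟩)
    simp only [map_mul, map_inv] at h1
    exact mul_inv_eq_one.mp h1

omit [Finite K] in
theorem presS_x {i j : Fin n} (h : i ≠ j) (t : K) :
    (presS K n).x i j t = PresentedGroup.of (⟨(i, j), h⟩, t) := dif_pos h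

/-- The presentation of `SL_n`. -/
theorem presentation_SLn (hn : 3 ≤ n) :
    ∃ e : PresentedGroup (relsN K n) ≃* Matrix.SpecialLinearGroup (Fin n) K,
      ∀ (a : Idx n) (t : K), ((e (PresentedGroup.of (a, t)) : Matrix (Fin n) (Fin n) K)) = Matrix.transvection a.1.1 a.1.2 t := by
  classical
  have hR : (presS K n).R := (presS K n).R_of_third (fun i j _ => third_index hn i j)
  obtain ⟨f, hf⟩ := univ_all (K := K) (n := n) (by omega) _ (presS K n) hR
  have hrel : ∀ r ∈ relsN K n, FreeGroup.lift (fun p : Idx n × K => Matrix.SpecialLinearGroup.transvection p.1.2 p.2) r = 1 := by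
    rintro r ((⟨a, t, u, rfl⟩ | ⟨a, b, t, u, h1, h2, rfl⟩) | ⟨a, b, h, t, u, h1, rfl⟩)
    · simp only [map_mul, map_inv, FreeGroup.lift_apply_of]
      rw [← Matrix.SpecialLinearGroup.transvection_add]
      group
    · simp only [map_mul, map_inv, FreeGroup.lift_apply_of]
      rw [tv_comm a.2 b.2 h2 h1]
      group
    · simp only [map_mul, map_inv, FreeGroup.lift_apply_of]
      obtain ⟨⟨i, j⟩, hij⟩ := a
      obtain ⟨⟨j', l⟩, hjl⟩ := b
      simp only at h1
      subst h1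
      have := Cfsg.Agent.Lib.Classical.commutator_transvection_transvection hij hjl h t u
      rw [commutatorElement_def] at this
      rw [this]
      group
  let π : PresentedGroup (relsN K n) →* Matrix.SpecialLinearGroup (Fin n) K := PresentedGroup.toGroup hrel
  have hπ : ∀ p : Idx n × K, π (PresentedGroup.of p) = Matrix.SpecialLinearGroup.transvection p.1.2 p.2 :=
    fun p => PresentedGroup.toGroup.of hrel
  have h1 : π.comp f = MonoidHom.id _ := by
    ext1 M
    refine Cfsg.Agent.Lib.Classical.sl_transvection_induction (fun M => (π.comp f) M = MonoidHom.id _ M) ?_ (by simp) ?_ M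
    · intro i j h a
      change π (f _) = _
      rw [hf, presS_x h, hπ]
      rfl
    · intro A B hA hB
      rw [map_mul, hA, hB, map_mul]
  have h2 : f.comp π = MonoidHom.id _ := by
    apply PresentedGroup.ext
    rintro ⟨⟨⟨i, j⟩, hij⟩, t⟩
    change f (π _) = _
    rw [hπ, hf, presS_x hij]
    rfl
  refine ⟨MonoidHom.toMulEquiv π f h2 h1, ?_⟩
  intro a t
  change ((π _ : Matrix.SpecialLinearGroup (Fin n) K) : Matrix (Fin n) (Fin n) K) = _
  rw [hπ]
  rfl

end Final

end Cfsg.Agent.Lib.Misc19.SteinbergSLn
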