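import Mathlib
import Cfsg.Agent.Lib.Tech.CritAut
import Cfsg.Agent.Lib.Char.Burnside

/-!
# The automorphism group of a finite `2`-group with exactly three involutions is solvable

A small characteristic subgroup `D` detects odd automorphisms (`crit_aut_main`); the automorphisms
fixing the involutions act on `Y = C_D(V)`, and the squaring map of `Y` is anisotropic.  A count
of fibres of the squaring map shows that such an automorphism group has order `2^a 3^b` or `2^a 5^b`.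
-/

set_option autoImplicit false

namespace Cfsg.Agent.Lib.Misc19.ThreeInv

open scoped commutatorElement

variable {Y : Type*} [Group Y]

/-- The structure of the group `Y`: the squaring map takes values in the central subgroup `W`,
and is anisotropic modulo `W`. -/
structure Sys (W : Subgroup Y) : Prop where
  central : ∀ w ∈ W, ∀ y : Y, w * y = y * w
  sq_mem : ∀ x : Y, x ^ 2 ∈ W
  sq_iff : ∀ x : Y, x ^ 2 = 1 ↔ x ∈ W
  comm_mem : ∀ x y : Y, ⁅x, y⁆ ∈ W

/-- The subgroup `{1, v}`. -/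
def pairSub (v : Y) (hv : v ^ 2 = 1) : Subgroup Y where
  carrier := {y | y = 1 ∨ y = v}
  one_mem' := Or.inl rfl
  mul_mem' := by
    rintro a b (rfl | rfl) (rfl | rfl)
    · left; simp
    · right; simp
    · right; simp
    · left; rw [← pow_two]; exact hv
  inv_mem' := by
    rintro a (rfl | rfl)
    · left; simp
    · right
      have : a * a = 1 := by rw [← pow_two]; exact hv
      exact inv_eq_of_mul_eq_one_left this

theorem mem_pairSub {v : Y} {hv : v ^ 2 = 1} {y : Y} : y ∈ pairSub v hv ↔ y = 1 ∨ y = v := Iff.rfl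

/-- Arithmetic for order `7`: the possible pairs. -/
theorem num7a {a c : ℕ}
    (ha : a = 1 ∨ a = 2 ∨ a = 4 ∨ a = 8 ∨ a = 16 ∨ a = 32 ∨ a = 64)
    (hc : c = 1 ∨ c = 2 ∨ c = 4 ∨ c = 8 ∨ c = 16 ∨ c = 32 ∨ c = 64)
    (hlt : c < a) (h4 : 4 ≤ c) (hmod : a % 7 = c % 7) :
    (a = 32 ∧ c = 4) ∨ (a = 64 ∧ c = 8) := by
  rcases ha with rfl | rfl | rfl | rfl | rfl | rfl | rfl <;>
    rcases hc with rfl | rfl | rfl | rfl | rfl | rfl | rfl <;> omega

theorem num7b {f1 f2 f3 c1 c2 c3 : ℕ}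
    (p1 : 32 = 4 + f1 + f2 + f3) (p2 : 4 = 4 + c1 + c2 + c3)
    (m1 : f1 % 7 = c1 % 7) (m2 : f2 % 7 = c2 % 7) (m3 : f3 % 7 = c3 % 7)
    (d1 : 4 ∣ f1) (d2 : 4 ∣ f2) (d3 : 4 ∣ f3) (n1 : 0 < f1) (n2 : 0 < f2) (n3 : 0 < f3) : False := by
  omega

theorem num7d {f : ℕ} (m : f % 7 = 0 % 7) (d : 4 ∣ f) (n : 0 < f) : 28 ≤ f := by
  omega

theorem num7e {f : ℕ} (m : f % 7 = 4 % 7) (d : 4 ∣ f) (k : 4 ≠ f) : 32 ≤ f := by
  omega

theorem num7f {c1 c2 c3 : ℕ} (p2 : 8 = 4 + c1 + c2 + c3) (e1 : 4 ∣ c1) (e2 : 4 ∣ c2) (e3 : 4 ∣ c3) :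
    (c1 = 4 ∧ c2 = 0 ∧ c3 = 0) ∨ (c1 = 0 ∧ c2 = 4 ∧ c3 = 0) ∨ (c1 = 0 ∧ c2 = 0 ∧ c3 = 4) := by
  omega

theorem num7c {f1 f2 f3 c1 c2 c3 : ℕ}
    (p1 : 64 = 4 + f1 + f2 + f3) (p2 : 8 = 4 + c1 + c2 + c3)
    (m1 : f1 % 7 = c1 % 7) (m2 : f2 % 7 = c2 % 7) (m3 : f3 % 7 = c3 % 7)
    (d1 : 4 ∣ f1) (d2 : 4 ∣ f2) (d3 : 4 ∣ f3) (e1 : 4 ∣ c1) (e2 : 4 ∣ c2) (e3 : 4 ∣ c3)
    (n1 : 0 < f1) (n2 : 0 < f2) (n3 : 0 < f3)
    (k1 : c1 ≠ f1) (k2 : c2 ≠ f2) (k3 : c3 ≠ f3) : False := by
  rcases num7f p2 e1 e2 e3 with ⟨rfl, rfl, rfl⟩ | ⟨rfl, rfl, rfl⟩ | ⟨rfl, rfl, rfl⟩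
  · have := num7e m1 d1 k1
    have := num7d m2 d2 n2
    have := num7d m3 d3 n3
    omega
  · have := num7d m1 d1 n1
    have := num7e m2 d2 k2
    have := num7d m3 d3 n3
    omega
  · have := num7d m1 d1 n1
    have := num7d m2 d2 n2
    have := num7e m3 d3 k3
    omega

theorem num5a {a c c' : ℕ}
    (ha : a = 1 ∨ a = 2 ∨ a = 4 ∨ a = 8 ∨ a = 16 ∨ a = 32 ∨ a = 64)
    (hc : c = 1 ∨ c = 2 ∨ c = 4 ∨ c = 8 ∨ c = 16 ∨ c = 32 ∨ c = 64)
    (hc' : c' = 1 ∨ c' = 2 ∨ c' = 4 ∨ c' = 8 ∨ c' = 16 ∨ c' = 32 ∨ c' = 64)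
    (hlt : c < a) (hlt' : c' < a) (h4 : 4 ≤ c) (h4' : 4 ≤ c') (hmod : a % 5 = c % 5) (hmod' : a % 3 = c' % 3) :
    a = 64 ∧ c = 4 ∧ (c' = 4 ∨ c' = 16) := by
  have h : a = 64 ∧ c = 4 := by
    rcases ha with rfl | rfl | rfl | rfl | rfl | rfl | rfl <;>
      rcases hc with rfl | rfl | rfl | rfl | rfl | rfl | rfl <;> omega
  obtain ⟨rfl, rfl⟩ := h
  refine ⟨rfl, rfl, ?_⟩
  rcases hc' with rfl | rfl | rfl | rfl | rfl | rfl | rfl <;> omega

theorem num5c {c1 c2 c3 : ℕ} (p2 : 4 = 4 + c1 + c2 + c3) : c1 = 0 ∧ c2 = 0 ∧ c3 = 0 := by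
  omega

theorem num5b {f1 f2 f3 c1 c2 c3 c' : ℕ}
    (p1 : 64 = 4 + f1 + f2 + f3) (p2 : c' = 4 + c1 + c2 + c3)
    (hc' : c' = 4 ∨ c' = 16)
    (m1 : f1 % 5 = 0) (m2 : f2 % 5 = 0) (m3 : f3 % 5 = 0)
    (t1 : f1 % 3 = c1 % 3) (t2 : f2 % 3 = c2 % 3) (t3 : f3 % 3 = c3 % 3)
    (d1 : 4 ∣ f1) (d2 : 4 ∣ f2) (d3 : 4 ∣ f3) (e1 : 4 ∣ c1) (e2 : 4 ∣ c2) (e3 : 4 ∣ c3)
    (n1 : 0 < f1) (n2 : 0 < f2) (n3 : 0 < f3) : False := by
  have h1 : f1 = 20 := by omega
  have h2 : f2 = 20 := by omega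
  have h3 : f3 = 20 := by omega
  subst h1 h2 h3
  rcases hc' with rfl | rfl <;> omega

namespace Sys

variable {W : Subgroup Y} (S : Sys W)
include S

theorem sq_mul (x y : Y) : (x * y) ^ 2 = ⁅y, x⁆ * x ^ 2 * y ^ 2 := by
  have hc := S.central _ (S.comm_mem y x) x
  calc (x * y) ^ 2 = x * ⁅y, x⁆ * x * y * y := by
        simp only [commutatorElement_def, pow_two]; group
    _ = ⁅y, x⁆ * x * x * y * y := by rw [← hc]
    _ = _ := by simp only [pow_two]; group

theorem comm_mul (a b x : Y) : ⁅a * b, x⁆ = ⁅a, x⁆ * ⁅b, x⁆ := by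
  have hc := S.central _ (S.comm_mem b x) a
  calc ⁅a * b, x⁆ = a * ⁅b, x⁆ * x * a⁻¹ * x⁻¹ := by simp only [commutatorElement_def]; group
    _ = ⁅b, x⁆ * a * x * a⁻¹ * x⁻¹ := by rw [← hc]
    _ = ⁅b, x⁆ * ⁅a, x⁆ := by simp only [commutatorElement_def]; group
    _ = ⁅a, x⁆ * ⁅b, x⁆ := S.central _ (S.comm_mem b x) _

theorem normal_of_le (N : Subgroup Y) (h : W ≤ N) : N.Normal := ⟨fun n hn y => by
  have e : y * n * y⁻¹ = ⁅y, n⁆ * n := by simp only [commutatorElement_def]; group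
  rw [e]
  exact N.mul_mem (h (S.comm_mem y n)) hn⟩

theorem four_eq_one (x : Y) : x ^ 4 = 1 := by
  have h1 := (S.sq_iff (x ^ 2)).2 (S.sq_mem x)
  rw [← pow_mul] at h1
  simpa using h1

theorem isPGroup : IsPGroup 2 Y := fun x => ⟨2, by simpa using S.four_eq_one x⟩

/-- Adjoining one element at most doubles a subgroup containing `W`. -/
theorem exists_double [Finite Y] (N : Subgroup Y) (hWN : W ≤ N) (x : Y) :
    ∃ N1 : Subgroup Y, N ≤ N1 ∧ x ∈ N1 ∧ Nat.card N1 ≤ 2 * Nat.card N ∧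
      ∀ U : Subgroup Y, N ≤ U → x ∈ U → N1 ≤ U := by
  classical
  have hn := S.normal_of_le N hWN
  have hx2 : x ^ 2 ∈ N := hWN (S.sq_mem x)
  let N1 : Subgroup Y :=
    { carrier := {z | z ∈ N ∨ x * z ∈ N}
      one_mem' := Or.inl N.one_mem
      mul_mem' := by
        rintro a b (ha | ha) (hb | hb)
        · exact Or.inl (N.mul_mem ha hb)
        · right
          have e : x * (a * b) = (x * a * x⁻¹) * (x * b) := by group
          show x * (a * b) ∈ N
          rw [e]
          exact N.mul_mem (hn.conj_mem a ha x) hb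
        · right
          have e : x * (a * b) = (x * a) * b := by group
          show x * (a * b) ∈ N
          rw [e]
          exact N.mul_mem ha hb
        · left
          have e : a * b = (x⁻¹ * (x * a) * x⁻¹⁻¹) * (x ^ 2)⁻¹ * (x * b) := by
            simp only [pow_two]; group
          show a * b ∈ N
          rw [e]
          exact N.mul_mem (N.mul_mem (hn.conj_mem _ ha _) (N.inv_mem hx2)) hb
      inv_mem' := by
        rintro a (ha | ha)
        · exact Or.inl (N.inv_mem ha)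
        · right
          have e : x * a⁻¹ = (x * (x * a)⁻¹ * x⁻¹) * x ^ 2 := by
            simp only [pow_two]; group
          show x * a⁻¹ ∈ N
          rw [e]
          exact N.mul_mem (hn.conj_mem _ (N.inv_mem ha) _) hx2 }
  refine ⟨N1, fun z hz => Or.inl hz, Or.inr (by simpa [pow_two] using hx2), ?_, ?_⟩
  · let f : ↥N × Bool → ↥N1 := fun p =>
      if hb : p.2 = true then ⟨x⁻¹ * p.1, Or.inr (by simp)⟩ else ⟨p.1, Or.inl p.1.2⟩
    have hf : Function.Surjective f := by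
      rintro ⟨z, hz | hz⟩
      · exact ⟨(⟨z, hz⟩, false), by simp [f]⟩
      · exact ⟨(⟨x * z, hz⟩, true), by simp [f]⟩
    have := Nat.card_le_card_of_surjective f hf
    rw [Nat.card_prod, Nat.card_eq_fintype_card (α := Bool)] at this
    simp only [Fintype.card_bool] at this
    omega
  · rintro U hNU hxU z (hz | hz)
    · exact hNU hz
    · have e : z = x⁻¹ * (x * z) := by group
      rw [e]
      exact U.mul_mem (U.inv_mem hxU) (hNU hz)

/-- The anisotropy lemma. -/
theorem card_le_four_mul [Finite Y] {L : Subgroup Y}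
    (hL2 : ∀ u ∈ W, ∀ v ∈ W, u ∉ L → v ∉ L → u * v ∈ L)
    (U N : Subgroup Y) (hWN : W ≤ N) (hNU : N ≤ U) (hx : ∀ x ∈ U, x ∉ N → x ^ 2 ∉ L) :
    Nat.card U ≤ 4 * Nat.card N := by
  by_contra hlt
  push Not at hlt
  have hNpos : 0 < Nat.card N := Nat.card_pos
  have ex : ∀ M : Subgroup Y, Nat.card M < Nat.card U → ∃ y ∈ U, y ∉ M := by
    intro M hM
    by_contra hc
    push Not at hc
    have : U ≤ M := hc
    have := Subgroup.card_le_of_le this
    omega
  obtain ⟨y1, hy1U, hy1⟩ := ex N (by omega)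
  obtain ⟨N1, hN1, hxN1, hcN1, hUN1⟩ := S.exists_double N hWN y1
  obtain ⟨y2, hy2U, hy2⟩ := ex N1 (by omega)
  obtain ⟨N2, hN2, hxN2, hcN2, hUN2⟩ := S.exists_double N1 (hWN.trans hN1) y2
  obtain ⟨y3, hy3U, hy3⟩ := ex N2 (by omega)
  have key : ∀ a ∈ U, ∀ b ∈ U, a ∉ N → b ∉ N → a * b ∉ N → ⁅b, a⁆ ∉ L := by
    intro a ha b hb ha' hb' hab hc
    have h1 := hx a ha ha'
    have h2 := hx b hb hb'
    have h3 := hx (a * b) (U.mul_mem ha hb) hab
    apply h3
    rw [S.sq_mul, mul_assoc]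
    exact L.mul_mem hc (hL2 _ (S.sq_mem a) _ (S.sq_mem b) h1 h2)
  have hy1' : y1 ∈ N2 := hN2 hxN1
  have n1 : y2 ∉ N := fun h => hy2 (hN1 h)
  have n2 : y3 ∉ N := fun h => hy3 (hN2 (hN1 h))
  have n3 : y1 * y2 ∉ N := fun h => hy2 (by
    have e : y2 = y1⁻¹ * (y1 * y2) := by group
    rw [e]
    exact N1.mul_mem (N1.inv_mem hxN1) (hN1 h))
  have n4 : y1 * y3 ∉ N := fun h => hy3 (by
    have e : y3 = y1⁻¹ * (y1 * y3) := by group
    rw [e]
    exact N2.mul_mem (N2.inv_mem hy1') (hN2 (hN1 h)))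
  have n5 : y2 * y3 ∉ N := fun h => hy3 (by
    have e : y3 = y2⁻¹ * (y2 * y3) := by group
    rw [e]
    exact N2.mul_mem (N2.inv_mem hxN2) (hN2 (hN1 h)))
  have n6 : y1 * (y2 * y3) ∉ N := fun h => hy3 (by
    have e : y3 = y2⁻¹ * y1⁻¹ * (y1 * (y2 * y3)) := by group
    rw [e]
    exact N2.mul_mem (N2.mul_mem (N2.inv_mem hxN2) (N2.inv_mem hy1')) (hN2 (hN1 h)))
  have c1 := key y1 hy1U y2 hy2U hy1 n1 n3
  have c2 := key y1 hy1U y3 hy3U hy1 n2 n4
  have c3 := key y1 hy1U (y2 * y3) (U.mul_mem hy2U hy3U) hy1 n5 n6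
  apply c3
  rw [S.comm_mul]
  exact hL2 _ (S.comm_mem _ _) _ (S.comm_mem _ _) c1 c2

/-- Half of a four-element `W`. -/
theorem half_pair [Finite Y] (hW4 : Nat.card W = 4) {v : Y} (hvW : v ∈ W) (hv1 : v ≠ 1) :
    ∀ u ∈ W, ∀ u' ∈ W, u ∉ pairSub v ((S.sq_iff v).2 hvW) → u' ∉ pairSub v ((S.sq_iff v).2 hvW) →
      u * u' ∈ pairSub v ((S.sq_iff v).2 hvW) := by
  classical
  intro u hu u' hu' h1 h2
  set L := pairSub v ((S.sq_iff v).2 hvW) with hLdef
  have hLW : L ≤ W := by
    rintro y (rfl | rfl)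
    · exact W.one_mem
    · exact hvW
  have hcardL : Nat.card L = 2 := by
    rw [Nat.card_eq_two_iff]
    refine ⟨1, ⟨v, Or.inr rfl⟩, ?_, ?_⟩
    · intro h
      exact hv1 (congrArg Subtype.val h).symm
    · ext ⟨y, hy⟩
      simp only [Set.mem_insert_iff, Set.mem_singleton_iff, Set.mem_univ, iff_true]
      rcases hy with rfl | rfl
      · left; rfl
      · right; rfl
  let H := L.subgroupOf W
  have hcardH : Nat.card H = 2 := by
    rw [← hcardL]
    exact Nat.card_congr (Subgroup.subgroupOfEquivOfLe hLW).toEquiv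
  have hidx : H.index = 2 := by
    have := Subgroup.card_mul_index H
    rw [hcardH, hW4] at this
    omega
  have := (Subgroup.mul_mem_iff_of_index_two hidx (a := ⟨u, hu⟩) (b := ⟨u', hu'⟩)).2
    ⟨fun h => absurd h h1, fun h => absurd h h2⟩
  exact this

/-- Commutators with a fixed element. -/
noncomputable def commHom (L : Subgroup Y) (x : Y) (hL : ∀ y : Y, ⁅y, x⁆ ∈ L) : Y →* L where
  toFun y := ⟨⁅y, x⁆, hL y⟩
  map_one' := by ext; simp
  map_mul' a b := by ext; simpa using S.comm_mul a b x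

theorem card_le_ker_mul [Finite Y] (L : Subgroup Y) (x : Y) (hL : ∀ y : Y, ⁅y, x⁆ ∈ L) :
    Nat.card Y ≤ Nat.card (S.commHom L x hL).ker * Nat.card L := by
  have h1 := Subgroup.card_mul_index (S.commHom L x hL).ker
  rw [Subgroup.index_ker] at h1
  rw [← h1]
  exact Nat.mul_le_mul_left _ (Subgroup.card_le_card_group _)

theorem mem_ker {L : Subgroup Y} {x : Y} {hL : ∀ y : Y, ⁅y, x⁆ ∈ L} {y : Y} :
    y ∈ (S.commHom L x hL).ker ↔ ⁅y, x⁆ = 1 := by
  rw [MonoidHom.mem_ker, Subtype.ext_iff]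
  rfl

theorem sq_mul_of_comm {x y : Y} (h : ⁅y, x⁆ = 1) : (x * y) ^ 2 = x ^ 2 * y ^ 2 := by
  rw [S.sq_mul, h, one_mul]

/-- Bound on the centralizer of an element outside `W`. -/
theorem card_ker_le [Finite Y] (hW4 : Nat.card W = 4) {x : Y} (hx : x ∉ W) :
    Nat.card (S.commHom W x (fun y => S.comm_mem y x)).ker ≤ 32 := by
  classical
  set K := (S.commHom W x (fun y => S.comm_mem y x)).ker with hK
  have hv1 : x ^ 2 ≠ 1 := fun h => hx ((S.sq_iff x).1 h)
  obtain ⟨N1, hN1, hxN1, hcN1, hUN1⟩ := S.exists_double W le_rfl x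
  have hNK : N1 ≤ K := by
    apply hUN1
    · intro w hw
      rw [hK, S.mem_ker]
      simp only [commutatorElement_def]
      have := S.central w hw x
      rw [this]
      group
    · rw [hK, S.mem_ker]
      simp only [commutatorElement_def]
      group
  have := S.card_le_four_mul (S.half_pair hW4 (S.sq_mem x) hv1) K N1 hN1 hNK (by
    intro y hy hyN h
    rw [hK, S.mem_ker] at hy
    have hyW : y ∉ W := fun h' => hyN (hN1 h')
    rcases h with h | h
    · exact hyW ((S.sq_iff y).1 h)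
    · have h2 : (x * y) ^ 2 = 1 := by
        rw [S.sq_mul_of_comm hy, h, ← pow_two]
        exact (S.sq_iff _).2 (S.sq_mem x)
      have h3 : x * y ∈ N1 := hN1 ((S.sq_iff _).1 h2)
      apply hyN
      have e : y = x⁻¹ * (x * y) := by group
      rw [e]
      exact N1.mul_mem (N1.inv_mem hxN1) h3)
  rw [hW4] at hcN1
  omega

/-- The Gauss sum: no such group of order `128`. -/
theorem no128 [Finite Y] (hW4 : Nat.card W = 4) (hY : Nat.card Y = 128) : False := by
  classical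
  haveI : Fintype Y := Fintype.ofFinite Y
  have hne : ∃ v ∈ W, v ≠ 1 := by
    by_contra h
    push Not at h
    have : Subsingleton W := ⟨fun a b => by
      apply Subtype.ext
      rw [h a a.2, h b b.2]⟩
    rw [Nat.card_of_subsingleton (1 : W)] at hW4
    omega
  obtain ⟨v, hvW, hv1⟩ := hne
  set L := pairSub v ((S.sq_iff v).2 hvW) with hLdef
  have hL2 := S.half_pair hW4 hvW hv1
  rw [← hLdef] at hL2
  have hLW : L ≤ W := by
    rintro y (rfl | rfl)
    · exact W.one_mem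
    · exact hvW
  have hcardL : Nat.card L = 2 := by
    rw [Nat.card_eq_two_iff]
    refine ⟨1, ⟨v, Or.inr rfl⟩, ?_, ?_⟩
    · intro h
      exact hv1 (congrArg Subtype.val h).symm
    · ext ⟨y, hy⟩
      simp only [Set.mem_insert_iff, Set.mem_singleton_iff, Set.mem_univ, iff_true]
      rcases hy with rfl | rfl
      · left; rfl
      · right; rfl
  let ε : Y → ℤ := fun u => if u ∈ L then 1 else -1
  have hε1 : ∀ u, ε u * ε u = 1 := by
    intro u
    simp only [ε]
    split_ifs <;> norm_num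
  have hεmul : ∀ u ∈ W, ∀ u' ∈ W, ε (u * u') = ε u * ε u' := by
    intro u hu u' hu'
    simp only [ε]
    by_cases h1 : u ∈ L <;> by_cases h2 : u' ∈ L
    · simp [h1, h2, L.mul_mem h1 h2]
    · have : u * u' ∉ L := fun h => h2 (by simpa using L.mul_mem (L.inv_mem h1) h)
      simp [h1, h2, this]
    · have : u * u' ∉ L := fun h => h1 (by
        have e : u = u * u' * u'⁻¹ := by group
        rw [e]
        exact L.mul_mem h (L.inv_mem h2))
      simp [h1, h2, this]
    · simp [h1, h2, hL2 u hu u' hu' h1 h2]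
  have hεinv : ∀ u, ε u⁻¹ = ε u := by
    intro u
    simp only [ε, inv_mem_iff]
  let χ : Y → ℤ := fun x => ε (x ^ 2)
  have hχ1 : ∀ x, χ x * χ x = 1 := fun x => hε1 _
  have hχmul : ∀ x z, χ (x * z) = ε ⁅x, z⁆ * χ x * χ z := by
    intro x z
    simp only [χ]
    rw [S.sq_mul, hεmul _ (W.mul_mem (S.comm_mem _ _) (S.sq_mem x)) _ (S.sq_mem z),
      hεmul _ (S.comm_mem _ _) _ (S.sq_mem x)]
    have : ε ⁅z, x⁆ = ε ⁅x, z⁆ := by
      rw [← commutatorElement_inv, hεinv]
    rw [this]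
  -- the inner sums
  let T : Y → ℤ := fun z => ∑ x : Y, ε ⁅x, z⁆
  have hT0 : ∀ z, z ∉ W → T z = 0 := by
    intro z hz
    have hex : ∃ y0 : Y, ⁅y0, z⁆ ∉ L := by
      by_contra hc
      push Not at hc
      have h1 := S.card_le_ker_mul L z hc
      have h2 := S.card_ker_le hW4 hz
      have hle : (S.commHom L z hc).ker ≤ (S.commHom W z (fun y => S.comm_mem y z)).ker := by
        intro y hy
        rw [S.mem_ker] at hy ⊢
        exact hy
      have h3 := Subgroup.card_le_of_le hle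
      rw [hcardL, hY] at h1
      omega
    obtain ⟨y0, hy0⟩ := hex
    have h1 : T z = ε ⁅y0, z⁆ * T z := by
      simp only [T]
      rw [Finset.mul_sum]
      apply Fintype.sum_equiv (Equiv.mulLeft y0)
      intro x
      simp only [Equiv.coe_mulLeft]
      rw [S.comm_mul, hεmul _ (S.comm_mem _ _) _ (S.comm_mem _ _)]
      have h2 := hε1 ⁅y0, z⁆
      rw [← mul_assoc, h2, one_mul]
    have h2 : ε ⁅y0, z⁆ = -1 := by simp [ε, hy0]
    rw [h2] at h1
    omega
  have hTW : ∀ z, z ∈ W → T z = 128 := by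
    intro z hz
    have : ∀ x : Y, ε ⁅x, z⁆ = 1 := by
      intro x
      have e : ⁅x, z⁆ = 1 := by
        simp only [commutatorElement_def]
        rw [mul_assoc x z, S.central z hz] 
        group
      rw [e]
      simp [ε, L.one_mem]
    simp only [T, this]
    simp [← Nat.card_eq_fintype_card, hY]
  let s : ℤ := ∑ x : Y, χ x
  have hs : s * s = 512 := by
    have h1 : s * s = ∑ x : Y, ∑ z : Y, χ x * χ (x * z) := by
      simp only [s]
      rw [Finset.sum_mul]
      apply Finset.sum_congr rfl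
      intro x _
      rw [Finset.mul_sum]
      exact (Fintype.sum_equiv (Equiv.mulLeft x) _ _ (fun z => rfl)).symm
    have h2 : ∀ x z : Y, χ x * χ (x * z) = ε ⁅x, z⁆ * χ z := by
      intro x z
      rw [hχmul]
      calc χ x * (ε ⁅x, z⁆ * χ x * χ z) = (χ x * χ x) * (ε ⁅x, z⁆ * χ z) := by ring
        _ = _ := by rw [hχ1, one_mul]
    have h3 : s * s = ∑ z : Y, χ z * T z := by
      rw [h1]
      simp only [h2, T]
      rw [Finset.sum_comm]
      apply Finset.sum_congr rfl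
      intro z _
      rw [Finset.mul_sum]
      apply Finset.sum_congr rfl
      intro x _
      ring
    have h4 : ∀ z : Y, χ z * T z = if z ∈ W then 128 else 0 := by
      intro z
      split_ifs with hz
      · rw [hTW z hz]
        have : χ z = 1 := by
          simp only [χ, ε]
          rw [(S.sq_iff z).2 hz]
          simp [L.one_mem]
        rw [this]; norm_num
      · rw [hT0 z hz, mul_zero]
    rw [h3]
    simp only [h4]
    rw [Finset.sum_ite, Finset.sum_const_zero, add_zero, Finset.sum_const]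
    have : (Finset.univ.filter (fun z : Y => z ∈ W)).card = 4 := by
      rw [← hW4, Nat.card_eq_fintype_card, Fintype.card_subtype]
    rw [this]
    norm_num
  have h1 : s ≤ 22 := by nlinarith
  have h2 : -22 ≤ s := by nlinarith
  generalize s = t at *
  interval_cases t <;> omega


/-- `Y` has at most `64` elements when `W` has four. -/
theorem card_le_64 [Finite Y] (hW4 : Nat.card W = 4) : Nat.card Y ≤ 64 := by
  by_contra hgt
  push Not at hgt
  have hex : ∃ x : Y, x ∉ W := by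
    by_contra hc
    push Not at hc
    have : W = ⊤ := by
      ext x
      simp [hc x]
    rw [this, Subgroup.card_top] at hW4
    omega
  obtain ⟨x, hx⟩ := hex
  have h1 := S.card_le_ker_mul W x (fun y => S.comm_mem y x)
  have h2 := S.card_ker_le hW4 hx
  rw [hW4] at h1
  haveI : Fact (Nat.Prime 2) := ⟨Nat.prime_two⟩
  obtain ⟨n, hn⟩ := IsPGroup.iff_card.1 S.isPGroup
  have hn7 : n = 7 := by
    have hlt : n < 8 := by
      by_contra h
      have : 2 ^ 8 ≤ 2 ^ n := Nat.pow_le_pow_right (by norm_num) (by omega)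
      omega
    have hgt' : 6 < n := by
      by_contra h
      have : 2 ^ n ≤ 2 ^ 6 := Nat.pow_le_pow_right (by norm_num) (by omega)
      omega
    omega
  subst hn7
  exact S.no128 hW4 (by omega)

/-- `Y` has at most `8` elements when `W` has two. -/
theorem card_le_8 [Finite Y] (hW2 : Nat.card W = 2) : Nat.card Y ≤ 8 := by
  have h2 : ∀ u ∈ W, ∀ v ∈ W, u ∉ (⊥ : Subgroup Y) → v ∉ (⊥ : Subgroup Y) →
      u * v ∈ (⊥ : Subgroup Y) := by
    intro u hu v hv h1 h3
    rw [Subgroup.mem_bot] at h1 h3 ⊢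
    have huv : u = v := by
      obtain ⟨a, b, hab, hset⟩ := Nat.card_eq_two_iff.1 hW2
      have h1' : ∀ z : W, z = a ∨ z = b := by
        intro z
        have : z ∈ ({a, b} : Set W) := by rw [hset]; trivial
        simpa using this
      have hone : (1 : W) = a ∨ (1 : W) = b := h1' 1
      have hu' := h1' ⟨u, hu⟩
      have hv' := h1' ⟨v, hv⟩
      have hu1 : (⟨u, hu⟩ : W) ≠ 1 := fun h => h1 (congrArg Subtype.val h)
      have hv1 : (⟨v, hv⟩ : W) ≠ 1 := fun h => h3 (congrArg Subtype.val h)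
      have : (⟨u, hu⟩ : W) = ⟨v, hv⟩ := by
        rcases hone with h | h <;> rcases hu' with h' | h' <;> rcases hv' with h'' | h'' <;>
          simp_all
      exact congrArg Subtype.val this
    rw [huv, ← pow_two]
    exact (S.sq_iff v).2 hv
  have := S.card_le_four_mul h2 ⊤ W le_rfl le_top (by
    intro x _ hx h
    rw [Subgroup.mem_bot] at h
    exact hx ((S.sq_iff x).1 h))
  rw [Subgroup.card_top, hW2] at this
  omega

/-- The fibres of the squaring map. -/
def Fib (v : Y) : Set Y := {y | y ^ 2 = v}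

/-- Each fibre is met when `Y` is large. -/
theorem fib_nonempty [Finite Y] (hW4 : Nat.card W = 4) {v : Y} (hvW : v ∈ W) (hv1 : v ≠ 1)
    (hY : 16 < Nat.card Y) : (Fib v).Nonempty := by
  by_contra hc
  rw [Set.not_nonempty_iff_eq_empty] at hc
  have := S.card_le_four_mul (S.half_pair hW4 hvW hv1) ⊤ W le_rfl le_top (by
    intro x _ hx h
    rcases h with h | h
    · exact hx ((S.sq_iff x).1 h)
    · have : x ∈ Fib v := h
      rw [hc] at this
      exact this)
  rw [Subgroup.card_top, hW4] at this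
  omega

/-- Subsets stable under `W` have cardinality divisible by `#W`. -/
theorem card_dvd_of_stable [Finite Y] (A : Set Y) (hA : ∀ a ∈ A, ∀ w ∈ W, a * w ∈ A) :
    Nat.card W ∣ A.ncard := by
  classical
  haveI : Fintype Y := Fintype.ofFinite Y
  let π : Y → Y ⧸ W := QuotientGroup.mk
  let s : Finset Y := A.toFinite.toFinset
  have hs : A.ncard = s.card := Set.ncard_eq_toFinset_card A
  rw [hs, Finset.card_eq_sum_card_image π s]
  apply Finset.dvd_sum
  intro q hq
  obtain ⟨a, ha, rfl⟩ := Finset.mem_image.1 hq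
  have haA : a ∈ A := by simpa [s] using ha
  have : Nat.card W = (s.filter (fun x => π x = π a)).card := by
    haveI : Fintype W := Fintype.ofFinite W
    rw [Nat.card_eq_fintype_card, ← Finset.card_univ]
    refine Finset.card_bij (fun (w : W) _ => a * (w : Y)) ?_ ?_ ?_
    · intro w _
      simp only [Finset.mem_filter, s, Set.Finite.mem_toFinset]
      refine ⟨hA a haA w w.2, ?_⟩
      simp only [π]
      rw [QuotientGroup.eq]
      simp
    · intro w1 _ w2 _ h
      exact Subtype.ext (mul_left_cancel h)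
    · intro x hx
      simp only [Finset.mem_filter] at hx
      have h2 : a⁻¹ * x ∈ W := by
        have h3 : π a = π x := hx.2.symm
        simpa [π, QuotientGroup.eq] using h3
      exact ⟨⟨a⁻¹ * x, h2⟩, Finset.mem_univ _, by simp⟩
  exact this.dvd

end Sys

/-- The fixed points of an automorphism. -/
def fixSub (g : MulAut Y) : Subgroup Y where
  carrier := {y | g y = y}
  one_mem' := map_one g
  mul_mem' := by
    intro a b ha hb
    show g (a * b) = a * b
    rw [map_mul, show g a = a from ha, show g b = b from hb]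
  inv_mem' := by
    intro a ha
    show g a⁻¹ = a⁻¹
    rw [map_inv, show g a = a from ha]

theorem mem_fixSub {g : MulAut Y} {y : Y} : y ∈ fixSub g ↔ g y = y := Iff.rfl

/-- Counting modulo a prime on an invariant set. -/
theorem card_mod [Finite Y] (g : MulAut Y) (r : ℕ) [Fact r.Prime] (hgr : g ^ r = 1) (F : Set Y)
    (hF : ∀ y ∈ F, g y ∈ F) : F.ncard ≡ (F ∩ (fixSub g : Set Y)).ncard [MOD r] := by
  classical
  haveI : Fintype F := Fintype.ofFinite F
  let f : Function.End F := fun y => ⟨g y, hF _ y.2⟩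
  have hpow : ∀ (n : ℕ) (y : F), (((f ^ n) y : F) : Y) = (g ^ n) (y : Y) := by
    intro n
    induction n with
    | zero => intro y; rfl
    | succ n ih =>
      intro y
      rw [pow_succ, pow_succ]
      show (((f ^ n) (f y) : F) : Y) = (g ^ n) (g (y : Y))
      rw [ih]
  have hf : f ^ r ^ 1 = 1 := by
    funext y
    apply Subtype.ext
    rw [pow_one, hpow, hgr]
    rfl
  have hmod := Equiv.Perm.card_fixedPoints_modEq (p := r) (n := 1) hf
  have h1 : Fintype.card F = F.ncard := by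
    rw [← Nat.card_eq_fintype_card, Nat.card_coe_set_eq]
  have h2 : Fintype.card (Function.fixedPoints f) = (F ∩ (fixSub g : Set Y)).ncard := by
    rw [← Nat.card_eq_fintype_card, ← Nat.card_coe_set_eq]
    apply Nat.card_congr
    exact
      { toFun := fun x => ⟨x.1.1, x.1.2, congrArg Subtype.val x.2⟩
        invFun := fun y => ⟨⟨y.1, y.2.1⟩, Subtype.ext y.2.2⟩
        left_inv := fun x => rfl
        right_inv := fun y => rfl }
  rw [h1, h2] at hmod
  exact hmod

namespace Sys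

variable {W : Subgroup Y} (S : Sys W)
include S

theorem exists_three [Finite Y] (hW4 : Nat.card W = 4) : ∃ v1 v2 v3 : Y, v1 ∈ W ∧ v2 ∈ W ∧ v3 ∈ W ∧
    v1 ≠ 1 ∧ v2 ≠ 1 ∧ v3 ≠ 1 ∧ v1 ≠ v2 ∧ v1 ≠ v3 ∧ v2 ≠ v3 ∧
    ∀ v ∈ W, v = 1 ∨ v = v1 ∨ v = v2 ∨ v = v3 := by
  have h1 : ((W : Set Y) \ {1}).ncard = 3 := by
    rw [Set.ncard_diff_singleton_of_mem W.one_mem, ← Nat.card_coe_set_eq]
    show Nat.card W - 1 = 3
    omega
  obtain ⟨a, b, c, hab, hac, hbc, hset⟩ := Set.ncard_eq_three.1 h1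
  have ha : a ∈ (W : Set Y) \ {1} := by rw [hset]; simp
  have hb : b ∈ (W : Set Y) \ {1} := by rw [hset]; simp
  have hc : c ∈ (W : Set Y) \ {1} := by rw [hset]; simp
  refine ⟨a, b, c, ha.1, hb.1, hc.1, ha.2, hb.2, hc.2, hab, hac, hbc, ?_⟩
  intro v hv
  by_cases hv1 : v = 1
  · exact Or.inl hv1
  · have : v ∈ (W : Set Y) \ {1} := ⟨hv, hv1⟩
    rw [hset] at this
    simpa [hv1] using this

/-- The partition of a subgroup over `W` by the squaring map. -/
theorem partition [Finite Y] (hW4 : Nat.card W = 4) {v1 v2 v3 : Y} (h1 : v1 ≠ 1) (h2 : v2 ≠ 1) (h3 : v3 ≠ 1)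
    (h12 : v1 ≠ v2) (h13 : v1 ≠ v3) (h23 : v2 ≠ v3)
    (hW : ∀ v ∈ W, v = 1 ∨ v = v1 ∨ v = v2 ∨ v = v3) (C : Subgroup Y) (hC : W ≤ C) :
    Nat.card C = 4 + (Fib v1 ∩ (C : Set Y)).ncard + (Fib v2 ∩ (C : Set Y)).ncard
      + (Fib v3 ∩ (C : Set Y)).ncard := by
  have hset : (C : Set Y) = (W : Set Y) ∪ ((Fib v1 ∩ (C : Set Y)) ∪ ((Fib v2 ∩ (C : Set Y)) ∪ (Fib v3 ∩ (C : Set Y)))) := by
    ext y
    constructor
    · intro hy
      have := hW _ (S.sq_mem y)
      rcases this with h | h | h | h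
      · exact Or.inl ((S.sq_iff y).1 h)
      · exact Or.inr (Or.inl ⟨h, hy⟩)
      · exact Or.inr (Or.inr (Or.inl ⟨h, hy⟩))
      · exact Or.inr (Or.inr (Or.inr ⟨h, hy⟩))
    · rintro (h | h | h | h)
      · exact hC h
      · exact h.2
      · exact h.2
      · exact h.2
  have hd1 : Disjoint (W : Set Y) ((Fib v1 ∩ (C : Set Y)) ∪ ((Fib v2 ∩ (C : Set Y)) ∪ (Fib v3 ∩ (C : Set Y)))) := by
    rw [Set.disjoint_left]
    intro y hy h
    have hy1 : y ^ 2 = 1 := (S.sq_iff y).2 hy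
    rcases h with h | h | h
    · exact h1 (h.1.symm.trans hy1)
    · exact h2 (h.1.symm.trans hy1)
    · exact h3 (h.1.symm.trans hy1)
  have hd2 : Disjoint (Fib v1 ∩ (C : Set Y)) ((Fib v2 ∩ (C : Set Y)) ∪ (Fib v3 ∩ (C : Set Y))) := by
    rw [Set.disjoint_left]
    intro y hy h
    rcases h with h | h
    · exact h12 (hy.1.symm.trans h.1)
    · exact h13 (hy.1.symm.trans h.1)
  have hd3 : Disjoint (Fib v2 ∩ (C : Set Y)) (Fib v3 ∩ (C : Set Y)) := by
    rw [Set.disjoint_left]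
    intro y hy h
    exact h23 (hy.1.symm.trans h.1)
  have e : Nat.card C = (C : Set Y).ncard := Nat.card_coe_set_eq _
  rw [e]
  conv_lhs => rw [hset]
  rw [Set.ncard_union_eq hd1, Set.ncard_union_eq hd2, Set.ncard_union_eq hd3]
  have e2 : (W : Set Y).ncard = 4 := by
    rw [← Nat.card_coe_set_eq]
    exact hW4
  rw [e2]
  omega

theorem fib_stable {v : Y} (C : Subgroup Y) (hC : W ≤ C) :
    ∀ a ∈ Fib v ∩ (C : Set Y), ∀ w ∈ W, a * w ∈ Fib v ∩ (C : Set Y) := by
  rintro a ⟨ha, haC⟩ w hw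
  refine ⟨?_, C.mul_mem haC (hC hw)⟩
  have h1 : ⁅w, a⁆ = 1 := by
    simp only [commutatorElement_def]
    rw [S.central w hw a]
    group
  show (a * w) ^ 2 = v
  rw [S.sq_mul, h1, one_mul, (S.sq_iff w).2 hw, mul_one]
  exact ha

theorem pow2_cases {n : ℕ} {m : ℕ} (h : n = 2 ^ m) (hn : n ≤ 64) :
    n = 1 ∨ n = 2 ∨ n = 4 ∨ n = 8 ∨ n = 16 ∨ n = 32 ∨ n = 64 := by
  have hm : m ≤ 6 := by
    by_contra hc
    have : 2 ^ 7 ≤ 2 ^ m := Nat.pow_le_pow_right (by norm_num) (by omega)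
    omega
  interval_cases m <;> omega

/-- The numerical data attached to an automorphism fixing `W`. -/
theorem data [Finite Y] (hY : Nat.card Y ≤ 64) (g : MulAut Y) (hgW : ∀ w ∈ W, g w = w) (r : ℕ) [Fact r.Prime]
    (hgr : g ^ r = 1) (hg1 : g ≠ 1) :
    W ≤ fixSub g ∧ Nat.card (fixSub g) < Nat.card Y ∧ (Nat.card Y) % r = (Nat.card (fixSub g)) % r ∧
      (Nat.card Y = 1 ∨ Nat.card Y = 2 ∨ Nat.card Y = 4 ∨ Nat.card Y = 8 ∨ Nat.card Y = 16 ∨ Nat.card Y = 32 ∨ Nat.card Y = 64) ∧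
      (Nat.card (fixSub g) = 1 ∨ Nat.card (fixSub g) = 2 ∨ Nat.card (fixSub g) = 4 ∨ Nat.card (fixSub g) = 8 ∨ Nat.card (fixSub g) = 16 ∨ Nat.card (fixSub g) = 32 ∨ Nat.card (fixSub g) = 64) := by
  haveI : Fact (Nat.Prime 2) := ⟨Nat.prime_two⟩
  have hle : W ≤ fixSub g := fun w hw => hgW w hw
  have hlt : Nat.card (fixSub g) < Nat.card Y := by
    by_contra hc
    push Not at hc
    have h1 := Subgroup.card_le_card_group (fixSub g)
    have h2 : Nat.card (fixSub g) = Nat.card Y := le_antisymm h1 hc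
    have h3 : fixSub g = ⊤ := by
      apply Subgroup.eq_top_of_card_eq
      exact h2
    apply hg1
    ext y
    have : y ∈ fixSub g := by rw [h3]; trivial
    exact this
  have hmod := card_mod g r hgr Set.univ (fun _ _ => trivial)
  have e1 : (Set.univ : Set Y).ncard = Nat.card Y := by
    rw [Set.ncard_univ]
  have e2 : ((Set.univ : Set Y) ∩ (fixSub g : Set Y)).ncard = Nat.card (fixSub g) := by
    rw [Set.univ_inter, ← Nat.card_coe_set_eq]
    rfl
  rw [e1, e2] at hmod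
  refine ⟨hle, hlt, hmod, ?_, ?_⟩
  · obtain ⟨n, hn⟩ := IsPGroup.iff_card.1 S.isPGroup
    exact S.pow2_cases hn hY
  · obtain ⟨n, hn⟩ := IsPGroup.iff_card.1 (S.isPGroup.to_subgroup (fixSub g))
    exact S.pow2_cases hn ((Subgroup.card_le_card_group _).trans hY)

/-- Order `7` does not occur. -/
theorem no7 [Finite Y] (hW4 : Nat.card W = 4) (g : MulAut Y) (hgW : ∀ w ∈ W, g w = w)
    (hgr : g ^ 7 = 1) (hg1 : g ≠ 1) : False := by
  classical
  haveI : Fact (Nat.Prime 7) := ⟨by norm_num⟩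
  have hY := S.card_le_64 hW4
  obtain ⟨hle, hlt, hmod, ha, hc⟩ := S.data hY g hgW 7 hgr hg1
  have hc4 : 4 ≤ Nat.card (fixSub g) := by
    have := Subgroup.card_le_of_le hle
    rw [hW4] at this
    exact this
  obtain ⟨v1, v2, v3, hv1, hv2, hv3, h1, h2, h3, h12, h13, h23, hW⟩ := S.exists_three hW4
  have hfix : ∀ v ∈ W, ∀ y ∈ Fib v, g y ∈ Fib v := by
    intro v hv y hy
    show (g y) ^ 2 = v
    rw [← map_pow, show y ^ 2 = v from hy, hgW v hv]
  have m1 := card_mod g 7 hgr (Fib v1) (hfix v1 hv1)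
  have m2 := card_mod g 7 hgr (Fib v2) (hfix v2 hv2)
  have m3 := card_mod g 7 hgr (Fib v3) (hfix v3 hv3)
  have p1 := S.partition hW4 h1 h2 h3 h12 h13 h23 hW ⊤ le_top
  have p2 := S.partition hW4 h1 h2 h3 h12 h13 h23 hW (fixSub g) hle
  simp only [Subgroup.coe_top, Set.inter_univ, Subgroup.card_top] at p1
  have d : ∀ v : Y, 4 ∣ (Fib v ∩ (fixSub g : Set Y)).ncard := by
    intro v
    have := S.card_dvd_of_stable _ (S.fib_stable (v := v) (fixSub g) hle)
    rwa [hW4] at this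
  have d' : ∀ v : Y, 4 ∣ (Fib v).ncard := by
    intro v
    have := S.card_dvd_of_stable _ (S.fib_stable (v := v) ⊤ le_top)
    simpa [hW4] using this
  have key : ∀ v ∈ W, v ≠ 1 → Nat.card (fixSub g) = 8 → Nat.card Y = 64 →
      (Fib v ∩ (fixSub g : Set Y)).ncard = (Fib v).ncard → False := by
    intro v hv hv1' hc8 hY64 he
    have hsub : Fib v ⊆ (fixSub g : Set Y) := by
      have h4 : Fib v ∩ (fixSub g : Set Y) = Fib v :=
        Set.eq_of_subset_of_ncard_le Set.inter_subset_left he.ge (Set.toFinite _)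
      intro y hy
      rw [← h4] at hy
      exact hy.2
    have := S.card_le_four_mul (S.half_pair hW4 hv hv1') ⊤ (fixSub g) hle le_top (by
      intro x _ hx h
      rcases h with h | h
      · exact hx (hle ((S.sq_iff x).1 h))
      · exact hx (hsub h))
    rw [Subgroup.card_top, hc8, hY64] at this
    omega
  have ne : ∀ v ∈ W, v ≠ 1 → 16 < Nat.card Y → 0 < (Fib v).ncard := by
    intro v hv hv1' hY'
    exact (Set.ncard_pos (Set.toFinite _)).2 (S.fib_nonempty hW4 hv hv1' hY')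
  have dd1 := d v1
  have dd2 := d v2
  have dd3 := d v3
  have dd1' := d' v1
  have dd2' := d' v2
  have dd3' := d' v3
  unfold Nat.ModEq at m1 m2 m3
  have hcases := num7a ha hc hlt hc4 hmod
  have pp1 : Nat.card Y = 4 + (Fib v1).ncard + (Fib v2).ncard + (Fib v3).ncard := p1
  rcases hcases with ⟨ha32, hc4'⟩ | ⟨ha64, hc8⟩
  · have n1 := ne v1 hv1 h1 (by rw [ha32]; norm_num)
    have n2 := ne v2 hv2 h2 (by rw [ha32]; norm_num)
    have n3 := ne v3 hv3 h3 (by rw [ha32]; norm_num)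
    rw [ha32] at pp1
    rw [hc4'] at p2
    exact num7b pp1 p2 m1 m2 m3 dd1' dd2' dd3' n1 n2 n3
  · have n1 := ne v1 hv1 h1 (by rw [ha64]; norm_num)
    have n2 := ne v2 hv2 h2 (by rw [ha64]; norm_num)
    have n3 := ne v3 hv3 h3 (by rw [ha64]; norm_num)
    have k1 := key v1 hv1 h1 hc8 ha64
    have k2 := key v2 hv2 h2 hc8 ha64
    have k3 := key v3 hv3 h3 hc8 ha64
    rw [ha64] at pp1
    rw [hc8] at p2
    exact num7c pp1 p2 m1 m2 m3 dd1' dd2' dd3' dd1 dd2 dd3 n1 n2 n3 k1 k2 k3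

/-- The only odd primes are `3` and `5`. -/
theorem prime_cases [Finite Y] (hw : Nat.card W = 1 ∨ Nat.card W = 2 ∨ Nat.card W = 4) (g : MulAut Y)
    (hgW : ∀ w ∈ W, g w = w) (r : ℕ) (hr : r.Prime) (hr2 : r ≠ 2) (hgr : g ^ r = 1) (hg1 : g ≠ 1) :
    r = 3 ∨ r = 5 := by
  haveI : Fact r.Prime := ⟨hr⟩
  have hY : Nat.card Y ≤ 64 := by
    rcases hw with h | h | h
    · have : W = ⊥ := by
        rw [← Subgroup.card_eq_one] 
        exact h
      have h1 : ∀ x : Y, x = 1 := by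
        intro x
        have h2 := S.sq_mem x
        rw [this, Subgroup.mem_bot] at h2
        have h3 := (S.sq_iff x).1 h2
        rwa [this, Subgroup.mem_bot] at h3
      have : Subsingleton Y := ⟨fun a b => by rw [h1 a, h1 b]⟩
      rw [Nat.card_of_subsingleton (1 : Y)]
      omega
    · have := S.card_le_8 h
      omega
    · exact S.card_le_64 h
  obtain ⟨hle, hlt, hmod, ha, hc⟩ := S.data hY g hgW r hgr hg1
  have hcW := Subgroup.card_le_of_le hle
  have hdvd : r ∣ Nat.card Y - Nat.card (fixSub g) :=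
    (Nat.modEq_iff_dvd' hlt.le).1 hmod.symm
  rcases hw with h | h | h
  · have hY1 : Nat.card Y = 1 := by
      have : W = ⊥ := by
        rw [← Subgroup.card_eq_one]
        exact h
      have h1 : ∀ x : Y, x = 1 := by
        intro x
        have h2 := S.sq_mem x
        rw [this, Subgroup.mem_bot] at h2
        have h3 := (S.sq_iff x).1 h2
        rwa [this, Subgroup.mem_bot] at h3
      have : Subsingleton Y := ⟨fun a b => by rw [h1 a, h1 b]⟩
      exact Nat.card_of_subsingleton (1 : Y)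
    omega
  · have h8 := S.card_le_8 h
    have hd : Nat.card Y - Nat.card (fixSub g) = 2 ∨ Nat.card Y - Nat.card (fixSub g) = 4 ∨ Nat.card Y - Nat.card (fixSub g) = 6 := by
      omega
    have : r ∣ 2 * 2 * 3 := by
      rcases hd with e | e | e <;> rw [e] at hdvd
      · exact hdvd.trans (by norm_num)
      · exact hdvd.trans (by norm_num)
      · exact hdvd.trans (by norm_num)
    rcases (hr.dvd_mul).1 this with h2 | h2
    · rcases (hr.dvd_mul).1 h2 with h3 | h3 <;>
        exact absurd ((Nat.prime_dvd_prime_iff_eq hr Nat.prime_two).1 h3) hr2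
    · exact Or.inl ((Nat.prime_dvd_prime_iff_eq hr Nat.prime_three).1 h2)
  · have hd : Nat.card Y - Nat.card (fixSub g) ∣ 2 ^ 6 * 3 * 5 * 7 := by
      have hd' : Nat.card Y - Nat.card (fixSub g) = 4 ∨ Nat.card Y - Nat.card (fixSub g) = 8 ∨
          Nat.card Y - Nat.card (fixSub g) = 12 ∨ Nat.card Y - Nat.card (fixSub g) = 16 ∨
          Nat.card Y - Nat.card (fixSub g) = 24 ∨ Nat.card Y - Nat.card (fixSub g) = 28 ∨
          Nat.card Y - Nat.card (fixSub g) = 32 ∨ Nat.card Y - Nat.card (fixSub g) = 48 ∨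
          Nat.card Y - Nat.card (fixSub g) = 56 ∨ Nat.card Y - Nat.card (fixSub g) = 60 := by
        omega
      rcases hd' with e | e | e | e | e | e | e | e | e | e <;> rw [e] <;> norm_num
    have h6 := hdvd.trans hd
    rcases (hr.dvd_mul).1 h6 with h7 | h7
    · rcases (hr.dvd_mul).1 h7 with h8 | h8
      · rcases (hr.dvd_mul).1 h8 with h9 | h9
        · exact absurd ((Nat.prime_dvd_prime_iff_eq hr Nat.prime_two).1 (hr.dvd_of_dvd_pow h9)) hr2
        · exact Or.inl ((Nat.prime_dvd_prime_iff_eq hr Nat.prime_three).1 h9)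
      · exact Or.inr ((Nat.prime_dvd_prime_iff_eq hr Nat.prime_five).1 h8)
    · have hr7 : r = 7 := (Nat.prime_dvd_prime_iff_eq hr (by norm_num)).1 h7
      subst hr7
      exact (S.no7 h g hgW hgr hg1).elim

/-- The primes `3` and `5` do not occur together. -/
theorem not_both [Finite Y] (hw : Nat.card W = 1 ∨ Nat.card W = 2 ∨ Nat.card W = 4) (g h : MulAut Y)
    (hgW : ∀ w ∈ W, g w = w) (hhW : ∀ w ∈ W, h w = w) (hg5 : g ^ 5 = 1) (hg1 : g ≠ 1) (hh3 : h ^ 3 = 1)
    (hh1 : h ≠ 1) : False := by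
  classical
  haveI : Fact (Nat.Prime 5) := ⟨by norm_num⟩
  haveI : Fact (Nat.Prime 3) := ⟨by norm_num⟩
  have hW4 : Nat.card W = 4 := by
    rcases hw with h' | h' | h'
    · have : W = ⊥ := by
        rw [← Subgroup.card_eq_one]
        exact h'
      have h1 : ∀ x : Y, x = 1 := by
        intro x
        have h2 := S.sq_mem x
        rw [this, Subgroup.mem_bot] at h2
        have h3 := (S.sq_iff x).1 h2
        rwa [this, Subgroup.mem_bot] at h3
      exact absurd (by ext y; rw [h1 y]; simp) hg1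
    · have h8 := S.card_le_8 h'
      obtain ⟨hle, hlt, hmod, ha, hc⟩ := S.data (by omega) g hgW 5 hg5 hg1
      have hcW := Subgroup.card_le_of_le hle
      omega
    · exact h'
  have hY := S.card_le_64 hW4
  obtain ⟨hle, hlt, hmod, ha, hc⟩ := S.data hY g hgW 5 hg5 hg1
  obtain ⟨hle', hlt', hmod', ha', hc'⟩ := S.data hY h hhW 3 hh3 hh1
  have hcW := Subgroup.card_le_of_le hle
  have hcW' := Subgroup.card_le_of_le hle'
  rw [hW4] at hcW hcW'
  obtain ⟨hY64, hc4, hc4'⟩ := num5a ha hc hc' hlt hlt' hcW hcW' hmod hmod'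
  obtain ⟨v1, v2, v3, hv1, hv2, hv3, h1, h2, h3, h12, h13, h23, hW⟩ := S.exists_three hW4
  have hfix : ∀ (k : MulAut Y), (∀ w ∈ W, k w = w) → ∀ v ∈ W, ∀ y ∈ Fib v, k y ∈ Fib v := by
    intro k hk v hv y hy
    show (k y) ^ 2 = v
    rw [← map_pow, show y ^ 2 = v from hy, hk v hv]
  have m1 := card_mod g 5 hg5 (Fib v1) (hfix g hgW v1 hv1)
  have m2 := card_mod g 5 hg5 (Fib v2) (hfix g hgW v2 hv2)
  have m3 := card_mod g 5 hg5 (Fib v3) (hfix g hgW v3 hv3)
  have m1' := card_mod h 3 hh3 (Fib v1) (hfix h hhW v1 hv1)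
  have m2' := card_mod h 3 hh3 (Fib v2) (hfix h hhW v2 hv2)
  have m3' := card_mod h 3 hh3 (Fib v3) (hfix h hhW v3 hv3)
  have p1 := S.partition hW4 h1 h2 h3 h12 h13 h23 hW ⊤ le_top
  have p2 := S.partition hW4 h1 h2 h3 h12 h13 h23 hW (fixSub g) hle
  have p3 := S.partition hW4 h1 h2 h3 h12 h13 h23 hW (fixSub h) hle'
  simp only [Subgroup.coe_top, Set.inter_univ, Subgroup.card_top] at p1
  have d : ∀ (C : Subgroup Y), W ≤ C → ∀ v : Y, 4 ∣ (Fib v ∩ (C : Set Y)).ncard := by
    intro C hC v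
    have := S.card_dvd_of_stable _ (S.fib_stable (v := v) C hC)
    rwa [hW4] at this
  have d' : ∀ v : Y, 4 ∣ (Fib v).ncard := by
    intro v
    have := S.card_dvd_of_stable _ (S.fib_stable (v := v) ⊤ le_top)
    simpa [hW4] using this
  have ne : ∀ v ∈ W, v ≠ 1 → 0 < (Fib v).ncard := by
    intro v hv hv1'
    exact (Set.ncard_pos (Set.toFinite _)).2 (S.fib_nonempty hW4 hv hv1' (by rw [hY64]; norm_num))
  have n1 := ne v1 hv1 h1
  have n2 := ne v2 hv2 h2
  have n3 := ne v3 hv3 h3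
  have a1 := d _ hle' v1
  have a2 := d _ hle' v2
  have a3 := d _ hle' v3
  have b1 := d' v1
  have b2 := d' v2
  have b3 := d' v3
  unfold Nat.ModEq at m1 m2 m3 m1' m2' m3'
  have pp1 : Nat.card Y = 4 + (Fib v1).ncard + (Fib v2).ncard + (Fib v3).ncard := p1
  rw [hY64] at pp1
  rw [hc4] at p2
  obtain ⟨e1, e2, e3⟩ := num5c p2
  rw [e1] at m1
  rw [e2] at m2
  rw [e3] at m3
  exact num5b pp1 p3 hc4' m1 m2 m3 m1' m2' m3' b1 b2 b3 a1 a2 a3 n1 n2 n3

end Sys

section Assembly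

variable {X : Type*} [Group X]

/-- Two elements of square `1` commute. -/
theorem invols_commute [Finite X] (h2 : IsPGroup 2 X) (h3 : Nat.card {x : X // orderOf x = 2} = 3)
    (a b : X) (ha : a ^ 2 = 1) (hb : b ^ 2 = 1) : a * b = b * a := by
  classical
  by_contra hab
  have h3' : ({x : X | orderOf x = 2}).ncard = 3 := by
    rw [← Nat.card_coe_set_eq]; exact h3
  have ha1 : a ≠ 1 := by rintro rfl; simp at hab
  have hb1 : b ≠ 1 := by rintro rfl; simp at hab
  have hne : a ≠ b := by rintro rfl; exact hab rfl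
  have inv : ∀ x : X, x ^ 2 = 1 → x ≠ 1 → orderOf x = 2 := fun x h1 h2 => orderOf_eq_prime h1 h2
  have haa : a * a = 1 := by rw [← pow_two]; exact ha
  have hbb : b * b = 1 := by rw [← pow_two]; exact hb
  have haa' : ∀ x : X, a * (a * x) = x := fun x => by rw [← mul_assoc, haa, one_mul]
  have hbb' : ∀ x : X, b * (b * x) = x := fun x => by rw [← mul_assoc, hbb, one_mul]
  have c_sq : (a * b * a) ^ 2 = 1 := by
    simp only [pow_two, mul_assoc, haa', hbb', haa, hbb]
  have d_sq : (b * a * b) ^ 2 = 1 := by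
    simp only [pow_two, mul_assoc, haa', hbb', haa, hbb]
  have c1 : a * b * a ≠ 1 := by
    intro h
    apply hb1
    calc b = a * (a * b * a) * a := by simp only [mul_assoc, haa', haa, mul_one]
      _ = 1 := by rw [h, mul_one, haa]
  have d1 : b * a * b ≠ 1 := by
    intro h
    apply ha1
    calc a = b * (b * a * b) * b := by simp only [mul_assoc, hbb', hbb, mul_one]
      _ = 1 := by rw [h, mul_one, hbb]
  have ca : a * b * a ≠ a := by
    intro h
    have h1 : a * b = 1 := by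
      have h' : a * b * a * a = a * a := by rw [h]
      rwa [mul_assoc, haa, mul_one] at h'
    apply hne
    calc a = a * (a * b) := by rw [h1, mul_one]
      _ = b := haa' b
  have cb : a * b * a ≠ b := by
    intro h
    apply hab
    calc a * b = a * b * a * a := by rw [mul_assoc (a * b), haa, mul_one]
      _ = b * a := by rw [h]
  have hT : ({a, b, a * b * a} : Set X).ncard = 3 :=
    Set.ncard_eq_three.2 ⟨a, b, a * b * a, hne, ca.symm, cb.symm, rfl⟩
  have hsub : ({a, b, a * b * a} : Set X) ⊆ {x : X | orderOf x = 2} := by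
    rintro x (rfl | rfl | rfl)
    · exact inv _ ha ha1
    · exact inv _ hb hb1
    · exact inv _ c_sq c1
  have hTS : ({a, b, a * b * a} : Set X) = {x : X | orderOf x = 2} :=
    Set.eq_of_subset_of_ncard_le hsub (by rw [h3', hT]) (Set.toFinite _)
  have hd : b * a * b ∈ ({a, b, a * b * a} : Set X) := by
    rw [hTS]
    exact inv _ d_sq d1
  rcases hd with h | h | h
  · apply hab
    calc a * b = (b * a * b) * b := by rw [h]
      _ = b * a := by rw [mul_assoc (b * a), hbb, mul_one]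
  · have h1 : a * b = 1 := by
      calc a * b = b * (b * a * b) := by simp only [mul_assoc, hbb']
        _ = 1 := by rw [h, hbb]
    apply hne
    calc a = a * (b * b) := by rw [hbb, mul_one]
      _ = b := by rw [← mul_assoc, h1, one_mul]
  · have h3c : (a * b) ^ 3 = 1 := by
      calc (a * b) ^ 3 = (a * b * a) * (b * a * b) := by
            simp only [pow_succ, pow_zero, one_mul, mul_assoc]
        _ = (a * b * a) ^ 2 := by rw [h, pow_two]
        _ = 1 := c_sq
    obtain ⟨k, hk⟩ := h2 (a * b)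
    have hg := (pow_gcd_eq_one (a := a * b)).2 ⟨hk, h3c⟩
    have hco : Nat.gcd (2 ^ k) 3 = 1 := Nat.Coprime.pow_left k (by norm_num)
    rw [hco, pow_one] at hg
    apply hne
    calc a = a * (b * b) := by rw [hbb, mul_one]
      _ = b := by rw [← mul_assoc, hg, one_mul]

/-- The subgroup of elements of square `1`. -/
def Vs (hc : ∀ a b : X, a ^ 2 = 1 → b ^ 2 = 1 → a * b = b * a) : Subgroup X where
  carrier := {x | x ^ 2 = 1}
  one_mem' := one_pow 2
  mul_mem' := by
    intro a b ha hb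
    have : Commute a b := hc a b ha hb
    show (a * b) ^ 2 = 1
    rw [this.mul_pow, show a ^ 2 = 1 from ha, show b ^ 2 = 1 from hb, one_mul]
  inv_mem' := by
    intro a ha
    show a⁻¹ ^ 2 = 1
    rw [inv_pow, show a ^ 2 = 1 from ha, inv_one]

theorem mem_Vs {hc : ∀ a b : X, a ^ 2 = 1 → b ^ 2 = 1 → a * b = b * a} {x : X} :
    x ∈ Vs hc ↔ x ^ 2 = 1 := Iff.rfl

theorem card_Vs [Finite X] (hc : ∀ a b : X, a ^ 2 = 1 → b ^ 2 = 1 → a * b = b * a)
    (h3 : Nat.card {x : X // orderOf x = 2} = 3) : Nat.card (Vs hc) = 4 := by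
  classical
  have h3' : ({x : X | orderOf x = 2}).ncard = 3 := by
    rw [← Nat.card_coe_set_eq]; exact h3
  have hset : ((Vs hc : Subgroup X) : Set X) = insert 1 {x : X | orderOf x = 2} := by
    ext x
    constructor
    · intro hx
      by_cases h1 : x = 1
      · exact Or.inl h1
      · exact Or.inr (orderOf_eq_prime hx h1)
    · rintro (rfl | hx)
      · exact (Vs hc).one_mem
      · show x ^ 2 = 1
        have : orderOf x = 2 := hx
        rw [← this]
        exact pow_orderOf_eq_one x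
  have e : Nat.card (Vs hc) = ((Vs hc : Subgroup X) : Set X).ncard := Nat.card_coe_set_eq _
  rw [e, hset, Set.ncard_insert_of_notMem _ (Set.toFinite _), h3']
  simp

/-- The subgroup `C_D(V)`. -/
def Y0 (D V : Subgroup X) : Subgroup X := D ⊓ Subgroup.centralizer (V : Set X)

theorem mem_Y0 {D V : Subgroup X} {y : X} : y ∈ Y0 D V ↔ y ∈ D ∧ ∀ v ∈ V, v * y = y * v := by
  unfold Y0
  rw [Subgroup.mem_inf, Subgroup.mem_centralizer_iff]
  rfl

theorem stable {D V : Subgroup X} (hD : ∀ α : MulAut X, ∀ d ∈ D, α d ∈ D) (α : MulAut X)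
    (hα : ∀ v ∈ V, α v = v) {y : X} (hy : y ∈ Y0 D V) : α y ∈ Y0 D V := by
  rw [mem_Y0] at hy ⊢
  refine ⟨hD α y hy.1, ?_⟩
  intro v hv
  have := hy.2 v hv
  calc v * α y = α v * α y := by rw [hα v hv]
    _ = α (v * y) := (map_mul α v y).symm
    _ = α (y * v) := by rw [this]
    _ = α y * α v := map_mul α y v
    _ = α y * v := by rw [hα v hv]

theorem inv_fix {V : Subgroup X} {α : MulAut X} (hα : ∀ v ∈ V, α v = v) : ∀ v ∈ V, α⁻¹ v = v := by
  intro v hv
  conv_lhs => rw [← hα v hv]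
  exact MulAut.inv_apply_self _ _ _

/-- The restriction of an automorphism fixing `V` pointwise to `C_D(V)`. -/
def res {D V : Subgroup X} (hD : ∀ α : MulAut X, ∀ d ∈ D, α d ∈ D) (α : MulAut X)
    (hα : ∀ v ∈ V, α v = v) : MulAut ↥(Y0 D V) where
  toFun y := ⟨α y, stable hD α hα y.2⟩
  invFun y := ⟨α⁻¹ y, stable hD α⁻¹ (inv_fix hα) y.2⟩
  left_inv y := Subtype.ext (MulAut.inv_apply_self _ _ _)
  right_inv y := Subtype.ext (MulAut.apply_inv_self _ _ _)
  map_mul' x y := Subtype.ext (map_mul α _ _)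

theorem res_apply {D V : Subgroup X} (hD : ∀ α : MulAut X, ∀ d ∈ D, α d ∈ D) (α : MulAut X)
    (hα : ∀ v ∈ V, α v = v) (y : Y0 D V) : ((res hD α hα y : Y0 D V) : X) = α y := rfl

theorem res_pow {D V : Subgroup X} (hD : ∀ α : MulAut X, ∀ d ∈ D, α d ∈ D) (α : MulAut X)
    (hα : ∀ v ∈ V, α v = v) (n : ℕ) (y : Y0 D V) :
    ((((res hD α hα) ^ n) y : Y0 D V) : X) = (α ^ n) (y : X) := by
  induction n generalizing y with
  | zero => rfl
  | succ n ih =>
    rw [pow_succ, pow_succ, MulAut.mul_apply, MulAut.mul_apply, ih]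
    rfl

/-- The subgroup `W = D ∩ V` of `Y0`. -/
def Wsub (D V : Subgroup X) : Subgroup ↥(Y0 D V) := (D ⊓ V).subgroupOf (Y0 D V)

theorem mem_Wsub {D V : Subgroup X} {y : Y0 D V} : y ∈ Wsub D V ↔ (y : X) ∈ D ∧ (y : X) ∈ V := by
  unfold Wsub
  rw [Subgroup.mem_subgroupOf, Subgroup.mem_inf]

theorem sys {D V : Subgroup X} (hV : ∀ x, x ∈ V ↔ x ^ 2 = 1) (hD4 : ∀ d ∈ D, d ^ 4 = 1)
    (hcomm : ⁅D, (⊤ : Subgroup X)⁆ ≤ D ⊓ Subgroup.centralizer (D : Set X)) : Sys (Wsub D V) where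
  central := by
    intro w hw y
    rw [mem_Wsub] at hw
    exact Subtype.ext ((mem_Y0.1 y.2).2 _ hw.2)
  sq_mem := by
    intro x
    rw [mem_Wsub]
    have hx := (mem_Y0.1 x.2).1
    refine ⟨?_, ?_⟩
    · simpa using D.pow_mem hx 2
    · rw [hV]
      simp only [Subgroup.coe_pow]
      rw [← pow_mul]
      exact hD4 _ hx
  sq_iff := by
    intro x
    rw [mem_Wsub]
    have hx := (mem_Y0.1 x.2).1
    constructor
    · intro h
      refine ⟨hx, (hV _).2 ?_⟩
      have := congrArg Subtype.val h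
      simpa using this
    · rintro ⟨-, h⟩
      apply Subtype.ext
      simpa using (hV _).1 h
  comm_mem := by
    intro x y
    rw [mem_Wsub]
    obtain ⟨hxD, hxC⟩ := mem_Y0.1 x.2
    obtain ⟨hyD, hyC⟩ := mem_Y0.1 y.2
    set c : X := ⁅(x : X), (y : X)⁆ with hc
    have hcm : c ∈ D ⊓ Subgroup.centralizer (D : Set X) :=
      hcomm (Subgroup.commutator_mem_commutator hxD (Subgroup.mem_top _))
    obtain ⟨hcD, hcC⟩ := Subgroup.mem_inf.1 hcm
    have hcy : (y : X) * c = c * y := (Subgroup.mem_centralizer_iff.1 hcC) _ hyD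
    have hy2 : (y : X) ^ 2 ∈ V := by
      rw [hV, ← pow_mul]
      exact hD4 _ hyD
    have hxy2 : (x : X) * (y : X) ^ 2 * (x : X)⁻¹ = (y : X) ^ 2 := by
      rw [← hxC _ hy2]
      group
    have hcc : c ^ 2 = 1 := by
      have h1 : c * y = x * y * (x : X)⁻¹ := by
        rw [hc, commutatorElement_def]
        group
      have h2 : (c * y) ^ 2 = c ^ 2 * (y : X) ^ 2 := by
        simp only [pow_two, mul_assoc]
        rw [← mul_assoc (y : X) c, hcy, mul_assoc]
      have h3 : (c * y) ^ 2 = (y : X) ^ 2 := by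
        rw [h1]
        conv_rhs => rw [← hxy2]
        simp only [pow_two]
        group
      rw [h2] at h3
      simpa using h3
    have hV' : c ∈ V := (hV _).2 hcc
    have e : ((⁅x, y⁆ : Y0 D V) : X) = c := rfl
    rw [e]
    exact ⟨hcD, hV'⟩

/-- If `α` has odd order dividing `r` and is trivial on `C_D(V)`, it is trivial on `D`. -/
theorem fix_of_res {D V : Subgroup X} (hV : ∀ x, x ∈ V ↔ x ^ 2 = 1)
    (hD : ∀ α : MulAut X, ∀ d ∈ D, α d ∈ D) (hD4 : ∀ d ∈ D, d ^ 4 = 1) (α : MulAut X)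
    (hα : ∀ v ∈ V, α v = v) {r : ℕ} (hr : r.Coprime 4) (hαr : α ^ r = 1)
    (hres : res hD α hα = 1) : ∀ d ∈ D, α d = d := by
  intro d hd
  set u : X := d⁻¹ * α d with hu
  have hαd : α d = d * u := by rw [hu]; group
  have huD : u ∈ D := D.mul_mem (D.inv_mem hd) (hD α d hd)
  have huY : u ∈ Y0 D V := by
    rw [mem_Y0]
    refine ⟨huD, ?_⟩
    intro v hv
    have hv2 := (hV v).1 hv
    have hw : d * v * d⁻¹ ∈ V := by
      rw [hV]
      calc (d * v * d⁻¹) ^ 2 = d * v ^ 2 * d⁻¹ := by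
            simp only [pow_two]
            group
        _ = 1 := by rw [hv2]; group
    have h1 := hα _ hw
    rw [map_mul, map_mul, map_inv, hα v hv, hαd] at h1
    have h2 : u * v * u⁻¹ = v := by
      have : d⁻¹ * (d * u * v * (d * u)⁻¹) * d = d⁻¹ * (d * v * d⁻¹) * d := by rw [h1]
      calc u * v * u⁻¹ = d⁻¹ * (d * u * v * (d * u)⁻¹) * d := by group
        _ = d⁻¹ * (d * v * d⁻¹) * d := this
        _ = v := by group
    calc v * u = (u * v * u⁻¹) * u := by rw [h2]
      _ = u * v := by group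
  have hαu : α u = u := by
    have := congrArg (fun g : MulAut ↥(Y0 D V) => ((g ⟨u, huY⟩ : Y0 D V) : X)) hres
    exact this
  have hpow : ∀ n : ℕ, (α ^ n) d = d * u ^ n := by
    intro n
    induction n with
    | zero => simp
    | succ n ih =>
      rw [pow_succ', MulAut.mul_apply, ih, map_mul, map_pow, hαu, hαd, pow_succ', mul_assoc]
  have h1 : u ^ r = 1 := by
    have := hpow r
    rw [hαr, MulAut.one_apply] at this
    exact (mul_eq_left.1 this.symm)
  have h2 : u ^ 4 = 1 := hD4 u huD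
  have h3 := (pow_gcd_eq_one (a := u)).2 ⟨h1, h2⟩
  rw [hr, pow_one] at h3
  rw [hαd, h3, mul_one]

/-- Primes dividing `n`. -/
theorem two_primes {p q : ℕ} : ∀ n : ℕ, 0 < n → (∀ r : ℕ, r.Prime → r ∣ n → r = p ∨ r = q) →
    ∃ a b : ℕ, n = p ^ a * q ^ b := by
  intro n
  induction n using Nat.strong_induction_on with
  | _ n ih =>
    intro hn h
    by_cases h1 : n = 1
    · exact ⟨0, 0, by simp [h1]⟩
    · have hm := Nat.minFac_prime h1
      obtain ⟨k, hk⟩ := Nat.minFac_dvd n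
      have hk0 : 0 < k := by
        rcases Nat.eq_zero_or_pos k with h0 | h0
        · rw [h0, mul_zero] at hk
          omega
        · exact h0
      have hlt : k < n := by
        rw [hk]
        conv_lhs => rw [← one_mul k]
        exact Nat.mul_lt_mul_of_lt_of_le hm.one_lt le_rfl hk0
      obtain ⟨a, b, hab⟩ := ih k hlt hk0 (fun r hr hrk => h r hr (hrk.trans (Dvd.intro_left _ hk.symm)))
      rcases h _ hm (Nat.minFac_dvd n) with e | e
      · refine ⟨a + 1, b, ?_⟩
        rw [hk, hab, e]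
        ring
      · refine ⟨a, b + 1, ?_⟩
        rw [hk, hab, e]
        ring

/-- The action on involutions. -/
def permHom (X : Type*) [Group X] : MulAut X →* Equiv.Perm {x : X // orderOf x = 2} where
  toFun α := α.toEquiv.subtypeEquiv (fun x => by
    show orderOf x = 2 ↔ orderOf (α x) = 2
    rw [MulEquiv.orderOf_eq])
  map_one' := by
    ext x
    rfl
  map_mul' α β := by
    ext x
    rfl

theorem main_thm [Finite X] (h2 : IsPGroup 2 X) (h3 : Nat.card {x : X // orderOf x = 2} = 3) :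
    Group.IsSolvable (MulAut X) := by
  classical
  have hc := invols_commute h2 h3
  set V := Vs hc with hVdef
  have hV : ∀ x, x ∈ V ↔ x ^ 2 = 1 := fun x => Iff.rfl
  have hV4 : Nat.card V = 4 := card_Vs hc h3
  obtain ⟨D, hDst, -, hDexp, hDcomm, hDfaith, -⟩ :=
    Cfsg.Agent.Lib.Tech.crit_aut_main h2 (⊤ : Subgroup (MulAut X)) le_top
  have hD : ∀ α : MulAut X, ∀ d ∈ D, α d ∈ D := by
    intro α d hd
    have := hDst α trivial
    rw [← this]
    exact ⟨d, hd, rfl⟩
  have hD4 : ∀ d ∈ D, d ^ 4 = 1 := by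
    intro d hd
    rcases hDexp d hd with h | ⟨_, h⟩
    · rw [show 4 = 2 * 2 from rfl, pow_mul, h, one_pow]
    · exact h
  have S : Sys (Wsub D V) := sys hV hD4 hDcomm
  have hw : Nat.card (Wsub D V) = 1 ∨ Nat.card (Wsub D V) = 2 ∨ Nat.card (Wsub D V) = 4 := by
    have hle : D ⊓ V ≤ Y0 D V := by
      intro x hx
      rw [mem_Y0]
      exact ⟨hx.1, fun v hv => hc v x ((hV v).1 hv) ((hV x).1 hx.2)⟩
    have e1 : Nat.card (Wsub D V) = Nat.card ↥(D ⊓ V) :=
      Nat.card_congr (Subgroup.subgroupOfEquivOfLe hle).toEquiv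
    have d1 : Nat.card ↥(D ⊓ V) ∣ Nat.card V := Subgroup.card_dvd_of_le inf_le_right
    rw [hV4] at d1
    rw [e1]
    have hle4 := Nat.le_of_dvd (by norm_num) d1
    have hpos : 0 < Nat.card ↥(D ⊓ V) := Nat.card_pos
    generalize Nat.card ↥(D ⊓ V) = n at *
    interval_cases n <;> first | omega | (exfalso; revert d1; decide)
  let ψ := permHom X
  have hker : ∀ α ∈ ψ.ker, ∀ v ∈ V, α v = v := by
    intro α hα v hv
    by_cases h1 : v = 1
    · rw [h1, map_one]
    · have h5 : orderOf v = 2 := orderOf_eq_prime ((hV v).1 hv) h1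
      have := congrArg (fun g : Equiv.Perm {x : X // orderOf x = 2} => ((g ⟨v, h5⟩ : {x : X // orderOf x = 2}) : X)) (MonoidHom.mem_ker.1 hα)
      exact this
  have hresW : ∀ (α : MulAut X) (hα : ∀ v ∈ V, α v = v), ∀ w ∈ Wsub D V, res hD α hα w = w := by
    intro α hα w hw'
    apply Subtype.ext
    rw [mem_Wsub] at hw'
    exact hα _ hw'.2
  have hrespow : ∀ (α : MulAut X) (hα : ∀ v ∈ V, α v = v) (n : ℕ), α ^ n = 1 → (res hD α hα) ^ n = 1 := by
    intro α hα n hn
    ext y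
    rw [res_pow, hn]
    rfl
  have hres1 : ∀ (α : MulAut X) (hα : ∀ v ∈ V, α v = v) (r : ℕ), r.Prime → r ≠ 2 → α ^ r = 1 → α ≠ 1 →
      res hD α hα ≠ 1 := by
    intro α hα r hr hr2 hαr hα1 h1
    haveI : Fact r.Prime := ⟨hr⟩
    have hco4 : r.Coprime 4 := by
      have : r.Coprime (2 ^ 2) := Nat.Coprime.pow_right 2 ((Nat.coprime_primes hr Nat.prime_two).2 hr2)
      simpa using this
    have hfix := fix_of_res hV hD hD4 α hα hco4 hαr h1
    apply hα1
    apply hDfaith α trivial _ hfix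
    rw [orderOf_eq_prime hαr hα1]
    exact (Nat.coprime_primes hr Nat.prime_two).2 hr2
  have hcases : ∀ r : ℕ, r.Prime → r ∣ Nat.card ψ.ker → r = 2 ∨ r = 3 ∨ r = 5 := by
    intro r hr hd
    by_cases hr2 : r = 2
    · exact Or.inl hr2
    · right
      haveI : Fact r.Prime := ⟨hr⟩
      obtain ⟨β, hβ⟩ := exists_prime_orderOf_dvd_card' r hd
      have hα : ∀ v ∈ V, (β : MulAut X) v = v := hker β β.2
      have hαo : orderOf (β : MulAut X) = r := by
        rw [Subgroup.orderOf_coe, hβ]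
      have hαr : (β : MulAut X) ^ r = 1 := by
        rw [← hαo]
        exact pow_orderOf_eq_one _
      have hα1 : (β : MulAut X) ≠ 1 := by
        intro h
        rw [h, orderOf_one] at hαo
        exact hr.one_lt.ne hαo
      exact S.prime_cases hw (res hD β hα) (hresW _ hα) r hr hr2 (hrespow _ hα r hαr)
        (hres1 _ hα r hr hr2 hαr hα1)
  have hnotboth : Nat.Prime 3 → Nat.Prime 5 → 3 ∣ Nat.card ψ.ker → 5 ∣ Nat.card ψ.ker → False := by
    intro p3 p5 d3 d5
    haveI : Fact (Nat.Prime 3) := ⟨p3⟩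
    haveI : Fact (Nat.Prime 5) := ⟨p5⟩
    obtain ⟨β, hβ⟩ := exists_prime_orderOf_dvd_card' 3 d3
    obtain ⟨γ, hγ⟩ := exists_prime_orderOf_dvd_card' 5 d5
    have hα : ∀ v ∈ V, (β : MulAut X) v = v := hker β β.2
    have hα' : ∀ v ∈ V, (γ : MulAut X) v = v := hker γ γ.2
    have e1 : orderOf (β : MulAut X) = 3 := by rw [Subgroup.orderOf_coe, hβ]
    have e2 : orderOf (γ : MulAut X) = 5 := by rw [Subgroup.orderOf_coe, hγ]
    have f1 : (β : MulAut X) ^ 3 = 1 := by rw [← e1]; exact pow_orderOf_eq_one _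
    have f2 : (γ : MulAut X) ^ 5 = 1 := by rw [← e2]; exact pow_orderOf_eq_one _
    have g1 : (β : MulAut X) ≠ 1 := by
      intro h; rw [h, orderOf_one] at e1; omega
    have g2 : (γ : MulAut X) ≠ 1 := by
      intro h; rw [h, orderOf_one] at e2; omega
    exact S.not_both hw (res hD γ hα') (res hD β hα) (hresW _ hα') (hresW _ hα) (hrespow _ hα' 5 f2)
      (hres1 _ hα' 5 p5 (by norm_num) f2 g2) (hrespow _ hα 3 f1) (hres1 _ hα 3 p3 (by norm_num) f1 g1)
  have p2 : Nat.Prime 2 := Nat.prime_two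
  have p3 : Nat.Prime 3 := by norm_num
  have p5 : Nat.Prime 5 := by norm_num
  have hBsolv : Group.IsSolvable ψ.ker := by
    by_cases h5 : 5 ∣ Nat.card ψ.ker
    · have h3' : ¬ 3 ∣ Nat.card ψ.ker := fun h => hnotboth p3 p5 h h5
      obtain ⟨a, b, hab⟩ := two_primes (p := 2) (q := 5) _ Nat.card_pos (by
        intro r hr hd
        rcases hcases r hr hd with h | h | h
        · exact Or.inl h
        · exact absurd (h ▸ hd) h3'
        · exact Or.inr h)
      exact Cfsg.Agent.Lib.Char.isSolvable_of_card_eq_aux p2 p5 _ _ rfl ⟨a, b, hab⟩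
    · obtain ⟨a, b, hab⟩ := two_primes (p := 2) (q := 3) _ Nat.card_pos (by
        intro r hr hd
        rcases hcases r hr hd with h | h | h
        · exact Or.inl h
        · exact Or.inr h
        · exact absurd (h ▸ hd) h5)
      exact Cfsg.Agent.Lib.Char.isSolvable_of_card_eq_aux p2 p3 _ _ rfl ⟨a, b, hab⟩
  have hPsolv : Group.IsSolvable (Equiv.Perm {x : X // orderOf x = 2}) := by
    have : Nat.card (Equiv.Perm {x : X // orderOf x = 2}) = 2 ^ 1 * 3 ^ 1 := by
      rw [Nat.card_perm, h3]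
      rfl
    exact Cfsg.Agent.Lib.Char.isSolvable_of_card_eq_aux p2 p3 _ _ rfl ⟨1, 1, this⟩
  exact Group.isSolvable_of_ker_le_range ψ.ker.subtype ψ (by
    rw [Subgroup.range_subtype])

end Assembly

end Cfsg.Agent.Lib.Misc19.ThreeInv
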